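import Mathlib

set_option autoImplicit false

namespace Cfsg.Agent.Lib.Helper8

open Equiv
open scoped Pointwise

/-- `p`-subgroups of `Perm (Fin n)` with `n < p^2` are abelian -/
theorem perm_pgroup_comm (n p : ℕ) [hp : Fact p.Prime] (hn : n < p ^ 2)
    (P : Subgroup (Perm (Fin n))) (hP : IsPGroup p P) (g h : Perm (Fin n)) (hg : g ∈ P)
    (hh : h ∈ P) : g * h = h * g := by
  have hp' := hp.out
  apply Equiv.ext
  intro x
  obtain ⟨k, hk⟩ := hP.card_orbit x
  have hle : Nat.card (MulAction.orbit P x) ≤ n := by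
    have := Nat.card_le_card_of_injective (Subtype.val : MulAction.orbit P x → Fin n)
      Subtype.val_injective
    simpa using this
  have hk1 : k ≤ 1 := by
    by_contra hcon
    have h2 : p ^ 2 ≤ p ^ k := Nat.pow_le_pow_right hp'.pos (by omega)
    omega
  let φ := MulAction.toPermHom P (MulAction.orbit P x)
  have hR : IsPGroup p φ.range := hP.of_surjective φ.rangeRestrict φ.rangeRestrict_surjective
  obtain ⟨j, hj⟩ := IsPGroup.iff_card.1 hR
  have hdvd : Nat.card φ.range ∣ (Nat.card (MulAction.orbit P x)).factorial := by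
    rw [← Nat.card_perm]
    exact Subgroup.card_subgroup_dvd_card _
  have hj1 : j ≤ 1 := by
    by_contra hcon
    have h1 : p ^ 2 ∣ p.factorial := by
      refine dvd_trans (pow_dvd_pow p (by omega)) (hj ▸ hdvd.trans ?_)
      apply Nat.factorial_dvd_factorial
      rw [hk]
      calc p ^ k ≤ p ^ 1 := Nat.pow_le_pow_right hp'.pos hk1
        _ = p := pow_one p
    rw [← Nat.mul_factorial_pred hp'.pos.ne', pow_two] at h1
    have h2 : p ∣ (p - 1).factorial := Nat.dvd_of_mul_dvd_mul_left hp'.pos h1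
    have h3 := (hp'.dvd_factorial).1 h2
    have := hp'.pos
    omega
  have hcomm : ∀ a b : φ.range, a * b = b * a := by
    interval_cases j
    · rw [pow_zero] at hj
      have : Subsingleton φ.range := (Nat.card_eq_one_iff_unique.1 hj).1
      intro a b
      rw [Subsingleton.elim a b]
    · rw [pow_one] at hj
      have : IsCyclic φ.range := isCyclic_of_prime_card hj
      intro a b
      obtain ⟨g, hg⟩ := IsCyclic.exists_generator (α := φ.range)
      obtain ⟨i, rfl⟩ := Subgroup.mem_zpowers_iff.mp (hg a)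
      obtain ⟨j, rfl⟩ := Subgroup.mem_zpowers_iff.mp (hg b)
      rw [← zpow_add, ← zpow_add, add_comm]
  have h1 := hcomm ⟨φ ⟨g, hg⟩, ⟨_, rfl⟩⟩ ⟨φ ⟨h, hh⟩, ⟨_, rfl⟩⟩
  have h2 : φ ⟨g, hg⟩ * φ ⟨h, hh⟩ = φ ⟨h, hh⟩ * φ ⟨g, hg⟩ := congrArg Subtype.val h1
  have h3 := congrArg (fun σ : Perm (MulAction.orbit P x) =>
    ((σ ⟨x, MulAction.mem_orbit_self x⟩ : MulAction.orbit P x) : Fin n)) h2
  exact h3

/-- two non-commuting `p`-elements, one normalizing the cyclic group of the other, prevent the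
Sylow `p`-subgroups from being abelian -/
theorem sylow_not_comm_of_pair {G : Type*} [Group G] [Finite G] (p : ℕ) [Fact p.Prime]
    (X Y : G) (a b c : ℕ) (hX : X ^ (p ^ a) = 1) (hY : Y ^ (p ^ b) = 1)
    (hnorm : Y * X * Y⁻¹ = X ^ c) (hne : X * Y ≠ Y * X)
    (S : Sylow p G) (hS : ∀ s t : G, s ∈ S → t ∈ S → s * t = t * s) : False := by
  have hpow : ∀ (Z : G) (e : ℕ), Z ^ (p ^ e) = 1 → IsPGroup p (Subgroup.zpowers Z) := by
    intro Z e hZ
    rintro ⟨g, hg⟩
    obtain ⟨i, rfl⟩ := Subgroup.mem_zpowers_iff.1 hg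
    refine ⟨e, Subtype.ext ?_⟩
    show (Z ^ i) ^ (p ^ e) = 1
    rw [← zpow_natCast, ← zpow_mul, mul_comm, zpow_mul, zpow_natCast, hZ, one_zpow]
  have hconj : ∀ h, h ∈ (Subgroup.zpowers X : Set G) → Y * h * Y⁻¹ ∈ (Subgroup.zpowers X : Set G) := by
    intro h hh
    obtain ⟨i, rfl⟩ := Subgroup.mem_zpowers_iff.1 hh
    have : Y * X ^ i * Y⁻¹ = (X ^ c) ^ i := by rw [← hnorm, conj_zpow]
    rw [this]
    exact Subgroup.zpow_mem _ (Subgroup.pow_mem _ (Subgroup.mem_zpowers X) c) i
  have hYN : Y ∈ Subgroup.normalizer (Subgroup.zpowers X : Set G) :=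
    Subgroup.mem_normalizer_fintype hconj
  have hQ : IsPGroup p (Subgroup.zpowers X ⊔ Subgroup.zpowers Y : Subgroup G) :=
    IsPGroup.to_sup_of_normal_left' (hpow X a hX) (hpow Y b hY) (Subgroup.zpowers_le.2 hYN)
  obtain ⟨T, hT⟩ := hQ.exists_le_sylow
  obtain ⟨g, hg⟩ := MulAction.exists_smul_eq G S T
  have hXT : X ∈ (T : Subgroup G) := hT (Subgroup.mem_sup_left (Subgroup.mem_zpowers X))
  have hYT : Y ∈ (T : Subgroup G) := hT (Subgroup.mem_sup_right (Subgroup.mem_zpowers Y))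
  have hTS : (T : Subgroup G) = MulAut.conj g • (S : Subgroup G) := by
    rw [← hg]
    rfl
  rw [hTS, Subgroup.mem_smul_pointwise_iff_exists] at hXT hYT
  obtain ⟨s, hs, rfl⟩ := hXT
  obtain ⟨t, ht, rfl⟩ := hYT
  apply hne
  rw [MulAut.smul_def, MulAut.smul_def, ← map_mul, ← map_mul, hS s t hs ht]

/-- transfer to the alternating group of `Fin n` along an embedding -/
theorem alt_sylow_not_comm (n p : ℕ) [Fact p.Prime] {α : Type*} [Fintype α] [DecidableEq α]
    (ι : α ↪ Fin n) (x y : Perm α) (hsx : Perm.sign x = 1) (hsy : Perm.sign y = 1) (a b c : ℕ)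
    (hx : x ^ (p ^ a) = 1) (hy : y ^ (p ^ b) = 1) (hnorm : y * x * y⁻¹ = x ^ c)
    (hne : x * y ≠ y * x) (S : Sylow p (alternatingGroup (Fin n)))
    (hS : IsMulCommutative S) : False := by
  classical
  let θ : Perm α →* Perm (Fin n) := Perm.extendDomainHom (Equiv.ofInjective ι ι.injective)
  have hθ : Function.Injective θ := Perm.extendDomainHom_injective _
  have hsign : ∀ z : Perm α, Perm.sign (θ z) = Perm.sign z := fun z =>
    Perm.sign_extendDomain z (Equiv.ofInjective ι ι.injective)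
  have hmx : θ x ∈ alternatingGroup (Fin n) := by
    rw [Perm.mem_alternatingGroup, hsign, hsx]
  have hmy : θ y ∈ alternatingGroup (Fin n) := by
    rw [Perm.mem_alternatingGroup, hsign, hsy]
  apply sylow_not_comm_of_pair p (⟨θ x, hmx⟩ : alternatingGroup (Fin n)) ⟨θ y, hmy⟩ a b c
    _ _ _ _ S
  · intro s t hs ht
    have := (isMulCommutative_iff.1 hS) ⟨s, hs⟩ ⟨t, ht⟩
    exact congrArg Subtype.val this
  · apply Subtype.ext
    show (θ x) ^ (p ^ a) = 1
    rw [← map_pow, hx, map_one]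
  · apply Subtype.ext
    show (θ y) ^ (p ^ b) = 1
    rw [← map_pow, hy, map_one]
  · apply Subtype.ext
    show θ y * θ x * (θ y)⁻¹ = (θ x) ^ c
    rw [← map_inv, ← map_mul, ← map_mul, hnorm, map_pow]
  · intro hcon
    apply hne
    apply hθ
    rw [map_mul, map_mul]
    exact congrArg Subtype.val hcon

/-- the case `p = 2`: a dihedral group of order `8` inside `A_6` -/
theorem alt_sylow_two_not_comm (n : ℕ) (hn : 6 ≤ n) (S : Sylow 2 (alternatingGroup (Fin n)))
    (hS : IsMulCommutative S) : False := by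
  have hp2 : Fact (Nat.Prime 2) := ⟨Nat.prime_two⟩
  let x : Perm (Fin 6) := swap 0 1 * swap 1 2 * swap 2 3 * swap 4 5
  let y : Perm (Fin 6) := swap 0 2 * swap 4 5
  apply alt_sylow_not_comm n 2 (Fin.castLEEmb hn) x y _ _ 2 1 3 _ _ _ _ S hS
  · simp [x, Perm.sign_mul, Perm.sign_swap']
  · simp [y, Perm.sign_mul, Perm.sign_swap']
  · decide
  · decide
  · decide
  · decide

/-- the case of odd `p`: the modular group of order `p^3` inside `A_{p^2}` -/
theorem alt_sylow_odd_not_comm (n p : ℕ) [hp : Fact p.Prime] (hp2 : p ≠ 2) (hn : p ^ 2 ≤ n)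
    (S : Sylow p (alternatingGroup (Fin n))) (hS : IsMulCommutative S) : False := by
  have hp' := hp.out
  have hne0 : NeZero (p ^ 2) := ⟨pow_ne_zero 2 hp'.pos.ne'⟩
  have hodd : Odd p := hp'.odd_of_ne_two hp2
  have hp0 : (p : ZMod (p ^ 2)) ^ 2 = 0 := by
    rw [← Nat.cast_pow]
    exact ZMod.natCast_self _
  obtain ⟨ι⟩ : Nonempty (ZMod (p ^ 2) ↪ Fin n) := by
    apply Function.Embedding.nonempty_of_card_le
    rw [ZMod.card, Fintype.card_fin]
    exact hn
  let x : Perm (ZMod (p ^ 2)) := ⟨fun i => i + 1, fun i => i - 1, fun i => by ring, fun i => by ring⟩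
  let y : Perm (ZMod (p ^ 2)) := ⟨fun i => (1 + p) * i, fun i => (1 - p) * i,
    fun i => by
      show (1 - (p : ZMod (p ^ 2))) * ((1 + p) * i) = i
      linear_combination (-i) * hp0,
    fun i => by
      show (1 + (p : ZMod (p ^ 2))) * ((1 - p) * i) = i
      linear_combination (-i) * hp0⟩
  have hxk : ∀ (k : ℕ) (i : ZMod (p ^ 2)), (x ^ k) i = i + k := by
    intro k
    induction k with
    | zero => intro i; simp
    | succ k ih =>
      intro i
      rw [pow_succ' x k, Perm.mul_apply, ih]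
      show i + k + 1 = i + ((k + 1 : ℕ) : ZMod (p ^ 2))
      push_cast
      ring
  have hyk : ∀ (k : ℕ) (i : ZMod (p ^ 2)), (y ^ k) i = (1 + p) ^ k * i := by
    intro k
    induction k with
    | zero => intro i; simp
    | succ k ih =>
      intro i
      rw [pow_succ' y k, Perm.mul_apply, ih]
      show (1 + (p : ZMod (p ^ 2))) * ((1 + p) ^ k * i) = (1 + p) ^ (k + 1) * i
      ring
  have hx : x ^ (p ^ 2) = 1 := by
    apply Equiv.ext
    intro i
    rw [hxk, Nat.cast_pow, hp0, add_zero]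
    rfl
  have h1p : (1 + (p : ZMod (p ^ 2))) ^ p = 1 := by
    have h1 : (p : ZMod (p ^ 2)) ∣ (1 + (p : ZMod (p ^ 2))) - 1 := ⟨1, by ring⟩
    have h2 := dvd_sub_pow_of_dvd_sub h1 1
    rw [hp0, zero_dvd_iff, pow_one, one_pow] at h2
    exact sub_eq_zero.1 h2
  have hy : y ^ (p ^ 1) = 1 := by
    apply Equiv.ext
    intro i
    rw [pow_one, hyk, h1p, one_mul]
    rfl
  have hsgn : ∀ (z : Perm (ZMod (p ^ 2))) (e : ℕ), z ^ (p ^ e) = 1 → Perm.sign z = 1 := by
    intro z e hz
    have h1 : Perm.sign z ^ (p ^ e) = 1 := by rw [← map_pow, hz, map_one]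
    rcases Int.units_eq_one_or (Perm.sign z) with h | h
    · exact h
    · rw [h, Odd.neg_one_pow (hodd.pow)] at h1
      exact absurd h1 (by decide)
  apply alt_sylow_not_comm n p ι x y (hsgn x 2 hx) (hsgn y 1 hy) 2 1 (p + 1) hx hy _ _ S hS
  · apply Equiv.ext
    intro i
    rw [hxk]
    show (1 + (p : ZMod (p ^ 2))) * ((1 - p) * i + 1) = i + ((p + 1 : ℕ) : ZMod (p ^ 2))
    push_cast
    linear_combination (-i) * hp0
  · intro hcon
    have h1 := congrArg (fun σ : Perm (ZMod (p ^ 2)) => σ 0) hcon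
    have h2 : (1 + (p : ZMod (p ^ 2))) * 0 + 1 = (1 + p) * (0 + 1) := h1
    have h3 : (p : ZMod (p ^ 2)) = 0 := by linear_combination -h2
    rw [ZMod.natCast_eq_zero_iff] at h3
    have h4 := Nat.le_of_dvd hp'.pos h3
    have h5 : p * 2 ≤ p * p := Nat.mul_le_mul_left p hp'.two_le
    rw [pow_two] at h4
    have := hp'.pos
    omega

/-- S5164 -/
theorem alt_sylow_comm_iff (n p : ℕ) (hn : 6 ≤ n) [hp : Fact p.Prime]
    (S : Sylow p (alternatingGroup (Fin n))) : IsMulCommutative S ↔ n < p ^ 2 := by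
  constructor
  · intro hS
    by_contra hcon
    rw [not_lt] at hcon
    by_cases hp2 : p = 2
    · subst hp2
      exact alt_sylow_two_not_comm n hn S hS
    · exact alt_sylow_odd_not_comm n p hp2 hcon S hS
  · intro hlt
    have hP : IsPGroup p ((S : Subgroup (alternatingGroup (Fin n))).map
        (alternatingGroup (Fin n)).subtype) := S.isPGroup'.map _
    rw [isMulCommutative_iff]
    intro s t
    apply Subtype.ext
    apply Subtype.ext
    exact perm_pgroup_comm n p hlt _ hP s.1.1 t.1.1 ⟨s.1, s.2, rfl⟩ ⟨t.1, t.2, rfl⟩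

end Cfsg.Agent.Lib.Helper8
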