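import Mathlib
import Cfsg.Agent.Lib.Lead.CoprimeAbelian
import Cfsg.Agent.Lib.Lead.CharNormal
import Cfsg.Agent.Lib.Helper8.CharRealOrbits

set_option autoImplicit false

namespace Cfsg.Agent.Lib.Helper8

open scoped commutatorElement

/-- swapping the order of a double count -/
theorem card_subtype_prod_swap {α β : Type*} [Fintype α] [Fintype β] (P : α → β → Prop) :
    ∑ a : α, Nat.card {b : β // P a b} = ∑ b : β, Nat.card {a : α // P a b} := by
  rw [← card_subtype_prod P, ← card_subtype_prod (fun b a => P a b)]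
  exact Nat.card_congr ((Equiv.prodComm α β).subtypeEquiv (fun _ => Iff.rfl))

/-- sum of a constant over a predicate -/
theorem sum_ite_const_card {α : Type*} [Fintype α] (P : α → Prop) [DecidablePred P] (c : ℕ) :
    ∑ a : α, (if P a then c else 0) = Nat.card {a : α // P a} * c := by
  rw [Finset.sum_ite, Finset.sum_const, Finset.sum_const_zero, add_zero, smul_eq_mul,
    Nat.card_eq_fintype_card, Fintype.card_subtype]

/-- counting solutions of `κ₂ v₁ = κ₁ v₂` for commuting endomorphisms -/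
theorem card_pairs_endo {W : Type*} [Group W] [Finite W] (κ₁ κ₂ : W →* W)
    (hcomm : ∀ w, κ₁ (κ₂ w) = κ₂ (κ₁ w)) (hdisj : ∀ w, κ₁ (κ₁ w) = 1 → κ₁ w = 1) :
    Nat.card {q : W × W // κ₂ q.1 = κ₁ q.2} =
      Nat.card W * Nat.card {w : W // κ₁ w = 1 ∧ κ₂ w = 1} := by
  classical
  have : Fintype W := Fintype.ofFinite W
  have hKI : Nat.card κ₁.ker * Nat.card κ₁.range = Nat.card W := by
    rw [← Subgroup.index_ker]
    exact Subgroup.card_mul_index κ₁.ker
  have hμinj : Function.Injective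
      (fun cw : κ₁.ker × κ₁.range => (cw.1 : W) * (cw.2 : W)) := by
    rintro ⟨c, w⟩ ⟨c', w'⟩ h
    have h' : (c : W) * (w : W) = (c' : W) * (w' : W) := h
    have h1 : (c' : W)⁻¹ * (c : W) = (w' : W) * (w : W)⁻¹ := by
      rw [inv_mul_eq_iff_eq_mul, ← mul_assoc, ← h', mul_inv_cancel_right]
    have h2 : κ₁ ((c' : W)⁻¹ * (c : W)) = 1 := by
      rw [map_mul, map_inv, MonoidHom.mem_ker.1 c.2, MonoidHom.mem_ker.1 c'.2, inv_one, one_mul]
    obtain ⟨y, hy⟩ := κ₁.range.mul_mem w'.2 (κ₁.range.inv_mem w.2)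
    rw [h1, ← hy] at h2
    have h3 := hdisj y h2
    rw [hy] at h3
    have h4 : (w' : W) = (w : W) := mul_inv_eq_one.1 h3
    have h5 : (c' : W)⁻¹ * (c : W) = 1 := by rw [h1, h3]
    have h6 : (c : W) = (c' : W) := (inv_mul_eq_one.1 h5).symm
    exact Prod.ext (Subtype.ext h6) (Subtype.ext h4.symm)
  have hμ : Function.Bijective (fun cw : κ₁.ker × κ₁.range => (cw.1 : W) * (cw.2 : W)) :=
    hμinj.bijective_of_nat_card_le (by rw [Nat.card_prod, hKI])
  have ha : Nat.card {q : W × W // κ₂ q.1 = κ₁ q.2} =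
      Nat.card {v : W // κ₂ v ∈ κ₁.range} * Nat.card κ₁.ker := by
    rw [card_subtype_prod (fun v₁ v₂ : W => κ₂ v₁ = κ₁ v₂), ← Nat.card_prod]
    have hb : Nat.card ({v : W // κ₂ v ∈ κ₁.range} × κ₁.ker) =
        ∑ v₁ : W, Nat.card {k : κ₁.ker // κ₂ v₁ ∈ κ₁.range} := by
      rw [← card_subtype_prod (fun (v₁ : W) (k : κ₁.ker) => κ₂ v₁ ∈ κ₁.range)]
      exact Nat.card_congr ⟨fun x => ⟨(x.1.1, x.2), x.1.2⟩, fun y => (⟨y.1.1, y.2⟩, y.1.2),
        fun _ => rfl, fun _ => rfl⟩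
    rw [hb]
    apply Finset.sum_congr rfl
    intro v₁ _
    by_cases h : κ₂ v₁ ∈ κ₁.range
    · obtain ⟨u, hu⟩ := h
      apply Nat.card_congr
      exact
        { toFun := fun v₂ => ⟨⟨u⁻¹ * v₂.1, by
              rw [MonoidHom.mem_ker, map_mul, map_inv, hu, ← v₂.2, inv_mul_cancel]⟩, ⟨u, hu⟩⟩
          invFun := fun k => ⟨u * (k.1 : W), by
              rw [map_mul, MonoidHom.mem_ker.1 k.1.2, mul_one, hu]⟩
          left_inv := fun v₂ => Subtype.ext (mul_inv_cancel_left u v₂.1)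
          right_inv := fun k => Subtype.ext (Subtype.ext (inv_mul_cancel_left u (k.1 : W))) }
    · have h1 : IsEmpty {v₂ : W // κ₂ v₁ = κ₁ v₂} := ⟨fun v₂ => h ⟨v₂.1, v₂.2.symm⟩⟩
      have h2 : IsEmpty {k : κ₁.ker // κ₂ v₁ ∈ κ₁.range} := ⟨fun k => h k.2⟩
      rw [Nat.card_of_isEmpty, Nat.card_of_isEmpty]
  have hiff : ∀ cw : κ₁.ker × κ₁.range,
      κ₂ (cw.1 : W) = 1 ↔ κ₂ ((cw.1 : W) * (cw.2 : W)) ∈ κ₁.range := by
    rintro ⟨c, w⟩
    have hw : κ₂ (w : W) ∈ κ₁.range := by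
      obtain ⟨y, hy⟩ := w.2
      exact ⟨κ₂ y, by rw [hcomm, hy]⟩
    have hc : κ₁ (κ₂ (c : W)) = 1 := by
      rw [hcomm, MonoidHom.mem_ker.1 c.2, map_one]
    show κ₂ (c : W) = 1 ↔ κ₂ ((c : W) * (w : W)) ∈ κ₁.range
    rw [map_mul, Subgroup.mul_mem_cancel_right _ hw]
    constructor
    · intro h
      rw [h]
      exact Subgroup.one_mem _
    · rintro ⟨y, hy⟩
      rw [← hy] at hc
      rw [← hy]
      exact hdisj y hc
  have hb : Nat.card {v : W // κ₂ v ∈ κ₁.range} =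
      Nat.card {w : W // κ₁ w = 1 ∧ κ₂ w = 1} * Nat.card κ₁.range := by
    rw [← Nat.card_prod]
    have e1 : {cw : κ₁.ker × κ₁.range // κ₂ (cw.1 : W) = 1} ≃ {v : W // κ₂ v ∈ κ₁.range} :=
      (Equiv.ofBijective _ hμ).subtypeEquiv (fun cw => hiff cw)
    have e2 : {cw : κ₁.ker × κ₁.range // κ₂ (cw.1 : W) = 1} ≃
        {w : W // κ₁ w = 1 ∧ κ₂ w = 1} × κ₁.range :=
      { toFun := fun x => (⟨(x.1.1 : W), ⟨MonoidHom.mem_ker.1 x.1.1.2, x.2⟩⟩, x.1.2)
        invFun := fun y => ⟨(⟨y.1.1, MonoidHom.mem_ker.2 y.1.2.1⟩, y.2), y.1.2.2⟩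
        left_inv := fun x => rfl
        right_inv := fun y => rfl }
    exact Nat.card_congr (e1.symm.trans e2)
  rw [ha, hb, mul_assoc, mul_comm (Nat.card κ₁.range), hKI, mul_comm]

section semidirect

variable {X : Type*} [Group X]

/-- `v ↦ [v, g]` on an abelian normal subgroup -/
def commHom (V : Subgroup X) [hV : V.Normal] (hab : ∀ a ∈ V, ∀ b ∈ V, a * b = b * a) (g : X) :
    V →* V where
  toFun v := ⟨(v : X) * (g * (v : X) * g⁻¹)⁻¹,
    V.mul_mem v.2 (V.inv_mem (hV.conj_mem v v.2 g))⟩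
  map_one' := by
    apply Subtype.ext
    show (1 : X) * (g * (1 : X) * g⁻¹)⁻¹ = 1
    group
  map_mul' a b := by
    apply Subtype.ext
    show ((a : X) * (b : X)) * (g * ((a : X) * (b : X)) * g⁻¹)⁻¹ =
      (a : X) * (g * (a : X) * g⁻¹)⁻¹ * ((b : X) * (g * (b : X) * g⁻¹)⁻¹)
    have ha' : (g * (a : X) * g⁻¹)⁻¹ ∈ V := V.inv_mem (hV.conj_mem a a.2 g)
    have hb' : (g * (b : X) * g⁻¹)⁻¹ ∈ V := V.inv_mem (hV.conj_mem b b.2 g)
    have e : (g * ((a : X) * (b : X)) * g⁻¹)⁻¹ =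
        (g * (b : X) * g⁻¹)⁻¹ * (g * (a : X) * g⁻¹)⁻¹ := by group
    rw [e]
    calc (a : X) * (b : X) * ((g * (b : X) * g⁻¹)⁻¹ * (g * (a : X) * g⁻¹)⁻¹)
        = (a : X) * (((b : X) * (g * (b : X) * g⁻¹)⁻¹) * (g * (a : X) * g⁻¹)⁻¹) := by
          simp only [mul_assoc]
      _ = (a : X) * ((g * (a : X) * g⁻¹)⁻¹ * ((b : X) * (g * (b : X) * g⁻¹)⁻¹)) := by
          rw [hab _ (V.mul_mem b.2 hb') _ ha']
      _ = (a : X) * (g * (a : X) * g⁻¹)⁻¹ * ((b : X) * (g * (b : X) * g⁻¹)⁻¹) := by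
          simp only [mul_assoc]

theorem commHom_eq_one_iff (V : Subgroup X) [hV : V.Normal]
    (hab : ∀ a ∈ V, ∀ b ∈ V, a * b = b * a) (g : X) (v : V) :
    commHom V hab g v = 1 ↔ g * (v : X) = (v : X) * g := by
  constructor
  · intro h
    have h' : (v : X) * (g * (v : X) * g⁻¹)⁻¹ = 1 := congrArg Subtype.val h
    have h2 : (v : X) = g * (v : X) * g⁻¹ := mul_inv_eq_one.1 h'
    calc g * (v : X) = g * (v : X) * g⁻¹ * g := by group
      _ = (v : X) * g := by rw [← h2]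
  · intro h
    apply Subtype.ext
    show (v : X) * (g * (v : X) * g⁻¹)⁻¹ = 1
    rw [h, mul_inv_cancel_right, mul_inv_cancel]

theorem commHom_comm (V : Subgroup X) [hV : V.Normal]
    (hab : ∀ a ∈ V, ∀ b ∈ V, a * b = b * a) (g₁ g₂ : X) (h : g₁ * g₂ = g₂ * g₁) (v : V) :
    commHom V hab g₁ (commHom V hab g₂ v) = commHom V hab g₂ (commHom V hab g₁ v) := by
  have key : ∀ (g : X) (w : V),
      commHom V hab g w = w * (Cfsg.Agent.Lib.Lead.conjHom V g w)⁻¹ := fun g w => rfl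
  have eqv : ∀ y : V, Cfsg.Agent.Lib.Lead.conjHom V g₂ (commHom V hab g₁ y) =
      commHom V hab g₁ (Cfsg.Agent.Lib.Lead.conjHom V g₂ y) := by
    intro y
    apply Subtype.ext
    show g₂ * ((y : X) * (g₁ * (y : X) * g₁⁻¹)⁻¹) * g₂⁻¹ =
      (g₂ * (y : X) * g₂⁻¹) * (g₁ * (g₂ * (y : X) * g₂⁻¹) * g₁⁻¹)⁻¹
    have e1 : g₁ * (g₂ * (y : X) * g₂⁻¹) * g₁⁻¹ = (g₁ * g₂) * (y : X) * (g₁ * g₂)⁻¹ := by group
    rw [e1, h]
    group
  rw [key g₂ (commHom V hab g₁ v), eqv, ← map_inv (commHom V hab g₁),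
    ← map_mul (commHom V hab g₁), ← key]

theorem commHom_disj [Finite X] (V : Subgroup X) [hV : V.Normal]
    (hab : ∀ a ∈ V, ∀ b ∈ V, a * b = b * a) (g : X)
    (hcop : (orderOf g).Coprime (Nat.card V)) (w : V)
    (h : commHom V hab g (commHom V hab g w) = 1) : commHom V hab g w = 1 := by
  have hVc : IsMulCommutative V := ⟨⟨fun a b => Subtype.ext (hab a a.2 b b.2)⟩⟩
  have h1 := Cfsg.Agent.Lib.Lead.coprime_abelian_inf (Subgroup.zpowers g) V
    (by rw [Subgroup.normalizer_eq_top]; exact le_top)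
    (by rw [Nat.card_zpowers]; exact hcop)
  have h2 : ((commHom V hab g w : V) : X) ∈
      (V ⊓ Subgroup.centralizer ((Subgroup.zpowers g : Subgroup X) : Set X)) ⊓
        ⁅V, Subgroup.zpowers g⁆ := by
    refine ⟨⟨(commHom V hab g w).2, ?_⟩, ?_⟩
    · have h3 := (commHom_eq_one_iff V hab g _).1 h
      show ((commHom V hab g w : V) : X) ∈
        Subgroup.centralizer ((Subgroup.zpowers g : Subgroup X) : Set X)
      rw [Subgroup.mem_centralizer_iff]
      intro y hy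
      obtain ⟨n, rfl⟩ := Subgroup.mem_zpowers_iff.1 hy
      exact (Commute.zpow_left (h3 : Commute g _) n).eq
    · have e : ((commHom V hab g w : V) : X) = ⁅(w : X), g⁆ := by
        rw [commutatorElement_def]
        show (w : X) * (g * (w : X) * g⁻¹)⁻¹ = (w : X) * g * (w : X)⁻¹ * g⁻¹
        group
      rw [e]
      exact Subgroup.commutator_mem_commutator w.2 (Subgroup.mem_zpowers g)
  rw [h1, Subgroup.mem_bot] at h2
  exact Subtype.ext h2

/-- commuting pairs of `G` centralizing `v` -/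
def CentPair (G : Subgroup X) (v : X) (gg : ↥G × ↥G) : Prop :=
  (gg.1 : X) * (gg.2 : X) = (gg.2 : X) * (gg.1 : X) ∧ (gg.1 : X) * v = v * (gg.1 : X) ∧
    (gg.2 : X) * v = v * (gg.2 : X)

theorem card_centPair (G : Subgroup X) (v : X) :
    Nat.card {gg : ↥G × ↥G // CentPair G v gg} =
      Nat.card (ConjClasses ↥(G ⊓ Subgroup.centralizer ({v} : Set X))) *
        Nat.card ↥(G ⊓ Subgroup.centralizer ({v} : Set X)) := by
  rw [← card_comm_eq_card_conjClasses_mul_card]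
  apply Nat.card_congr
  exact
    { toFun := fun gg => ⟨(⟨(gg.1.1 : X), ⟨gg.1.1.2,
            Subgroup.mem_centralizer_singleton_iff.2 gg.2.2.1⟩⟩,
          ⟨(gg.1.2 : X), ⟨gg.1.2.2, Subgroup.mem_centralizer_singleton_iff.2 gg.2.2.2⟩⟩),
          Subtype.ext gg.2.1⟩
      invFun := fun p => ⟨(⟨(p.1.1 : X), p.1.1.2.1⟩, ⟨(p.1.2 : X), p.1.2.2.1⟩),
          ⟨congrArg Subtype.val p.2.eq, Subgroup.mem_centralizer_singleton_iff.1 p.1.1.2.2,
            Subgroup.mem_centralizer_singleton_iff.1 p.1.2.2.2⟩⟩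
      left_inv := fun gg => rfl
      right_inv := fun p => rfl }

theorem card_centPair_conj (G : Subgroup X) (v : X) (h : X) (hh : h ∈ G) :
    Nat.card {gg : ↥G × ↥G // CentPair G (h * v * h⁻¹) gg} =
      Nat.card {gg : ↥G × ↥G // CentPair G v gg} := by
  have key : ∀ a b : X,
      (h * a * h⁻¹) * (h * b * h⁻¹) = (h * b * h⁻¹) * (h * a * h⁻¹) ↔ a * b = b * a := by
    intro a b
    have e1 : (h * a * h⁻¹) * (h * b * h⁻¹) = h * (a * b) * h⁻¹ := by group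
    have e2 : (h * b * h⁻¹) * (h * a * h⁻¹) = h * (b * a) * h⁻¹ := by group
    rw [e1, e2]
    constructor
    · intro e
      exact mul_left_cancel (mul_right_cancel e)
    · intro e
      rw [e]
  let c : ↥G ≃ ↥G :=
    { toFun := fun x => ⟨h * (x : X) * h⁻¹, G.mul_mem (G.mul_mem hh x.2) (G.inv_mem hh)⟩
      invFun := fun x => ⟨h⁻¹ * (x : X) * h, G.mul_mem (G.mul_mem (G.inv_mem hh) x.2) hh⟩
      left_inv := fun x => by
        apply Subtype.ext
        show h⁻¹ * (h * (x : X) * h⁻¹) * h = x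
        group
      right_inv := fun x => by
        apply Subtype.ext
        show h * (h⁻¹ * (x : X) * h) * h⁻¹ = x
        group }
  symm
  apply Nat.card_congr
  exact (Equiv.prodCongr c c).subtypeEquiv (fun gg => by
    show CentPair G v gg ↔
      ((h * (gg.1 : X) * h⁻¹) * (h * (gg.2 : X) * h⁻¹) =
          (h * (gg.2 : X) * h⁻¹) * (h * (gg.1 : X) * h⁻¹) ∧
        (h * (gg.1 : X) * h⁻¹) * (h * v * h⁻¹) = (h * v * h⁻¹) * (h * (gg.1 : X) * h⁻¹) ∧
        (h * (gg.2 : X) * h⁻¹) * (h * v * h⁻¹) = (h * v * h⁻¹) * (h * (gg.2 : X) * h⁻¹))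
    rw [key, key, key]
    exact Iff.rfl)

theorem card_orbit_mul_card_cent [Finite X] (V : Subgroup X) [hVn : V.Normal] (G : Subgroup X)
    (s : X) (hs : s ∈ V) :
    Nat.card {v : ↥V // ∃ g ∈ G, g * (v : X) * g⁻¹ = s} *
      Nat.card ↥(G ⊓ Subgroup.centralizer ({s} : Set X)) = Nat.card G := by
  classical
  have : Fintype V := Fintype.ofFinite V
  have h1 : Nat.card G =
      Nat.card {q : ↥V × ↥G // (q.2 : X) * (q.1 : X) * (q.2 : X)⁻¹ = s} := by
    apply Nat.card_congr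
    exact
      { toFun := fun g => ⟨(⟨(g : X)⁻¹ * s * (g : X), by
            have h0 := hVn.conj_mem s hs (g : X)⁻¹
            rwa [inv_inv] at h0⟩, g), by
            show (g : X) * ((g : X)⁻¹ * s * (g : X)) * (g : X)⁻¹ = s
            group⟩
        invFun := fun q => q.1.2
        left_inv := fun g => rfl
        right_inv := fun q => by
          apply Subtype.ext
          apply Prod.ext
          · apply Subtype.ext
            show (q.1.2 : X)⁻¹ * s * (q.1.2 : X) = (q.1.1 : X)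
            have hq : (q.1.2 : X) * (q.1.1 : X) * (q.1.2 : X)⁻¹ = s := q.2
            have e : (q.1.2 : X)⁻¹ * ((q.1.2 : X) * (q.1.1 : X) * (q.1.2 : X)⁻¹) * (q.1.2 : X) =
                (q.1.1 : X) := by group
            rw [hq] at e
            exact e
          · rfl }
  rw [h1, card_subtype_prod (fun (v : ↥V) (g : ↥G) => (g : X) * (v : X) * (g : X)⁻¹ = s),
    ← sum_ite_const_card]
  apply Finset.sum_congr rfl
  intro v _
  by_cases h : ∃ g ∈ G, g * (v : X) * g⁻¹ = s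
  · rw [if_pos h]
    obtain ⟨g₀, hg₀, hg₀s⟩ := h
    symm
    apply Nat.card_congr
    exact
      { toFun := fun g => ⟨(g.1 : X) * g₀⁻¹, ⟨G.mul_mem g.1.2 (G.inv_mem hg₀), by
            show (g.1 : X) * g₀⁻¹ ∈ Subgroup.centralizer ({s} : Set X)
            rw [Subgroup.mem_centralizer_singleton_iff]
            calc (g.1 : X) * g₀⁻¹ * s = (g.1 : X) * g₀⁻¹ * (g₀ * (v : X) * g₀⁻¹) := by rw [hg₀s]
              _ = ((g.1 : X) * (v : X) * (g.1 : X)⁻¹) * ((g.1 : X) * g₀⁻¹) := by group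
              _ = s * ((g.1 : X) * g₀⁻¹) := by rw [g.2]⟩⟩
        invFun := fun c => ⟨⟨(c : X) * g₀, G.mul_mem c.2.1 hg₀⟩, by
            have hc := Subgroup.mem_centralizer_singleton_iff.1 c.2.2
            show (c : X) * g₀ * (v : X) * ((c : X) * g₀)⁻¹ = s
            calc (c : X) * g₀ * (v : X) * ((c : X) * g₀)⁻¹
                = (c : X) * (g₀ * (v : X) * g₀⁻¹) * (c : X)⁻¹ := by group
              _ = (c : X) * s * (c : X)⁻¹ := by rw [hg₀s]
              _ = s := by rw [hc, mul_inv_cancel_right]⟩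
        left_inv := fun g => Subtype.ext (Subtype.ext (inv_mul_cancel_right (g.1 : X) g₀))
        right_inv := fun c => Subtype.ext (mul_inv_cancel_right (c : X) g₀) }
  · rw [if_neg h]
    have h2 : IsEmpty {g : ↥G // (g : X) * (v : X) * (g : X)⁻¹ = s} :=
      ⟨fun g => h ⟨g.1, g.1.2, g.2⟩⟩
    rw [Nat.card_of_isEmpty]

theorem card_commPairs_semidirect [Finite X] (V : Subgroup X) [hVn : V.Normal] [Fintype ↥V]
    (hab : ∀ a ∈ V, ∀ b ∈ V, a * b = b * a) (G : Subgroup X)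
    (hGV : Subgroup.IsComplement' V G) (hcop : (Nat.card V).Coprime (Nat.card G)) :
    Nat.card {p : X × X // Commute p.1 p.2} =
      Nat.card V * ∑ v : ↥V, Nat.card {gg : ↥G × ↥G // CentPair G (v : X) gg} := by
  classical
  have : Fintype G := Fintype.ofFinite G
  have hbij : Function.Bijective (fun x : ↥V × ↥G => (x.1 : X) * (x.2 : X)) := hGV
  let e : ↥V × ↥G ≃ X := Equiv.ofBijective _ hbij
  let E : (↥G × ↥G) × (↥V × ↥V) ≃ X × X :=
    (Equiv.prodComm _ _).trans ((Equiv.prodProdProdComm ↥V ↥V ↥G ↥G).trans (Equiv.prodCongr e e))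
  have hE : ∀ q : (↥G × ↥G) × (↥V × ↥V),
      E q = ((q.2.1 : X) * (q.1.1 : X), (q.2.2 : X) * (q.1.2 : X)) := fun q => rfl
  have h1 : Nat.card {p : X × X // Commute p.1 p.2} =
      Nat.card {q : (↥G × ↥G) × (↥V × ↥V) //
        Commute ((q.2.1 : X) * (q.1.1 : X)) ((q.2.2 : X) * (q.1.2 : X))} :=
    (Nat.card_congr (E.subtypeEquiv (fun q => by rw [hE]))).symm
  rw [h1, card_subtype_prod (fun (gg : ↥G × ↥G) (vv : ↥V × ↥V) =>
      Commute ((vv.1 : X) * (gg.1 : X)) ((vv.2 : X) * (gg.2 : X))),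
    ← card_subtype_prod_swap (fun (gg : ↥G × ↥G) (v : ↥V) => CentPair G (v : X) gg),
    Finset.mul_sum]
  apply Finset.sum_congr rfl
  rintro ⟨g₁, g₂⟩ _
  show Nat.card {vv : ↥V × ↥V // Commute ((vv.1 : X) * (g₁ : X)) ((vv.2 : X) * (g₂ : X))} =
    Nat.card ↥V * Nat.card {v : ↥V // CentPair G (v : X) (g₁, g₂)}
  by_cases hc : (g₁ : X) * (g₂ : X) = (g₂ : X) * (g₁ : X)
  · have hF3 : ∀ vv : ↥V × ↥V,
        Commute ((vv.1 : X) * (g₁ : X)) ((vv.2 : X) * (g₂ : X)) ↔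
          commHom V hab (g₂ : X) vv.1 = commHom V hab (g₁ : X) vv.2 := by
      intro vv
      have ha' : (g₂ : X) * (vv.1 : X) * (g₂ : X)⁻¹ ∈ V := hVn.conj_mem _ vv.1.2 _
      have hb' : (g₁ : X) * (vv.2 : X) * (g₁ : X)⁻¹ ∈ V := hVn.conj_mem _ vv.2.2 _
      have e1 : ((vv.1 : X) * (g₁ : X)) * ((vv.2 : X) * (g₂ : X)) =
          ((vv.1 : X) * ((g₁ : X) * (vv.2 : X) * (g₁ : X)⁻¹)) * ((g₁ : X) * (g₂ : X)) := by group
      have e2 : ((vv.2 : X) * (g₂ : X)) * ((vv.1 : X) * (g₁ : X)) =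
          ((vv.2 : X) * ((g₂ : X) * (vv.1 : X) * (g₂ : X)⁻¹)) * ((g₁ : X) * (g₂ : X)) := by
        rw [hc]
        group
      have e3 : ((g₁ : X) * (vv.2 : X) * (g₁ : X)⁻¹)⁻¹ * ((g₂ : X) * (vv.1 : X) * (g₂ : X)⁻¹) =
          ((g₂ : X) * (vv.1 : X) * (g₂ : X)⁻¹) * ((g₁ : X) * (vv.2 : X) * (g₁ : X)⁻¹)⁻¹ :=
        hab _ (V.inv_mem hb') _ ha'
      show ((vv.1 : X) * (g₁ : X)) * ((vv.2 : X) * (g₂ : X)) =
        ((vv.2 : X) * (g₂ : X)) * ((vv.1 : X) * (g₁ : X)) ↔ _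
      rw [e1, e2, mul_left_inj, Subtype.ext_iff]
      show _ ↔ (vv.1 : X) * ((g₂ : X) * (vv.1 : X) * (g₂ : X)⁻¹)⁻¹ =
        (vv.2 : X) * ((g₁ : X) * (vv.2 : X) * (g₁ : X)⁻¹)⁻¹
      rw [mul_inv_eq_iff_eq_mul, ← eq_mul_inv_iff_mul_eq, mul_assoc (vv.2 : X),
        mul_assoc (vv.2 : X), e3]
    have hord : (orderOf (g₁ : X)).Coprime (Nat.card V) := by
      have h2 : orderOf (g₁ : X) ∣ Nat.card G := by
        rw [Subgroup.orderOf_coe]
        exact orderOf_dvd_natCard _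
      exact (hcop.symm).coprime_dvd_left h2
    rw [Nat.card_congr (Equiv.subtypeEquivRight hF3),
      card_pairs_endo (commHom V hab (g₁ : X)) (commHom V hab (g₂ : X))
        (commHom_comm V hab (g₁ : X) (g₂ : X) hc)
        (fun w h => commHom_disj V hab (g₁ : X) hord w h)]
    congr 1
    apply Nat.card_congr
    apply Equiv.subtypeEquivRight
    intro v
    rw [commHom_eq_one_iff, commHom_eq_one_iff]
    unfold CentPair
    exact ⟨fun h => ⟨hc, h.1, h.2⟩, fun h => ⟨h.2.1, h.2.2⟩⟩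
  · have h1 : IsEmpty {vv : ↥V × ↥V //
        Commute ((vv.1 : X) * (g₁ : X)) ((vv.2 : X) * (g₂ : X))} :=
      ⟨fun vv => by
        have ha' : (g₂ : X) * (vv.1.1 : X) * (g₂ : X)⁻¹ ∈ V := hVn.conj_mem _ vv.1.1.2 _
        have hb' : (g₁ : X) * (vv.1.2 : X) * (g₁ : X)⁻¹ ∈ V := hVn.conj_mem _ vv.1.2.2 _
        have e1 : ((vv.1.1 : X) * (g₁ : X)) * ((vv.1.2 : X) * (g₂ : X)) =
            ((vv.1.1 : X) * ((g₁ : X) * (vv.1.2 : X) * (g₁ : X)⁻¹)) * ((g₁ : X) * (g₂ : X)) := by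
          group
        have e2 : ((vv.1.2 : X) * (g₂ : X)) * ((vv.1.1 : X) * (g₁ : X)) =
            ((vv.1.2 : X) * ((g₂ : X) * (vv.1.1 : X) * (g₂ : X)⁻¹)) * ((g₂ : X) * (g₁ : X)) := by
          group
        have h3 : (fun x : ↥V × ↥G => (x.1 : X) * (x.2 : X))
            (⟨(vv.1.1 : X) * ((g₁ : X) * (vv.1.2 : X) * (g₁ : X)⁻¹),
              V.mul_mem vv.1.1.2 hb'⟩, g₁ * g₂) =
            (fun x : ↥V × ↥G => (x.1 : X) * (x.2 : X))
            (⟨(vv.1.2 : X) * ((g₂ : X) * (vv.1.1 : X) * (g₂ : X)⁻¹),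
              V.mul_mem vv.1.2.2 ha'⟩, g₂ * g₁) := by
          show ((vv.1.1 : X) * ((g₁ : X) * (vv.1.2 : X) * (g₁ : X)⁻¹)) * ((g₁ : X) * (g₂ : X)) =
            ((vv.1.2 : X) * ((g₂ : X) * (vv.1.1 : X) * (g₂ : X)⁻¹)) * ((g₂ : X) * (g₁ : X))
          rw [← e1, ← e2]
          exact vv.2.eq
        have h4 := congrArg Prod.snd (hbij.1 h3)
        exact hc (congrArg Subtype.val h4)⟩
    have h2 : IsEmpty {v : ↥V // CentPair G (v : X) (g₁, g₂)} := ⟨fun v => hc v.2.1⟩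
    have e1 : Nat.card {vv : ↥V × ↥V //
        Commute ((vv.1 : X) * (g₁ : X)) ((vv.2 : X) * (g₂ : X))} = 0 := Nat.card_of_isEmpty
    have e2 : Nat.card {v : ↥V // CentPair G (v : X) (g₁, g₂)} = 0 := Nat.card_of_isEmpty
    rw [e1, e2, mul_zero]

/-- S4956 -/
theorem semidirect_class_count [Finite X] (V : Subgroup X) [hVn : V.Normal]
    (hab : ∀ a ∈ V, ∀ b ∈ V, a * b = b * a) (G : Subgroup X) (hGV : Subgroup.IsComplement' V G)
    (hcop : (Nat.card V).Coprime (Nat.card G)) (S : Finset X) (hSV : ∀ s ∈ S, s ∈ V)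
    (hrep : ∀ v ∈ V, ∃! s, s ∈ S ∧ ∃ g ∈ G, g * v * g⁻¹ = s) :
    Nat.card (ConjClasses X) =
      ∑ s ∈ S, Nat.card (ConjClasses ↥(G ⊓ Subgroup.centralizer ({s} : Set X))) := by
  classical
  have : Fintype X := Fintype.ofFinite X
  have : Fintype V := Fintype.ofFinite V
  have : Fintype G := Fintype.ofFinite G
  have h1 := card_comm_eq_card_conjClasses_mul_card X
  rw [card_commPairs_semidirect V hab G hGV hcop] at h1
  have h2 : ∑ v : ↥V, Nat.card {gg : ↥G × ↥G // CentPair G (v : X) gg} =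
      Nat.card G * ∑ s ∈ S, Nat.card (ConjClasses ↥(G ⊓ Subgroup.centralizer ({s} : Set X))) := by
    have h3 : ∀ v : ↥V, Nat.card {gg : ↥G × ↥G // CentPair G (v : X) gg} =
        ∑ s ∈ S, (if (∃ g ∈ G, g * (v : X) * g⁻¹ = s) then
          Nat.card {gg : ↥G × ↥G // CentPair G s gg} else 0) := by
      intro v
      obtain ⟨s₀, ⟨hs₀, g, hg, rfl⟩, huniq⟩ := hrep v v.2
      rw [Finset.sum_eq_single_of_mem (g * (v : X) * g⁻¹) hs₀, if_pos ⟨g, hg, rfl⟩,
        card_centPair_conj G (v : X) g hg]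
      intro s hs hne
      rw [if_neg]
      rintro ⟨g', hg', hg's⟩
      exact hne (huniq s ⟨hs, g', hg', hg's⟩)
    rw [Finset.sum_congr rfl (fun v _ => h3 v), Finset.sum_comm, Finset.mul_sum]
    apply Finset.sum_congr rfl
    intro s hs
    rw [sum_ite_const_card, card_centPair, mul_comm (Nat.card (ConjClasses _)), ← mul_assoc,
      card_orbit_mul_card_cent V G s (hSV s hs)]
  have h4 := hGV.card_mul_card
  rw [h2, ← mul_assoc, h4] at h1
  exact (Nat.eq_of_mul_eq_mul_left Nat.card_pos (h1.trans (mul_comm _ _))).symm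

end semidirect

end Cfsg.Agent.Lib.Helper8
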