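import Mathlib

set_option autoImplicit false

namespace Cfsg.Agent.Lib.Helper8

/-- comparing cardinalities fibrewise -/
theorem card_le_of_fiber_le {α β γ : Type*} [Finite α] [Finite β] [Fintype γ] (f : α → γ)
    (g : β → γ) (h : ∀ c, Nat.card {a // f a = c} ≤ Nat.card {b // g b = c}) :
    Nat.card α ≤ Nat.card β := by
  rw [Nat.card_congr (Equiv.sigmaFiberEquiv f).symm, Nat.card_congr (Equiv.sigmaFiberEquiv g).symm,
    Nat.card_sigma, Nat.card_sigma]
  exact Finset.sum_le_sum (fun c _ => h c)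

/-- S4965: the split extension has the largest class number -/
theorem class_count_le_split {X : Type*} [Group X] [Finite X] (V : Subgroup X) [hV : V.Normal]
    (φ : X ⧸ V →* MulAut ↥V)
    (hφ : ∀ (x : X) (v : ↥V), ((φ (QuotientGroup.mk x) v : ↥V) : X) = x * v * x⁻¹) :
    Nat.card (ConjClasses X) ≤ Nat.card (ConjClasses (SemidirectProduct ↥V (X ⧸ V) φ)) := by
  classical
  have : Fintype (X ⧸ V) := Fintype.ofFinite _
  have hfinS : Finite (SemidirectProduct ↥V (X ⧸ V) φ) :=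
    Finite.of_equiv _ SemidirectProduct.equivProd.symm
  have hcardS : Nat.card (SemidirectProduct ↥V (X ⧸ V) φ) = Nat.card X := by
    rw [Nat.card_congr SemidirectProduct.equivProd, Nat.card_prod,
      Subgroup.card_eq_card_quotient_mul_card_subgroup V, mul_comm]
  have h1 := card_comm_eq_card_conjClasses_mul_card X
  have h2 := card_comm_eq_card_conjClasses_mul_card (SemidirectProduct ↥V (X ⧸ V) φ)
  rw [hcardS] at h2
  have hle : Nat.card { p : X × X // Commute p.1 p.2 } ≤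
      Nat.card { p : SemidirectProduct ↥V (X ⧸ V) φ × SemidirectProduct ↥V (X ⧸ V) φ //
        Commute p.1 p.2 } := by
    apply card_le_of_fiber_le
      (fun p : { p : X × X // Commute p.1 p.2 } =>
        ((QuotientGroup.mk p.1.1 : X ⧸ V), (QuotientGroup.mk p.1.2 : X ⧸ V)))
      (fun p : { p : SemidirectProduct ↥V (X ⧸ V) φ × SemidirectProduct ↥V (X ⧸ V) φ //
        Commute p.1 p.2 } => (p.1.1.right, p.1.2.right))
    intro c
    by_cases hne : Nonempty {a : { p : X × X // Commute p.1 p.2 } //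
        ((QuotientGroup.mk a.1.1 : X ⧸ V), (QuotientGroup.mk a.1.2 : X ⧸ V)) = c}
    · obtain ⟨⟨⟨⟨x₀, y₀⟩, h0⟩, hq⟩⟩ := hne
      have h0' : x₀ * y₀ = y₀ * x₀ := h0
      have hq1 : (QuotientGroup.mk x₀ : X ⧸ V) = c.1 := congrArg Prod.fst hq
      have hq2 : (QuotientGroup.mk y₀ : X ⧸ V) = c.2 := congrArg Prod.snd hq
      have hmem1 : ∀ x : X, (QuotientGroup.mk x : X ⧸ V) = c.1 → x * x₀⁻¹ ∈ V := by
        intro x hx
        rw [← QuotientGroup.eq_one_iff, QuotientGroup.mk_mul, QuotientGroup.mk_inv, hx, hq1,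
          mul_inv_cancel]
      have hmem2 : ∀ y : X, (QuotientGroup.mk y : X ⧸ V) = c.2 → y * y₀⁻¹ ∈ V := by
        intro y hy
        rw [← QuotientGroup.eq_one_iff, QuotientGroup.mk_mul, QuotientGroup.mk_inv, hy, hq2,
          mul_inv_cancel]
      have hφ1 : ∀ v : V, ((φ c.1 v : V) : X) = x₀ * v * x₀⁻¹ := by
        intro v
        rw [← hq1]
        exact hφ x₀ v
      have hφ2 : ∀ v : V, ((φ c.2 v : V) : X) = y₀ * v * y₀⁻¹ := by
        intro v
        rw [← hq2]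
        exact hφ y₀ v
      have hcomm : ∀ (x y : X) (hx : (QuotientGroup.mk x : X ⧸ V) = c.1)
          (hy : (QuotientGroup.mk y : X ⧸ V) = c.2), x * y = y * x →
          Commute (⟨⟨x * x₀⁻¹, hmem1 x hx⟩, c.1⟩ : SemidirectProduct ↥V (X ⧸ V) φ)
            ⟨⟨y * y₀⁻¹, hmem2 y hy⟩, c.2⟩ := by
        intro x y hx hy hxy
        show (⟨⟨x * x₀⁻¹, hmem1 x hx⟩, c.1⟩ : SemidirectProduct ↥V (X ⧸ V) φ) *
            ⟨⟨y * y₀⁻¹, hmem2 y hy⟩, c.2⟩ = ⟨⟨y * y₀⁻¹, hmem2 y hy⟩, c.2⟩ *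
            ⟨⟨x * x₀⁻¹, hmem1 x hx⟩, c.1⟩
        apply SemidirectProduct.ext
        · rw [SemidirectProduct.mul_left, SemidirectProduct.mul_left]
          apply Subtype.ext
          show (x * x₀⁻¹) * ((φ c.1 ⟨y * y₀⁻¹, hmem2 y hy⟩ : V) : X) =
            (y * y₀⁻¹) * ((φ c.2 ⟨x * x₀⁻¹, hmem1 x hx⟩ : V) : X)
          rw [hφ1, hφ2]
          show x * x₀⁻¹ * (x₀ * (y * y₀⁻¹) * x₀⁻¹) = y * y₀⁻¹ * (y₀ * (x * x₀⁻¹) * y₀⁻¹)
          calc x * x₀⁻¹ * (x₀ * (y * y₀⁻¹) * x₀⁻¹) = x * y * (x₀ * y₀)⁻¹ := by group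
            _ = y * x * (y₀ * x₀)⁻¹ := by rw [hxy, h0']
            _ = y * y₀⁻¹ * (y₀ * (x * x₀⁻¹) * y₀⁻¹) := by group
        · rw [SemidirectProduct.mul_right, SemidirectProduct.mul_right]
          show c.1 * c.2 = c.2 * c.1
          rw [← hq1, ← hq2, ← QuotientGroup.mk_mul, ← QuotientGroup.mk_mul, h0']
      apply Nat.card_le_card_of_injective
        (fun a : {a : { p : X × X // Commute p.1 p.2 } //
            ((QuotientGroup.mk a.1.1 : X ⧸ V), (QuotientGroup.mk a.1.2 : X ⧸ V)) = c} =>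
          (⟨⟨(⟨⟨a.1.1.1 * x₀⁻¹, hmem1 _ (congrArg Prod.fst a.2)⟩, c.1⟩,
              ⟨⟨a.1.1.2 * y₀⁻¹, hmem2 _ (congrArg Prod.snd a.2)⟩, c.2⟩),
            hcomm _ _ (congrArg Prod.fst a.2) (congrArg Prod.snd a.2) a.1.2⟩, rfl⟩ :
          {b : { p : SemidirectProduct ↥V (X ⧸ V) φ × SemidirectProduct ↥V (X ⧸ V) φ //
            Commute p.1 p.2 } // (b.1.1.right, b.1.2.right) = c}))
      intro a b hab'
      have e1 := congrArg (fun z : {b : { p : SemidirectProduct ↥V (X ⧸ V) φ ×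
          SemidirectProduct ↥V (X ⧸ V) φ // Commute p.1 p.2 } //
          (b.1.1.right, b.1.2.right) = c} => ((z.1.1.1.left : V) : X)) hab'
      have e2 := congrArg (fun z : {b : { p : SemidirectProduct ↥V (X ⧸ V) φ ×
          SemidirectProduct ↥V (X ⧸ V) φ // Commute p.1 p.2 } //
          (b.1.1.right, b.1.2.right) = c} => ((z.1.1.2.left : V) : X)) hab'
      have e1' : a.1.1.1 * x₀⁻¹ = b.1.1.1 * x₀⁻¹ := e1
      have e2' : a.1.1.2 * y₀⁻¹ = b.1.1.2 * y₀⁻¹ := e2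
      exact Subtype.ext (Subtype.ext (Prod.ext (mul_right_cancel e1') (mul_right_cancel e2')))
    · have hemp := not_nonempty_iff.1 hne
      have e := @Nat.card_of_isEmpty _ hemp
      exact e.le.trans (Nat.zero_le _)
  rw [h1, h2] at hle
  exact Nat.le_of_mul_le_mul_right hle Nat.card_pos

end Cfsg.Agent.Lib.Helper8
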