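import Mathlib
import Cfsg.Prelude.Def_FusionSystem
import Cfsg.Agent.Lib.Helper8.Constr1
import Cfsg.Agent.Lib.Helper8.GroupFusion3
import Cfsg.Agent.Lib.Helper8.GroupFusionNormal

set_option autoImplicit false

namespace Cfsg.Agent.Lib.Helper8

open Cfsg Cfsg.FusionSystem

/-- the fusion system of a group with normal image in a group with constrained fusion system is
constrained -/
theorem gfs_normal_constrained8 {G : Type*} [Group G] [Finite G] (p : ℕ) [Fact p.Prime]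
    (S : Sylow p G) (hF : (groupFusionSystem (S : Subgroup G)).IsConstrained p)
    {H : Type*} [Group H] (ι : H →* G) (hι : Function.Injective ι)
    (hn : ∀ (g : G) (h : H), ∃ h' : H, ι h' = g * ι h * g⁻¹)
    (T : Subgroup H) (hT : ∀ x : H, x ∈ T ↔ ι x ∈ (S : Subgroup G)) :
    (∃ R : Sylow p H, (R : Subgroup H) = T) ∧ (groupFusionSystem T).IsConstrained p := by
  haveI : Finite H := Finite.of_injective ι hι
  have hSyl : ∃ R : Sylow p H, (R : Subgroup H) = T := by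
    haveI : ι.range.Normal := by
      refine ⟨fun n hn' g => ?_⟩
      obtain ⟨h, rfl⟩ := hn'
      obtain ⟨h', hh'⟩ := hn g h
      exact ⟨h', hh'⟩
    obtain ⟨R₀, hR₀⟩ := sylow_inf_normal p S ι.range
    have hinj : Function.Injective ι.rangeRestrict :=
      fun a b hab => hι (congrArg Subtype.val hab)
    have h1 : (R₀ : Subgroup ι.range) ≤ ι.rangeRestrict.range :=
      fun x _ => ι.rangeRestrict_surjective x
    refine ⟨R₀.comapOfInjective ι.rangeRestrict hinj h1, ?_⟩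
    ext x
    have e : x ∈ (R₀.comapOfInjective ι.rangeRestrict hinj h1 : Subgroup H) ↔
        ι.rangeRestrict x ∈ (R₀ : Subgroup ι.range) := Iff.rfl
    rw [e, hR₀, Subgroup.mem_subgroupOf, hT]
    constructor
    · intro h
      exact (Subgroup.mem_inf.1 h).1
    · intro h
      exact Subgroup.mem_inf.2 ⟨h, ⟨x, rfl⟩⟩
  obtain ⟨R, hR⟩ := hSyl
  have hEsat : (groupFusionSystem T).IsSaturated p := by
    have h := gfs_saturated p R
    rw [hR] at h
    exact h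
  have hTp : IsPGroup p T := by
    rw [← hR]
    exact R.2
  obtain ⟨hFsat, Q₀, hQ₀n, hQ₀c⟩ := hF
  obtain ⟨F, hFdef⟩ : ∃ F : FusionSystem (S : Subgroup G),
    F = groupFusionSystem (S : Subgroup G) := ⟨_, rfl⟩
  obtain ⟨E, hEdef⟩ : ∃ E : FusionSystem T, E = groupFusionSystem T := ⟨_, rfl⟩
  rw [← hFdef] at hFsat hQ₀n hQ₀c
  rw [← hEdef] at hEsat
  refine ⟨⟨R, hR⟩, ?_⟩
  rw [← hEdef]
  have hSp : IsPGroup p (S : Subgroup G) := S.2
  have hFmem : ∀ (P : Subgroup G) (φ : P →* G), φ ∈ F.Hom P ↔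
      (P ≤ (S : Subgroup G) ∧ (∀ x : P, φ x ∈ (S : Subgroup G)) ∧
        ∃ g : G, ∀ x : P, φ x = g * (x : G) * g⁻¹) := by
    intro P φ
    rw [hFdef]
    exact Iff.rfl
  have hEmem : ∀ (P : Subgroup H) (φ : P →* H), φ ∈ E.Hom P ↔
      (P ≤ T ∧ (∀ x : P, φ x ∈ T) ∧ ∃ g : H, ∀ x : P, φ x = g * (x : H) * g⁻¹) := by
    intro P φ
    rw [hEdef]
    exact Iff.rfl
  have hcoreN : F.IsNormal F.core := fs_isNormal_core F
  have hcoreC : F.IsCentric F.core := fs_centric_of_le F hQ₀c (le_sSup hQ₀n) hcoreN.1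
  have hradc := core_radical8 F p hSp hFsat hcoreC
  obtain ⟨Q, hQdef⟩ : ∃ Q : Subgroup G, Q = F.core := ⟨_, rfl⟩
  rw [← hQdef] at hcoreN hcoreC hradc
  have hQ : F.IsNormal Q := hcoreN
  have hQS := hQ.1
  have hQsc := fs_normal_stronglyClosed F hQ
  have hSNQ : (S : Subgroup G) ≤ Subgroup.normalizer (Q : Set G) :=
    fs_stronglyClosed_le_normalizer F hQsc
  obtain ⟨R', hR'def⟩ : ∃ R' : Subgroup H, R' = Q.comap ι := ⟨_, rfl⟩
  have hR'mem : ∀ x : H, x ∈ R' ↔ ι x ∈ Q := by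
    intro x
    rw [hR'def]
    exact Subgroup.mem_comap
  have hR'T : R' ≤ T := fun x hx => (hT x).2 (hQS ((hR'mem x).1 hx))
  have hR'sc : E.StronglyClosed R' := by
    refine ⟨hR'T, fun P hP φ hφ x => ?_⟩
    obtain ⟨hPT, hφT, g, hg⟩ := (hEmem P φ).1 hφ
    rw [hR'mem, hg, map_mul, map_mul, map_inv]
    have hP'Q : P.map ι ≤ Q := by
      rintro _ ⟨y, hy, rfl⟩
      exact (hR'mem y).1 (hP hy)
    have hφ' : conjHom (P.map ι) (ι g) ∈ F.Hom (P.map ι) := by
      rw [hFmem]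
      refine ⟨hP'Q.trans hQS, ?_, ι g, fun y => rfl⟩
      rintro ⟨_, y, hy, rfl⟩
      show ι g * ι y * (ι g)⁻¹ ∈ (S : Subgroup G)
      have h1 := hφT ⟨y, hy⟩
      rw [hg, hT, map_mul, map_mul, map_inv] at h1
      exact h1
    exact hQsc.2 (P.map ι) hP'Q _ hφ' ⟨ι x, ⟨x, x.2, rfl⟩⟩
  obtain ⟨T', hT'def⟩ : ∃ T' : Subgroup G, T' = (S : Subgroup G) ⊓ ι.range := ⟨_, rfl⟩
  have hT'mem : ∀ y : G, y ∈ T' ↔ (y ∈ (S : Subgroup G) ∧ ∃ h : H, ι h = y) := by
    intro y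
    rw [hT'def]
    exact Subgroup.mem_inf
  have hT'sc : F.StronglyClosed T' := by
    refine ⟨fun y hy => ((hT'mem y).1 hy).1, fun P hP φ hφ x => ?_⟩
    obtain ⟨hPS, hφS, g, hg⟩ := (hFmem P φ).1 hφ
    obtain ⟨-, h, hh⟩ := (hT'mem _).1 (hP x.2)
    obtain ⟨h', hh'⟩ := hn g h
    exact (hT'mem _).2 ⟨hφS x, h', by rw [hh', hh, hg]⟩
  have hcent : centralizerIn T R' ≤ R' := by
    intro t ht
    obtain ⟨htT, htC⟩ := mem_centralizerIn.1 ht
    have hgS : ι t ∈ (S : Subgroup G) := (hT t).1 htT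
    have hgN : ι t ∈ Subgroup.normalizer (Q : Set G) := hSNQ hgS
    have hcg : Q.normalizerMonoidHom ⟨ι t, hgN⟩ ∈ F.autGroup Q :=
      autInducedBy_le_autGroup F hQS
        ((mem_autInducedBy_iff (S : Subgroup G) Q _).2 ⟨ι t, hgS, fun x => rfl⟩)
    have hmem : (⟨Q.normalizerMonoidHom ⟨ι t, hgN⟩, hcg⟩ : F.autGroup Q) ∈
        chainStab8 F T' Q := by
      refine ⟨fun y hy => ?_, fun y => ?_⟩
      · apply Subtype.ext
        show ι t * (y : G) * (ι t)⁻¹ = y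
        obtain ⟨-, r, hr⟩ := (hT'mem _).1 hy
        have hrR : r ∈ R' := (hR'mem r).2 (by rw [hr]; exact y.2)
        have h := htC r hrR
        have h' : ι r * ι t = ι t * ι r := by rw [← map_mul, ← map_mul, h]
        rw [← hr, ← h']
        group
      · show (y : G)⁻¹ * (ι t * (y : G) * (ι t)⁻¹) ∈ T'
        refine (hT'mem _).2 ⟨?_, ?_⟩
        · exact (S : Subgroup G).mul_mem ((S : Subgroup G).inv_mem (hQS y.2))
            ((S : Subgroup G).mul_mem ((S : Subgroup G).mul_mem hgS (hQS y.2))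
              ((S : Subgroup G).inv_mem hgS))
        · obtain ⟨h', hh'⟩ := hn (y : G)⁻¹ t
          refine ⟨h' * t⁻¹, ?_⟩
          rw [map_mul, map_inv, hh']
          group
    have hK := chainStab_le_pCore8 F p hSp T' Q hT'sc hQS hmem
    have hgU : ι t ∈ coreUp8 F p Q := (mem_coreUp8 F p Q (ι t)).2 ⟨hgS, hgN, ⟨_, hK, rfl⟩⟩
    exact (hR'mem t).2 (hradc hgU)
  have hR'n : E.IsNormal R' := by
    rw [fs_normal_iff_stronglyClosed E p hTp hEsat]
    refine ⟨hR'sc, fun P hcen hradP => ?_⟩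
    have hPT := hcen.1
    haveI : Finite P := finite_of_le_fs hPT
    have hCP : centralizerIn T P ≤ P := hcen.2 P (fs_isConj_refl E hPT)
    have hTNR : T ≤ Subgroup.normalizer (R' : Set H) := fs_stronglyClosed_le_normalizer E hR'sc
    apply fs_le_of_normalizer_le hTp hPT hR'T hTNR
    intro q hq hqN
    have hqT : q ∈ T := hR'T hq
    have hBle : autInducedBy R' P ≤ E.autGroup P :=
      (autInducedBy_mono hR'T P).trans (autInducedBy_le_autGroup E hPT)
    haveI : Finite R' := finite_of_le_fs hR'T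
    have hBp : IsPGroup p (autInducedBy R' P) := autInducedBy_isPGroup (hTp.to_le hR'T) P
    have hBn : ∀ a ∈ E.autGroup P, ∀ k ∈ autInducedBy R' P,
        a * k * a⁻¹ ∈ autInducedBy R' P := by
      intro a ha k hk
      obtain ⟨r, hr, hkr⟩ := (mem_autInducedBy_iff R' P k).1 hk
      have haE : P.subtype.comp a.toMonoidHom ∈ E.Hom P := (mem_autGroup_iff E hPT a).1 ha
      obtain ⟨-, -, h, hh⟩ := (hEmem P _).1 haE
      have hh' : ∀ x : P, ((a x : P) : H) = h * x * h⁻¹ := hh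
      have hP'S : P.map ι ≤ (S : Subgroup G) := by
        rintro _ ⟨y, hy, rfl⟩
        exact (hT y).1 (hPT hy)
      have hφ' : conjHom (P.map ι) (ι h) ∈ F.Hom (P.map ι) := by
        rw [hFmem]
        refine ⟨hP'S, ?_, ι h, fun y => rfl⟩
        rintro ⟨_, y, hy, rfl⟩
        show ι h * ι y * (ι h)⁻¹ ∈ (S : Subgroup G)
        have h1 : ι ((a ⟨y, hy⟩ : P) : H) ∈ (S : Subgroup G) :=
          (hT _).1 (hPT (a ⟨y, hy⟩).2)
        rw [hh', map_mul, map_mul, map_inv] at h1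
        exact h1
      obtain ⟨ψ, hψ, hag, hmap⟩ := hQ.2 (P.map ι) _ hφ'
      obtain ⟨-, -, n, hnψ⟩ := (hFmem _ ψ).1 hψ
      have hnP : ∀ y : P, n * ι y * n⁻¹ = ι h * ι y * (ι h)⁻¹ := by
        intro y
        have h1 := hag ⟨ι y, ⟨y, y.2, rfl⟩⟩
        rw [hnψ] at h1
        exact h1
      have hnQ : ∀ z ∈ Q, n * z * n⁻¹ ∈ Q := by
        intro z hz
        have hle2 : (Q.subgroupOf (P.map ι ⊔ Q)).map ψ ≤ Q := le_of_eq hmap
        have h1 : ψ ⟨z, (le_sup_right : Q ≤ P.map ι ⊔ Q) hz⟩ ∈ Q :=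
          hle2 ⟨⟨z, (le_sup_right : Q ≤ P.map ι ⊔ Q) hz⟩, Subgroup.mem_subgroupOf.2 hz, rfl⟩
        rw [hnψ] at h1
        exact h1
      obtain ⟨r', hr'⟩ := hn n r
      have hr'R : r' ∈ R' := (hR'mem r').2 (by rw [hr']; exact hnQ _ ((hR'mem r).1 hr))
      rw [mem_autInducedBy_iff]
      refine ⟨r', hr'R, fun y => ?_⟩
      apply hι
      obtain ⟨x₀, hx₀⟩ : ∃ x₀ : P, x₀ = a⁻¹ y := ⟨_, rfl⟩
      have hax₀ : a x₀ = y := by rw [hx₀, MulAut.apply_inv_self]
      have e1 : ι ((a (k x₀) : P) : H) = n * (ι r * ι (x₀ : H) * (ι r)⁻¹) * n⁻¹ := by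
        rw [hh', map_mul, map_mul, map_inv, ← hnP (k x₀), hkr, map_mul, map_mul, map_inv]
      have e2 : ι (y : H) = n * ι (x₀ : H) * n⁻¹ := by
        rw [← hax₀, hh', map_mul, map_mul, map_inv, ← hnP x₀]
      show ι ((a (k (a⁻¹ y)) : P) : H) = ι (r' * (y : H) * r'⁻¹)
      rw [← hx₀, e1, map_mul, map_mul, map_inv, hr', e2]
      group
    have hBK := le_pcoreMap8 p (E.autGroup P) (autInducedBy R' P) hBle hBn hBp
    have hinn : P.normalizerMonoidHom ⟨q, hqN⟩ ∈ Inn P := by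
      rw [← hradP.2]
      exact hBK ((mem_autInducedBy_iff R' P _).2 ⟨q, hq, fun x => rfl⟩)
    exact mem_of_conj_mem_inn hPT hCP hqT hqN hinn
  have hR'c : E.IsCentric R' := by
    refine ⟨hR'T, ?_⟩
    rintro R'' ⟨φ, hφ, rfl⟩
    have hle : φ.range ≤ R' := by
      rintro _ ⟨x, rfl⟩
      exact hR'sc.2 R' le_rfl φ hφ x
    rw [fs_range_eq_of_le E hφ hle]
    exact hcent
  exact ⟨hEsat, R', hR'n, hR'c⟩

theorem gfs_subnormal_constrained8 {G : Type*} [Group G] [Finite G] (p : ℕ) [Fact p.Prime]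
    (S : Sylow p G) (hF : (groupFusionSystem (S : Subgroup G)).IsConstrained p)
    (H : Subgroup G) (hH : H.IsSubnormal) :
    (∃ R : Sylow p H, (R : Subgroup H) = (S : Subgroup G).subgroupOf H) ∧
      (groupFusionSystem ((S : Subgroup G).subgroupOf H)).IsConstrained p := by
  induction hH with
  | top =>
    exact gfs_normal_constrained8 p S hF (⊤ : Subgroup G).subtype Subtype.coe_injective
      (fun g h => ⟨⟨g * h * g⁻¹, Subgroup.mem_top _⟩, rfl⟩) _ (fun x => Iff.rfl)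
  | step H K h_le hK hN ih =>
    obtain ⟨⟨R, hR⟩, hc⟩ := ih
    rw [← hR] at hc
    refine gfs_normal_constrained8 p R hc (Subgroup.inclusion h_le)
      (Subgroup.inclusion_injective h_le) (fun g h => ?_) _ (fun x => ?_)
    · have hmem : (g : G) * (h : G) * (g : G)⁻¹ ∈ H :=
        Subgroup.mem_subgroupOf.1
          (hN.conj_mem ⟨(h : G), h_le h.2⟩ (Subgroup.mem_subgroupOf.2 h.2) g)
      exact ⟨⟨(g : G) * (h : G) * (g : G)⁻¹, hmem⟩, Subtype.ext rfl⟩
    · rw [hR]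
      exact Iff.rfl

end Cfsg.Agent.Lib.Helper8
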