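import Mathlib
import Cfsg.Prelude.Def_FusionSystem
import Cfsg.Agent.Lib.Helper8.Constr1
import Cfsg.Agent.Lib.Helper8.Constr2
import Cfsg.Agent.Lib.Helper8.GroupFusion3
import Cfsg.Agent.Lib.Helper8.FusionRealized
import Cfsg.Agent.Lib.Helper8.Prod1

set_option autoImplicit false

namespace Cfsg.Agent.Lib.Helper8

open Cfsg Cfsg.FusionSystem

/-- the fusion system of a quotient by a central subgroup of a group with constrained fusion
system is constrained -/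
theorem gfs_central_quot_constrained8 {L : Type*} [Group L] [Finite L] (p : ℕ) [Fact p.Prime]
    (T : Sylow p L) (hF : (groupFusionSystem (T : Subgroup L)).IsConstrained p)
    {M : Type*} [Group M] (π : L →* M) (hπ : Function.Surjective π)
    (hker : ∀ z : L, π z = 1 → ∀ y : L, z * y = y * z) :
    (groupFusionSystem ((T : Subgroup L).map π)).IsConstrained p := by
  haveI : Finite M := Finite.of_surjective π hπ
  have hEsat0 : (groupFusionSystem ((T : Subgroup L).map π)).IsSaturated p :=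
    gfs_saturated p (T.mapSurjective hπ)
  obtain ⟨Tb, hTb⟩ : ∃ Tb : Subgroup M, Tb = (T : Subgroup L).map π := ⟨_, rfl⟩
  rw [← hTb] at hEsat0 ⊢
  have hTbmem : ∀ m : M, m ∈ Tb ↔ ∃ t ∈ (T : Subgroup L), π t = m := by
    intro m
    rw [hTb]
    exact Subgroup.mem_map
  have hTbp : IsPGroup p Tb := by
    rw [hTb]
    exact T.2.map π
  obtain ⟨hFsat, Q₀, hQ₀n, hQ₀c⟩ := hF
  obtain ⟨F, hFdef⟩ : ∃ F : FusionSystem (T : Subgroup L),
    F = groupFusionSystem (T : Subgroup L) := ⟨_, rfl⟩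
  obtain ⟨E, hEdef⟩ : ∃ E : FusionSystem Tb, E = groupFusionSystem Tb := ⟨_, rfl⟩
  rw [← hFdef] at hFsat hQ₀n hQ₀c
  rw [← hEdef] at hEsat0 ⊢
  have hEsat := hEsat0
  have hTp : IsPGroup p (T : Subgroup L) := T.2
  have hFmem : ∀ (P : Subgroup L) (φ : P →* L), φ ∈ F.Hom P ↔
      (P ≤ (T : Subgroup L) ∧ (∀ x : P, φ x ∈ (T : Subgroup L)) ∧
        ∃ g : L, ∀ x : P, φ x = g * (x : L) * g⁻¹) := by
    intro P φ
    rw [hFdef]
    exact Iff.rfl
  have hEmem : ∀ (P : Subgroup M) (φ : P →* M), φ ∈ E.Hom P ↔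
      (P ≤ Tb ∧ (∀ x : P, φ x ∈ Tb) ∧ ∃ g : M, ∀ x : P, φ x = g * (x : M) * g⁻¹) := by
    intro P φ
    rw [hEdef]
    exact Iff.rfl
  have hcoreN : F.IsNormal F.core := fs_isNormal_core F
  have hcoreC : F.IsCentric F.core := fs_centric_of_le F hQ₀c (le_sSup hQ₀n) hcoreN.1
  have hradc := core_radical8 F p hTp hFsat hcoreC
  obtain ⟨Q, hQdef⟩ : ∃ Q : Subgroup L, Q = F.core := ⟨_, rfl⟩
  rw [← hQdef] at hcoreN hcoreC hradc
  have hQ : F.IsNormal Q := hcoreN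
  have hQS := hQ.1
  have hQsc := fs_normal_stronglyClosed F hQ
  have hSNQ : (T : Subgroup L) ≤ Subgroup.normalizer (Q : Set L) :=
    fs_stronglyClosed_le_normalizer F hQsc
  have hcentral : ∀ z : L, (∀ y : L, z * y = y * z) → (∃ k : ℕ, z ^ (p ^ k) = 1) →
      z ∈ (T : Subgroup L) := by
    rintro z hz ⟨k, hk⟩
    have hzn : (Subgroup.zpowers z).Normal := by
      refine ⟨fun n hn g => ?_⟩
      obtain ⟨j, rfl⟩ := Subgroup.mem_zpowers_iff.1 hn
      have hc0 : Commute g z := (hz g).symm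
      have hc : Commute g (z ^ j) := hc0.zpow_right j
      have e : g * z ^ j * g⁻¹ = z ^ j := by
        rw [hc.eq, mul_inv_cancel_right]
      rw [e]
      exact Subgroup.mem_zpowers_iff.2 ⟨j, rfl⟩
    have hzp : IsPGroup p (Subgroup.zpowers z) := zpowers_isPGroup8 p k z hk
    exact pCore_le_sylow8 p T (le_pCore8 hzn hzp (Subgroup.mem_zpowers z))
  have hlift : ∀ y : L, (∃ k : ℕ, y ^ (p ^ k) = 1) → π y ∈ Tb → y ∈ (T : Subgroup L) := by
    rintro y ⟨a, ha⟩ hy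
    obtain ⟨t, ht, hty⟩ := (hTbmem _).1 hy
    have hz : π (t⁻¹ * y) = 1 := by
      rw [map_mul, map_inv, hty, inv_mul_cancel]
    have hzc := hker _ hz
    obtain ⟨b, hb⟩ := hTp ⟨t, ht⟩
    have hb' : t ^ (p ^ b) = 1 := congrArg Subtype.val hb
    have e' : t * (t⁻¹ * y) = y := by group
    have hzpow : (t⁻¹ * y) ^ (p ^ (a + b)) = 1 := by
      have hcomm : Commute t (t⁻¹ * y) := (hzc t).symm
      have h1 : (t * (t⁻¹ * y)) ^ (p ^ (a + b)) =
          t ^ (p ^ (a + b)) * (t⁻¹ * y) ^ (p ^ (a + b)) := hcomm.mul_pow _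
      rw [e'] at h1
      have h2 : y ^ (p ^ (a + b)) = 1 := by
        rw [pow_add, pow_mul, ha, one_pow]
      have h3 : t ^ (p ^ (a + b)) = 1 := by
        rw [add_comm, pow_add, pow_mul, hb', one_pow]
      rw [h2, h3, one_mul] at h1
      exact h1.symm
    have hzT := hcentral _ hzc ⟨_, hzpow⟩
    rw [← e']
    exact (T : Subgroup L).mul_mem ht hzT
  obtain ⟨Qb, hQb⟩ : ∃ Qb : Subgroup M, Qb = Q.map π := ⟨_, rfl⟩
  have hQbmem : ∀ m : M, m ∈ Qb ↔ ∃ q ∈ Q, π q = m := by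
    intro m
    rw [hQb]
    exact Subgroup.mem_map
  have hQbT : Qb ≤ Tb := by
    intro m hm
    obtain ⟨q, hq, rfl⟩ := (hQbmem m).1 hm
    exact (hTbmem _).2 ⟨q, hQS hq, rfl⟩
  have hQbn : E.IsNormal Qb := by
    refine ⟨hQbT, fun Pb φb hφb => ?_⟩
    obtain ⟨hPbT, hφbT, m, hm⟩ := (hEmem Pb φb).1 hφb
    obtain ⟨g, rfl⟩ := hπ m
    obtain ⟨P, hPdef⟩ : ∃ P : Subgroup L, P = Pb.comap π ⊓ (T : Subgroup L) := ⟨_, rfl⟩
    have hPmem : ∀ x : L, x ∈ P ↔ (π x ∈ Pb ∧ x ∈ (T : Subgroup L)) := by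
      intro x
      rw [hPdef]
      exact Subgroup.mem_inf
    have hPT : P ≤ (T : Subgroup L) := fun x hx => ((hPmem x).1 hx).2
    have hφ : conjHom P g ∈ F.Hom P := by
      rw [hFmem]
      refine ⟨hPT, fun x => ?_, g, fun x => rfl⟩
      obtain ⟨hxPb, hxT⟩ := (hPmem _).1 x.2
      show g * (x : L) * g⁻¹ ∈ (T : Subgroup L)
      apply hlift
      · obtain ⟨k, hk⟩ := hTp ⟨(x : L), hxT⟩
        have hk' : (x : L) ^ (p ^ k) = 1 := congrArg Subtype.val hk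
        refine ⟨k, ?_⟩
        rw [conj_pow, hk', mul_one, mul_inv_cancel]
      · have h1 := hφbT ⟨π x, hxPb⟩
        rw [hm] at h1
        rw [map_mul, map_mul, map_inv]
        exact h1
    obtain ⟨ψ, hψ, hag, hmap⟩ := hQ.2 P _ hφ
    obtain ⟨-, -, n, hnψ⟩ := (hFmem _ ψ).1 hψ
    have hnP : ∀ x ∈ P, n * x * n⁻¹ = g * x * g⁻¹ := by
      intro x hx
      have h1 := hag ⟨x, hx⟩
      rw [hnψ] at h1
      exact h1
    have hnQ : ∀ z ∈ Q, n * z * n⁻¹ ∈ Q := by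
      intro z hz
      have hle2 : (Q.subgroupOf (P ⊔ Q)).map ψ ≤ Q := le_of_eq hmap
      have h1 : ψ ⟨z, (le_sup_right : Q ≤ P ⊔ Q) hz⟩ ∈ Q :=
        hle2 ⟨⟨z, (le_sup_right : Q ≤ P ⊔ Q) hz⟩, Subgroup.mem_subgroupOf.2 hz, rfl⟩
      rw [hnψ] at h1
      exact h1
    have hnQ' : ∀ z ∈ Q, ∃ z' ∈ Q, n * z' * n⁻¹ = z := by
      intro z hz
      have hge : Q ≤ (Q.subgroupOf (P ⊔ Q)).map ψ := le_of_eq hmap.symm
      obtain ⟨w, hw, hwz⟩ := hge hz
      refine ⟨(w : L), Subgroup.mem_subgroupOf.1 hw, ?_⟩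
      rw [← hwz, hnψ]
    have hvalP : ∀ x : Pb, π n * (x : M) * (π n)⁻¹ = φb x := by
      intro x
      obtain ⟨t, ht, htx⟩ := (hTbmem _).1 (hPbT x.2)
      have htP : t ∈ P := (hPmem t).2 ⟨by rw [htx]; exact x.2, ht⟩
      have e1 : π (n * t * n⁻¹) = π (g * t * g⁻¹) := by rw [hnP t htP]
      simp only [map_mul, map_inv] at e1
      rw [hm, ← htx]
      exact e1
    have hle : Pb ⊔ Qb ≤ Tb := sup_le hPbT hQbT
    have hvalQ : ∀ y ∈ Qb, π n * y * (π n)⁻¹ ∈ Qb := by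
      intro y hy
      obtain ⟨q, hq, rfl⟩ := (hQbmem y).1 hy
      refine (hQbmem _).2 ⟨n * q * n⁻¹, hnQ q hq, ?_⟩
      simp only [map_mul, map_inv]
    have hψb : conjHom (Pb ⊔ Qb) (π n) ∈ E.Hom (Pb ⊔ Qb) := by
      rw [hEmem]
      refine ⟨hle, ?_, π n, fun x => rfl⟩
      apply sup_map_mem8
      · intro x
        show π n * (x : M) * (π n)⁻¹ ∈ Tb
        rw [hvalP x]
        exact hφbT x
      · intro x
        exact hQbT (hvalQ _ x.2)
    refine ⟨conjHom (Pb ⊔ Qb) (π n), hψb, fun x => hvalP x, ?_⟩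
    ext y
    constructor
    · rintro ⟨w, hw, rfl⟩
      exact hvalQ _ (Subgroup.mem_subgroupOf.1 hw)
    · intro hy
      obtain ⟨q, hq, rfl⟩ := (hQbmem y).1 hy
      obtain ⟨q', hq', hq'q⟩ := hnQ' q hq
      have hq'b : π q' ∈ Qb := (hQbmem _).2 ⟨q', hq', rfl⟩
      refine ⟨⟨π q', (le_sup_right : Qb ≤ Pb ⊔ Qb) hq'b⟩, Subgroup.mem_subgroupOf.2 hq'b, ?_⟩
      show π n * π q' * (π n)⁻¹ = π q
      rw [← hq'q]
      simp only [map_mul, map_inv]
  obtain ⟨T', hT'def⟩ : ∃ T' : Subgroup L, T' = (T : Subgroup L) ⊓ Subgroup.center L :=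
    ⟨_, rfl⟩
  have hT'mem : ∀ y : L, y ∈ T' ↔ (y ∈ (T : Subgroup L) ∧ ∀ g : L, g * y = y * g) := by
    intro y
    rw [hT'def, Subgroup.mem_inf, Subgroup.mem_center_iff]
  have hT'sc : F.StronglyClosed T' := by
    refine ⟨fun y hy => ((hT'mem y).1 hy).1, fun P hP φ hφ x => ?_⟩
    obtain ⟨hPS, hφS, g, hg⟩ := (hFmem P φ).1 hφ
    obtain ⟨hxT, hxc⟩ := (hT'mem _).1 (hP x.2)
    have e : φ x = (x : L) := by
      rw [hg, hxc g, mul_inv_cancel_right]
    rw [e]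
    exact hP x.2
  have hcent : centralizerIn Tb Qb ≤ Qb := by
    intro tb htb
    obtain ⟨htbT, htbC⟩ := mem_centralizerIn.1 htb
    obtain ⟨t, ht, rfl⟩ := (hTbmem tb).1 htbT
    have hgN : t ∈ Subgroup.normalizer (Q : Set L) := hSNQ ht
    have hcg : Q.normalizerMonoidHom ⟨t, hgN⟩ ∈ F.autGroup Q :=
      autInducedBy_le_autGroup F hQS
        ((mem_autInducedBy_iff (T : Subgroup L) Q _).2 ⟨t, ht, fun x => rfl⟩)
    have hzc : ∀ y ∈ Q, ∀ g : L,
        (t * y * t⁻¹ * y⁻¹) * g = g * (t * y * t⁻¹ * y⁻¹) := by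
      intro y hy
      apply hker
      have h := htbC (π y) ((hQbmem _).2 ⟨y, hy, rfl⟩)
      simp only [map_mul, map_inv]
      rw [← h]
      group
    have hmem : (⟨Q.normalizerMonoidHom ⟨t, hgN⟩, hcg⟩ : F.autGroup Q) ∈
        chainStab8 F T' Q := by
      refine ⟨fun y hy => ?_, fun y => ?_⟩
      · apply Subtype.ext
        show t * (y : L) * t⁻¹ = y
        obtain ⟨-, hyc⟩ := (hT'mem _).1 hy
        rw [hyc t, mul_inv_cancel_right]
      · show (y : L)⁻¹ * (t * (y : L) * t⁻¹) ∈ T'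
        refine (hT'mem _).2 ⟨?_, fun g => ?_⟩
        · exact (T : Subgroup L).mul_mem ((T : Subgroup L).inv_mem (hQS y.2))
            ((T : Subgroup L).mul_mem ((T : Subgroup L).mul_mem ht (hQS y.2))
              ((T : Subgroup L).inv_mem ht))
        · have hz := hzc y y.2
          have e : (y : L)⁻¹ * (t * (y : L) * t⁻¹) = t * (y : L) * t⁻¹ * (y : L)⁻¹ := by
            have h1 := hz (y : L)⁻¹
            have e2 : (y : L)⁻¹ * (t * (y : L) * t⁻¹) =
                (y : L)⁻¹ * (t * (y : L) * t⁻¹ * (y : L)⁻¹) * (y : L) := by group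
            rw [e2, ← h1]
            group
          rw [e]
          exact (hz g).symm
    have hK := chainStab_le_pCore8 F p hTp T' Q hT'sc hQS hmem
    have hgU : t ∈ coreUp8 F p Q := (mem_coreUp8 F p Q t).2 ⟨ht, hgN, ⟨_, hK, rfl⟩⟩
    exact (hQbmem _).2 ⟨t, hradc hgU, rfl⟩
  have hQbc : E.IsCentric Qb := by
    have hQbsc := fs_normal_stronglyClosed E hQbn
    refine ⟨hQbT, ?_⟩
    rintro R'' ⟨φ, hφ, rfl⟩
    have hle : φ.range ≤ Qb := by
      rintro _ ⟨x, rfl⟩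
      exact hQbsc.2 Qb le_rfl φ hφ x
    rw [fs_range_eq_of_le E hφ hle]
    exact hcent
  exact ⟨hEsat, Qb, hQbn, hQbc⟩

theorem gfs_component_constrained8 {G : Type*} [Group G] [Finite G] (p : ℕ) [Fact p.Prime]
    (S : Sylow p G) (hF : (groupFusionSystem (S : Subgroup G)).IsConstrained p)
    (L : Subgroup G) (hL : L.IsSubnormal) :
    (groupFusionSystem (((S : Subgroup G).subgroupOf L).map
      (QuotientGroup.mk' (Subgroup.center L)))).IsConstrained p := by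
  obtain ⟨⟨R, hR⟩, hc⟩ := gfs_subnormal_constrained8 p S hF L hL
  rw [← hR] at hc ⊢
  refine gfs_central_quot_constrained8 p R hc (QuotientGroup.mk' (Subgroup.center L))
    (QuotientGroup.mk'_surjective _) (fun z hz y => ?_)
  have hzc : z ∈ Subgroup.center L := (QuotientGroup.eq_one_iff z).1 hz
  exact (Subgroup.mem_center_iff.1 hzc y).symm

end Cfsg.Agent.Lib.Helper8
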