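import Mathlib
import Cfsg.Prelude.Def_FischerSpaces

set_option autoImplicit false

namespace Cfsg.Agent.Lib.Helper8

open Cfsg Cfsg.LineSystem

/-- "the involution attached to a point maps lines into lines", as a first-order property of a line system -/
def GoodLS8 {Y : Type*} (M : Set (Set Y)) : Prop :=
  ∀ a : Y, ∀ l ∈ M, ∃ l' ∈ M, ∀ b ∈ l,
    (b = a ∧ a ∈ l') ∨ (b ≠ a ∧ ∃ c, c ≠ a ∧ c ≠ b ∧ ({a, b, c} : Set Y) ∈ M ∧ c ∈ l') ∨
      ((∀ n ∈ M, a ∈ n → b ∉ n) ∧ b ∈ l')

theorem good_of_iso8 {X Y : Type*} (L : Set (Set X)) (M : Set (Set Y)) (e : X ≃ Y)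
    (he : IsIso L M e) (hM : GoodLS8 M) : GoodLS8 L := by
  intro a l hl
  obtain ⟨l'', hl'', h⟩ := hM (e a) (e '' l) ((he l).mp hl)
  have himg : e '' (e.symm '' l'') = l'' := by
    rw [Set.image_image]; simp
  refine ⟨e.symm '' l'', (he _).mpr (by rw [himg]; exact hl''), ?_⟩
  intro b hb
  rcases h (e b) (Set.mem_image_of_mem e hb) with ⟨h1, h2⟩ | ⟨h1, c', hc1, hc2, hc3, hc4⟩ | ⟨h1, h2⟩
  · left
    exact ⟨e.injective h1, ⟨e a, h2, by simp⟩⟩
  · right; left
    refine ⟨fun hba => h1 (by rw [hba]), e.symm c', ?_, ?_, ?_, ⟨c', hc4, rfl⟩⟩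
    · intro h; apply hc1; rw [← h]; simp
    · intro h; apply hc2; rw [← h]; simp
    · apply (he _).mpr
      have h3 : e '' ({a, b, e.symm c'} : Set X) = {e a, e b, c'} := by
        simp [Set.image_insert_eq]
      rw [h3]; exact hc3
  · right; right
    refine ⟨?_, ⟨e b, h2, by simp⟩⟩
    intro n hn han hbn
    exact h1 (e '' n) ((he n).mp hn) (Set.mem_image_of_mem e han) (Set.mem_image_of_mem e hbn)

theorem zmod3_cases8 (t : ZMod 3) : t = 0 ∨ t = 1 ∨ t = 2 := by
  revert t; decide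

theorem good_affine8 : GoodLS8 affinePlaneThree := by
  intro a l hl
  obtain ⟨v, w, hw, rfl⟩ := hl
  refine ⟨{x | ∃ c : ZMod 3, x = (-a - v) + c • w}, ⟨-a - v, w, hw, rfl⟩, ?_⟩
  rintro b ⟨c, rfl⟩
  by_cases hba : v + c • w = a
  · left
    refine ⟨hba, ⟨2 * c, ?_⟩⟩
    rw [← hba]
    funext i
    simp only [Pi.add_apply, Pi.sub_apply, Pi.neg_apply, Pi.smul_apply, smul_eq_mul]
    have key : ∀ p q r : ZMod 3, p + r * q = -(p + r * q) - p + 2 * r * q := by decide
    exact key _ _ _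
  · right; left
    have key3 : ∀ p q : ZMod 3, -p - q = p + 2 * (q - p) := by decide
    refine ⟨hba, -a - (v + c • w), ?_, ?_, ?_, ⟨-c, ?_⟩⟩
    · intro h; apply hba
      funext i
      have h' := congrFun h i
      simp only [Pi.add_apply, Pi.sub_apply, Pi.neg_apply, Pi.smul_apply, smul_eq_mul] at h' ⊢
      have key : ∀ p q : ZMod 3, -p - q = p → q = p := by decide
      exact key _ _ h'
    · intro h; apply hba
      funext i
      have h' := congrFun h i
      simp only [Pi.add_apply, Pi.sub_apply, Pi.neg_apply, Pi.smul_apply, smul_eq_mul] at h' ⊢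
      have key : ∀ p q : ZMod 3, -p - q = q → q = p := by decide
      exact key _ _ h'
    · refine ⟨a, (v + c • w) - a, ?_, ?_⟩
      · intro h; apply hba; exact sub_eq_zero.mp h
      · ext x
        simp only [Set.mem_insert_iff, Set.mem_singleton_iff, Set.mem_setOf_eq]
        constructor
        · rintro (h | h | h)
          · exact ⟨0, by rw [h]; simp⟩
          · exact ⟨1, by rw [h]; simp⟩
          · refine ⟨2, ?_⟩
            rw [h]
            funext i
            simp only [Pi.add_apply, Pi.sub_apply, Pi.neg_apply, Pi.smul_apply, smul_eq_mul]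
            exact key3 _ _
        · rintro ⟨t, ht⟩
          rcases zmod3_cases8 t with h | h | h
          · left; rw [ht, h]; simp
          · right; left; rw [ht, h]; simp
          · right; right
            rw [ht, h]
            funext i
            simp only [Pi.add_apply, Pi.sub_apply, Pi.neg_apply, Pi.smul_apply, smul_eq_mul]
            exact (key3 _ _).symm
    · funext i
      simp only [Pi.add_apply, Pi.sub_apply, Pi.neg_apply, Pi.smul_apply, smul_eq_mul]
      ring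

/-- the per-point condition in the dual affine plane, phrased with line indices -/
def dualT8 (a b : DualAffinePoint) (j : Fin 4) : Prop :=
    (b = a ∧ j ∉ a.val) ∨ (b ≠ a ∧ ∃ c : DualAffinePoint, c ≠ a ∧ c ≠ b ∧
      (∃ k : Fin 4, k ∉ a.val ∧ k ∉ b.val ∧ k ∉ c.val) ∧ j ∉ c.val) ∨
      ((∀ k : Fin 4, k ∈ a.val ∨ k ∈ b.val) ∧ j ∉ b.val)

instance dualT8_dec (a b : DualAffinePoint) (j : Fin 4) : Decidable (dualT8 a b j) := by
  unfold dualT8; infer_instance

set_option maxRecDepth 100000 in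
theorem dual_aux1_8 : ∀ a : DualAffinePoint, ∀ i : Fin 4, ∃ j : Fin 4, ∀ b : DualAffinePoint,
    i ∉ b.val → dualT8 a b j := by decide

set_option maxRecDepth 100000 in
theorem dual_aux2_8 : ∀ k : Fin 4, ∀ a b c : DualAffinePoint, a ≠ b → a ≠ c → b ≠ c → k ∉ a.val →
    k ∉ b.val → k ∉ c.val → ∀ s : DualAffinePoint, k ∉ s.val → s = a ∨ s = b ∨ s = c := by decide

theorem good_dual8 : GoodLS8 dualAffinePlaneTwo := by
  intro a l hl
  obtain ⟨i, rfl⟩ := hl
  obtain ⟨j, hj⟩ := dual_aux1_8 a i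
  refine ⟨{s | j ∉ s.val}, ⟨j, rfl⟩, ?_⟩
  intro b hb
  rcases hj b hb with ⟨h1, h2⟩ | ⟨h1, c, hc1, hc2, ⟨k, hk1, hk2, hk3⟩, hc4⟩ | ⟨h1, h2⟩
  · left; exact ⟨h1, h2⟩
  · right; left
    refine ⟨h1, c, hc1, hc2, ⟨k, ?_⟩, hc4⟩
    ext s
    simp only [Set.mem_insert_iff, Set.mem_singleton_iff, Set.mem_setOf_eq]
    constructor
    · rintro (h | h | h)
      · rw [h]; exact hk1
      · rw [h]; exact hk2
      · rw [h]; exact hk3
    · intro hs
      exact dual_aux2_8 k a b c (Ne.symm h1) (Ne.symm hc1) (Ne.symm hc2) hk1 hk2 hk3 s hs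
  · right; right
    refine ⟨?_, h2⟩
    rintro n ⟨k, rfl⟩ han hbn
    rcases h1 k with h | h
    · exact han h
    · exact hbn h

theorem three8 {X : Type*} {l : Set X} (h : l.ncard = 3) {x b : X} (hx : x ∈ l) (hb : b ∈ l)
    (hxb : x ≠ b) : ∃ z, z ≠ x ∧ z ≠ b ∧ l = {x, b, z} := by
  have hfin : l.Finite := Set.finite_of_ncard_ne_zero (by rw [h]; norm_num)
  have h2 : ({x, b} : Set X).ncard = 2 := Set.ncard_pair hxb
  have hsub : ({x, b} : Set X) ⊆ l := by
    intro w hw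
    simp only [Set.mem_insert_iff, Set.mem_singleton_iff] at hw
    rcases hw with hw | hw
    · rw [hw]; exact hx
    · rw [hw]; exact hb
  have h1 : (l \ {x, b}).ncard = 1 := by
    have := Set.ncard_diff_add_ncard_of_subset hsub hfin
    omega
  obtain ⟨z, hz⟩ := Set.ncard_eq_one.mp h1
  have hzmem : z ∈ l \ {x, b} := by rw [hz]; rfl
  refine ⟨z, ?_, ?_, ?_⟩
  · intro h; apply hzmem.2; simp [h]
  · intro h; apply hzmem.2; simp [h]
  · ext w
    simp only [Set.mem_insert_iff, Set.mem_singleton_iff]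
    constructor
    · intro hw
      by_cases hwx : w = x
      · left; exact hwx
      · by_cases hwb : w = b
        · right; left; exact hwb
        · have hw' : w ∈ l \ {x, b} := ⟨hw, by simp [hwx, hwb]⟩
          rw [hz] at hw'
          right; right; exact hw'
    · rintro (hw | hw | hw)
      · rw [hw]; exact hx
      · rw [hw]; exact hb
      · rw [hw]; exact hzmem.1

theorem lineMap_eq8 {X : Type*} {L : Set (Set X)} (hPL : IsPartialLinear L) {x y z : X}
    (hzx : z ≠ x) (hzy : z ≠ y) (hxy : x ≠ y) (hl : ({x, y, z} : Set X) ∈ L) :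
    lineMap L x y = z := by
  have h : ∃ z : X, z ≠ x ∧ z ≠ y ∧ x ≠ y ∧ ({x, y, z} : Set X) ∈ L := ⟨z, hzx, hzy, hxy, hl⟩
  have h1 : lineMap L x y = h.choose := by
    unfold lineMap; exact dif_pos h
  rw [h1]
  obtain ⟨h2, h3, -, h5⟩ := h.choose_spec
  have heq := hPL _ h5 _ hl x y hxy (by simp) (by simp) (by simp) (by simp)
  have hmem : h.choose ∈ ({x, y, z} : Set X) := by rw [← heq]; simp
  simp only [Set.mem_insert_iff, Set.mem_singleton_iff] at hmem
  rcases hmem with h | h | h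
  · exact absurd h h2
  · exact absurd h h3
  · exact h

theorem lineMap_fix8 {X : Type*} {L : Set (Set X)} {x y : X}
    (h : ¬ ∃ z : X, z ≠ x ∧ z ≠ y ∧ x ≠ y ∧ ({x, y, z} : Set X) ∈ L) : lineMap L x y = y := by
  unfold lineMap; exact dif_neg h

theorem lineMap_self8 {X : Type*} {L : Set (Set X)} (x : X) : lineMap L x x = x :=
  lineMap_fix8 (by rintro ⟨z, -, -, h, -⟩; exact h rfl)

theorem lineMap_invol8 {X : Type*} {L : Set (Set X)} (hPL : IsPartialLinear L) (x : X) :
    Function.Involutive (lineMap L x) := by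
  intro y
  by_cases h : ∃ z : X, z ≠ x ∧ z ≠ y ∧ x ≠ y ∧ ({x, y, z} : Set X) ∈ L
  · obtain ⟨z, hzx, hzy, hxy, hl⟩ := h
    rw [lineMap_eq8 hPL hzx hzy hxy hl]
    have hl' : ({x, z, y} : Set X) ∈ L := by
      have h3 : ({x, z, y} : Set X) = {x, y, z} := by
        ext w; simp only [Set.mem_insert_iff, Set.mem_singleton_iff]; tauto
      rw [h3]; exact hl
    exact lineMap_eq8 hPL (Ne.symm hxy) (Ne.symm hzy) (Ne.symm hzx) hl'
  · rw [lineMap_fix8 h, lineMap_fix8 h]

theorem span_subspace8 {X : Type*} (L : Set (Set X)) (A : Set X) : IsSubspace L (span L A) := by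
  intro l hl x hx y hy hxy hxl hyl w hw
  rintro T ⟨hAT, hT⟩
  exact hT l hl x (hx T ⟨hAT, hT⟩) y (hy T ⟨hAT, hT⟩) hxy hxl hyl hw

theorem subset_span8 {X : Type*} (L : Set (Set X)) (A : Set X) : A ⊆ span L A := by
  intro w hw
  rintro T ⟨hAT, -⟩
  exact hAT hw

theorem lineMap_line8 {X : Type*} {L : Set (Set X)} (hL : IsFischerSpace L) (x : X) {l₀ : Set X}
    (hl₀ : l₀ ∈ L) : ∃ l₁ ∈ L, ∀ b ∈ l₀, lineMap L x b ∈ l₁ := by
  obtain ⟨hPL, h3, hpl⟩ := hL
  by_cases hx : x ∈ l₀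
  · refine ⟨l₀, hl₀, ?_⟩
    intro b hb
    by_cases hbx : b = x
    · rw [hbx, lineMap_self8]; exact hx
    · obtain ⟨z, hzx, hzb, hl⟩ := three8 (h3 _ hl₀) hx hb (Ne.symm hbx)
      rw [lineMap_eq8 hPL hzx hzb (Ne.symm hbx) (by rw [← hl]; exact hl₀)]
      rw [hl]; simp
  · by_cases hc : ∃ y ∈ l₀, ∃ m ∈ L, x ∈ m ∧ y ∈ m
    · obtain ⟨y, hy, m, hm, hxm, hym⟩ := hc
      have hne : l₀ ≠ m := fun h => hx (h ▸ hxm)
      have hnon : (l₀ ∩ m).Nonempty := ⟨y, hy, hym⟩
      obtain ⟨P, hP⟩ : ∃ P, P = span L (l₀ ∪ m) := ⟨_, rfl⟩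
      have hsub : IsSubspace L P := by rw [hP]; exact span_subspace8 L _
      have hlP : l₀ ⊆ P := by
        rw [hP]; exact fun w hw => subset_span8 L _ (Or.inl hw)
      have hmP : m ⊆ P := by
        rw [hP]; exact fun w hw => subset_span8 L _ (Or.inr hw)
      have hgood : GoodLS8 (restrict L P) := by
        rcases hpl l₀ hl₀ m hm hne hnon with ⟨e, he⟩ | ⟨e, he⟩
        · rw [hP]; exact good_of_iso8 _ _ e he good_dual8
        · rw [hP]; exact good_of_iso8 _ _ e he good_affine8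
      have hxP : x ∈ P := hmP hxm
      obtain ⟨l', ⟨l₁, hl₁, hl₁P, rfl⟩, hT⟩ :=
        hgood ⟨x, hxP⟩ {p : P | (p : X) ∈ l₀} ⟨l₀, hl₀, hlP, rfl⟩
      refine ⟨l₁, hl₁, ?_⟩
      intro b hb
      have hbP : b ∈ P := hlP hb
      rcases hT ⟨b, hbP⟩ hb with ⟨h1, h2⟩ | ⟨h1, c, hc1, hc2, ⟨l₂, hl₂, hl₂P, heq⟩, hc4⟩ | ⟨h1, h2⟩
      · have hbx : b = x := congrArg Subtype.val h1
        rw [hbx, lineMap_self8]
        exact h2
      · have hbx : b ≠ x := fun h => h1 (Subtype.ext h)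
        have hcx : (c : X) ≠ x := fun h => hc1 (Subtype.ext h)
        have hcb : (c : X) ≠ b := fun h => hc2 (Subtype.ext h)
        have hx2 : x ∈ l₂ := by
          have hm1 : (⟨x, hxP⟩ : P) ∈ ({⟨x, hxP⟩, ⟨b, hbP⟩, c} : Set P) := by simp
          rw [heq] at hm1; exact hm1
        have hb2 : b ∈ l₂ := by
          have hm1 : (⟨b, hbP⟩ : P) ∈ ({⟨x, hxP⟩, ⟨b, hbP⟩, c} : Set P) := by simp
          rw [heq] at hm1; exact hm1
        have hc2' : (c : X) ∈ l₂ := by
          have hm1 : c ∈ ({⟨x, hxP⟩, ⟨b, hbP⟩, c} : Set P) := by simp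
          rw [heq] at hm1; exact hm1
        obtain ⟨z, hzx, hzb, hl⟩ := three8 (h3 _ hl₂) hx2 hb2 (Ne.symm hbx)
        have hcz : (c : X) = z := by
          rw [hl] at hc2'
          simp only [Set.mem_insert_iff, Set.mem_singleton_iff] at hc2'
          rcases hc2' with h | h | h
          · exact absurd h hcx
          · exact absurd h hcb
          · exact h
        rw [lineMap_eq8 hPL hzx hzb (Ne.symm hbx) (by rw [← hl]; exact hl₂), ← hcz]
        exact hc4
      · have hfix : lineMap L x b = b := by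
          apply lineMap_fix8
          rintro ⟨z, hzx, hzb, hxb, hl⟩
          have hlP' : ({x, b, z} : Set X) ⊆ P :=
            hsub _ hl x hxP b hbP hxb (by simp) (by simp)
          exact h1 {p : P | (p : X) ∈ ({x, b, z} : Set X)} ⟨_, hl, hlP', rfl⟩ (by simp) (by simp)
        rw [hfix]; exact h2
    · refine ⟨l₀, hl₀, ?_⟩
      intro b hb
      have hfix : lineMap L x b = b := by
        apply lineMap_fix8
        rintro ⟨z, hzx, hzb, hxb, hl⟩
        exact hc ⟨b, hb, _, hl, by simp, by simp⟩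
      rw [hfix]; exact hb

theorem lineMap_image8 {X : Type*} {L : Set (Set X)} (hL : IsFischerSpace L) (x : X) {l₀ : Set X}
    (hl₀ : l₀ ∈ L) : lineMap L x '' l₀ ∈ L := by
  obtain ⟨l₁, hl₁, h⟩ := lineMap_line8 hL x hl₀
  have hsub : lineMap L x '' l₀ ⊆ l₁ := by
    rintro _ ⟨b, hb, rfl⟩; exact h b hb
  have hcard : (lineMap L x '' l₀).ncard = 3 := by
    rw [Set.ncard_image_of_injective _ (lineMap_invol8 hL.1 x).injective]; exact hL.2.1 _ hl₀
  have hfin : l₁.Finite := Set.finite_of_ncard_ne_zero (by rw [hL.2.1 _ hl₁]; norm_num)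
  have heq : lineMap L x '' l₀ = l₁ :=
    Set.eq_of_subset_of_ncard_le hsub (by rw [hcard, hL.2.1 _ hl₁]) hfin
  rw [heq]; exact hl₁

/-- automorphisms of the line system conjugate the point involutions to each other -/
theorem lineMap_conj8 {X : Type*} {L : Set (Set X)} (hPL : IsPartialLinear L) (τ : Equiv.Perm X)
    (hτ : IsIso L L τ) (y w : X) : lineMap L (τ y) (τ w) = τ (lineMap L y w) := by
  by_cases h : ∃ z : X, z ≠ y ∧ z ≠ w ∧ y ≠ w ∧ ({y, w, z} : Set X) ∈ L
  · obtain ⟨z, hzy, hzw, hyw, hl⟩ := h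
    rw [lineMap_eq8 hPL hzy hzw hyw hl]
    apply lineMap_eq8 hPL (τ.injective.ne hzy) (τ.injective.ne hzw) (τ.injective.ne hyw)
    have h3 := (hτ _).mp hl
    have h4 : τ '' ({y, w, z} : Set X) = {τ y, τ w, τ z} := by
      simp [Set.image_insert_eq]
    rw [← h4]; exact h3
  · rw [lineMap_fix8 h]
    apply lineMap_fix8
    rintro ⟨z', h1, h2, h3, h4⟩
    apply h
    refine ⟨τ.symm z', ?_, ?_, ?_, ?_⟩
    · intro h5; apply h1; rw [← h5]; simp
    · intro h5; apply h2; rw [← h5]; simp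
    · intro h5; apply h3; rw [h5]
    · apply (hτ _).mpr
      have h6 : τ '' ({y, w, τ.symm z'} : Set X) = {τ y, τ w, z'} := by
        simp [Set.image_insert_eq]
      rw [h6]; exact h4

theorem fischer_main8 {X : Type*} (L : Set (Set X)) (hL : IsFischerSpace L)
    (hnd : IsNondegenerate L) :
    (∀ x : X, ∃ σ : Equiv.Perm X, ⇑σ = lineMap L x ∧ orderOf σ = 2 ∧ IsIso L L σ) ∧
      IsThreeTranspositionSet {σ : Equiv.Perm X | ∃ x : X, ⇑σ = lineMap L x} := by
  have hPL := hL.1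
  -- basic facts about a permutation whose underlying map is a point involution
  have hsq : ∀ (σ : Equiv.Perm X) (x : X), ⇑σ = lineMap L x → σ * σ = 1 := by
    intro σ x hσ
    refine Equiv.ext (fun w => ?_)
    rw [Equiv.Perm.mul_apply, hσ]
    exact lineMap_invol8 hPL x w
  have hiso : ∀ (σ : Equiv.Perm X) (x : X), ⇑σ = lineMap L x → IsIso L L σ := by
    intro σ x hσ l
    constructor
    · intro hl; rw [hσ]; exact lineMap_image8 hL x hl
    · intro hl
      rw [hσ] at hl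
      have h2 := lineMap_image8 hL x hl
      have h3 : lineMap L x '' (lineMap L x '' l) = l := by
        rw [Set.image_image]
        have h4 : (fun w => lineMap L x (lineMap L x w)) = id := by
          funext w; exact lineMap_invol8 hPL x w
        rw [h4]; simp
      rw [h3] at h2; exact h2
  have hord : ∀ (σ : Equiv.Perm X) (x : X), ⇑σ = lineMap L x → orderOf σ = 2 := by
    intro σ x hσ
    haveI : Fact (Nat.Prime 2) := ⟨Nat.prime_two⟩
    apply orderOf_eq_prime
    · rw [pow_two]; exact hsq σ x hσ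
    · intro h1
      obtain ⟨l, hl, hxl⟩ := hnd x
      have h3 := hL.2.1 l hl
      have hex : ∃ b ∈ l, b ≠ x := by
        by_contra hcon
        push_neg at hcon
        have hsub : l ⊆ {x} := fun w hw => hcon w hw
        have := Set.ncard_le_ncard hsub (Set.finite_singleton x)
        rw [h3, Set.ncard_singleton] at this
        omega
      obtain ⟨b, hb, hbx⟩ := hex
      obtain ⟨z, hzx, hzb, hleq⟩ := three8 h3 hxl hb (Ne.symm hbx)
      have h5 : lineMap L x b = z :=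
        lineMap_eq8 hPL hzx hzb (Ne.symm hbx) (by rw [← hleq]; exact hl)
      have h6 : σ b = b := by rw [h1]; rfl
      rw [hσ, h5] at h6
      exact hzb h6
  refine ⟨?_, ?_, ?_⟩
  · intro x
    refine ⟨(lineMap_invol8 hPL x).toPerm, rfl, ?_, ?_⟩
    · exact hord _ x rfl
    · exact hiso _ x rfl
  · rintro σ ⟨x, hσ⟩
    exact hord σ x hσ
  · rintro σ₁ ⟨x, h₁⟩ σ₂ ⟨y, h₂⟩
    have hs1 := hsq σ₁ x h₁
    have hs2 := hsq σ₂ y h₂
    have hi1 := hiso σ₁ x h₁
    have hi2 := hiso σ₂ y h₂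
    have h11 : ∀ w, σ₁ (σ₁ w) = w := fun w => by
      rw [h₁]; exact lineMap_invol8 hPL x w
    have h22 : ∀ w, σ₂ (σ₂ w) = w := fun w => by
      rw [h₂]; exact lineMap_invol8 hPL y w
    by_cases hcol : ∃ z : X, z ≠ x ∧ z ≠ y ∧ x ≠ y ∧ ({x, y, z} : Set X) ∈ L
    · right
      obtain ⟨z, hzx, hzy, hxy, hl⟩ := hcol
      have hl' : ({y, x, z} : Set X) ∈ L := by
        have h3 : ({y, x, z} : Set X) = {x, y, z} := by
          ext w; simp only [Set.mem_insert_iff, Set.mem_singleton_iff]; tauto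
        rw [h3]; exact hl
      have hxy1 : σ₁ y = z := by rw [h₁]; exact lineMap_eq8 hPL hzx hzy hxy hl
      have hyx1 : σ₂ x = z := by rw [h₂]; exact lineMap_eq8 hPL hzy hzx (Ne.symm hxy) hl'
      have e1 : ∀ w, σ₁ (σ₂ (σ₁ w)) = lineMap L z w := by
        intro w
        have h5 := lineMap_conj8 hPL σ₁ hi1 y (σ₁ w)
        rw [h11, hxy1] at h5
        rw [h5, ← h₂]
      have e2 : ∀ w, σ₂ (σ₁ (σ₂ w)) = lineMap L z w := by
        intro w
        have h5 := lineMap_conj8 hPL σ₂ hi2 x (σ₂ w)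
        rw [h22, hyx1] at h5
        rw [h5, ← h₁]
      have e3 : σ₁ * σ₂ * σ₁ = σ₂ * σ₁ * σ₂ := by
        refine Equiv.ext (fun w => ?_)
        simp only [Equiv.Perm.mul_apply]
        rw [e1, e2]
      have e4 : σ₁ * σ₂ * σ₁ * (σ₁ * σ₂ * σ₁) = 1 := by
        have : σ₁ * σ₂ * σ₁ * (σ₁ * σ₂ * σ₁) = σ₁ * (σ₂ * (σ₁ * σ₁) * σ₂) * σ₁ := by
          simp only [mul_assoc]
        rw [this, hs1, mul_one, hs2, mul_one, hs1]
      calc (σ₁ * σ₂) ^ 3 = σ₁ * σ₂ * σ₁ * (σ₂ * σ₁ * σ₂) := by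
            simp only [pow_succ, pow_zero, one_mul, mul_assoc]
        _ = σ₁ * σ₂ * σ₁ * (σ₁ * σ₂ * σ₁) := by rw [← e3]
        _ = 1 := e4
    · left
      have hfix : σ₁ y = y := by rw [h₁]; exact lineMap_fix8 hcol
      have e1 : ∀ w, σ₁ (σ₂ (σ₁ w)) = σ₂ w := by
        intro w
        have h5 := lineMap_conj8 hPL σ₁ hi1 y (σ₁ w)
        rw [h11, hfix] at h5
        rw [h₂, h5, ← h₂]
      have e3 : σ₁ * σ₂ * σ₁ = σ₂ := by
        refine Equiv.ext (fun w => ?_)
        simp only [Equiv.Perm.mul_apply]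
        exact e1 w
      calc (σ₁ * σ₂) ^ 2 = σ₁ * σ₂ * σ₁ * σ₂ := by
            simp only [pow_succ, pow_zero, one_mul, mul_assoc]
        _ = σ₂ * σ₂ := by rw [e3]
        _ = 1 := hs2

end Cfsg.Agent.Lib.Helper8
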