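import Mathlib
import Cfsg.Prelude.Def_SporadicB

set_option autoImplicit false

namespace Cfsg.Agent.Lib.Helper8

open Equiv

/-- normal-form set for a group generated by three involutions satisfying the relations of type A₃ -/
def nfSet8 {Γ : Type*} [Group Γ] (x y z : Γ) : Set Γ :=
  {g | ∃ w₁ w₂ w₃, (w₁ = 1 ∨ w₁ = x) ∧ (w₂ = 1 ∨ w₂ = y ∨ w₂ = y * x) ∧
    (w₃ = 1 ∨ w₃ = z ∨ w₃ = z * y ∨ w₃ = z * y * x) ∧ g = w₁ * w₂ * w₃}

theorem nf_stepA8 {Γ : Type*} [Group Γ] {x y z : Γ} (hx : x * x = 1) (hy : y * y = 1)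
    (hz : z * z = 1) (hxy : x * y * x = y * x * y) (hyz : y * z * y = z * y * z)
    (hxz : x * z = z * x) {w₃ g : Γ} (hw : w₃ = 1 ∨ w₃ = z ∨ w₃ = z * y ∨ w₃ = z * y * x)
    (hg : g = x ∨ g = y ∨ g = z) :
    ∃ u w₃', (u = 1 ∨ u = x ∨ u = y) ∧ (w₃' = 1 ∨ w₃' = z ∨ w₃' = z * y ∨ w₃' = z * y * x) ∧
      w₃ * g = u * w₃' := by
  rcases hw with h | h | h | h <;> rcases hg with h' | h' | h'
  · exact ⟨x, 1, Or.inr (Or.inl rfl), Or.inl rfl, by rw [h, h', one_mul, mul_one]⟩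
  · exact ⟨y, 1, Or.inr (Or.inr rfl), Or.inl rfl, by rw [h, h', one_mul, mul_one]⟩
  · exact ⟨1, z, Or.inl rfl, Or.inr (Or.inl rfl), by rw [h, h']⟩
  · exact ⟨x, z, Or.inr (Or.inl rfl), Or.inr (Or.inl rfl), by rw [h, h']; exact hxz.symm⟩
  · exact ⟨1, z * y, Or.inl rfl, Or.inr (Or.inr (Or.inl rfl)), by rw [h, h', one_mul]⟩
  · exact ⟨1, 1, Or.inl rfl, Or.inl rfl, by rw [h, h', hz, one_mul]⟩
  · exact ⟨1, z * y * x, Or.inl rfl, Or.inr (Or.inr (Or.inr rfl)), by rw [h, h', one_mul]⟩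
  · exact ⟨1, z, Or.inl rfl, Or.inr (Or.inl rfl), by rw [h, h', mul_assoc, hy, mul_one, one_mul]⟩
  · exact ⟨y, z * y, Or.inr (Or.inr rfl), Or.inr (Or.inr (Or.inl rfl)),
      by rw [h, h', ← hyz, mul_assoc]⟩
  · exact ⟨1, z * y, Or.inl rfl, Or.inr (Or.inr (Or.inl rfl)),
      by rw [h, h', mul_assoc, hx, mul_one, one_mul]⟩
  · refine ⟨x, z * y * x, Or.inr (Or.inl rfl), Or.inr (Or.inr (Or.inr rfl)), ?_⟩
    rw [h, h']
    calc z * y * x * y = z * (y * x * y) := by simp only [mul_assoc]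
      _ = z * (x * y * x) := by rw [hxy]
      _ = (z * x) * y * x := by simp only [mul_assoc]
      _ = (x * z) * y * x := by rw [hxz]
      _ = x * (z * y * x) := by simp only [mul_assoc]
  · refine ⟨y, z * y * x, Or.inr (Or.inr rfl), Or.inr (Or.inr (Or.inr rfl)), ?_⟩
    rw [h, h']
    calc z * y * x * z = z * y * (x * z) := by simp only [mul_assoc]
      _ = z * y * (z * x) := by rw [hxz]
      _ = (z * y * z) * x := by simp only [mul_assoc]
      _ = (y * z * y) * x := by rw [hyz]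
      _ = y * (z * y * x) := by simp only [mul_assoc]

theorem nf_stepB8 {Γ : Type*} [Group Γ] {x y : Γ} (hx : x * x = 1) (hy : y * y = 1)
    (hxy : x * y * x = y * x * y) {w₂ u : Γ} (hw : w₂ = 1 ∨ w₂ = y ∨ w₂ = y * x)
    (hu : u = 1 ∨ u = x ∨ u = y) :
    ∃ u' w₂', (u' = 1 ∨ u' = x) ∧ (w₂' = 1 ∨ w₂' = y ∨ w₂' = y * x) ∧ w₂ * u = u' * w₂' := by
  rcases hw with h | h | h <;> rcases hu with h' | h' | h'
  · exact ⟨1, 1, Or.inl rfl, Or.inl rfl, by rw [h, h']⟩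
  · exact ⟨x, 1, Or.inr rfl, Or.inl rfl, by rw [h, h', one_mul, mul_one]⟩
  · exact ⟨1, y, Or.inl rfl, Or.inr (Or.inl rfl), by rw [h, h']⟩
  · exact ⟨1, y, Or.inl rfl, Or.inr (Or.inl rfl), by rw [h, h', one_mul, mul_one]⟩
  · exact ⟨1, y * x, Or.inl rfl, Or.inr (Or.inr rfl), by rw [h, h', one_mul]⟩
  · exact ⟨1, 1, Or.inl rfl, Or.inl rfl, by rw [h, h', hy, one_mul]⟩
  · exact ⟨1, y * x, Or.inl rfl, Or.inr (Or.inr rfl), by rw [h, h', one_mul, mul_one]⟩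
  · exact ⟨1, y, Or.inl rfl, Or.inr (Or.inl rfl), by rw [h, h', mul_assoc, hx, mul_one, one_mul]⟩
  · exact ⟨x, y * x, Or.inr rfl, Or.inr (Or.inr rfl), by rw [h, h', ← hxy, mul_assoc]⟩

theorem nf_stepC8 {Γ : Type*} [Group Γ] {x : Γ} (hx : x * x = 1) {w₁ u' : Γ}
    (hw : w₁ = 1 ∨ w₁ = x) (hu : u' = 1 ∨ u' = x) : w₁ * u' = 1 ∨ w₁ * u' = x := by
  rcases hw with h | h <;> rcases hu with h' | h'
  · left; rw [h, h', one_mul]
  · right; rw [h, h', one_mul]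
  · right; rw [h, h', mul_one]
  · left; rw [h, h', hx]

theorem nf_closed8 {Γ : Type*} [Group Γ] {x y z : Γ} (hx : x * x = 1) (hy : y * y = 1)
    (hz : z * z = 1) (hxy : x * y * x = y * x * y) (hyz : y * z * y = z * y * z)
    (hxz : x * z = z * x) {t g : Γ} (ht : t ∈ nfSet8 x y z) (hg : g = x ∨ g = y ∨ g = z) :
    t * g ∈ nfSet8 x y z := by
  obtain ⟨w₁, w₂, w₃, h1, h2, h3, rfl⟩ := ht
  obtain ⟨u, w₃', hu, hw₃', e3⟩ := nf_stepA8 hx hy hz hxy hyz hxz h3 hg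
  obtain ⟨u', w₂', hu', hw₂', e2⟩ := nf_stepB8 hx hy hxy h2 hu
  have e1 := nf_stepC8 hx h1 hu'
  refine ⟨w₁ * u', w₂', w₃', e1, hw₂', hw₃', ?_⟩
  calc w₁ * w₂ * w₃ * g = w₁ * w₂ * (w₃ * g) := by simp only [mul_assoc]
    _ = w₁ * w₂ * (u * w₃') := by rw [e3]
    _ = w₁ * (w₂ * u) * w₃' := by simp only [mul_assoc]
    _ = w₁ * (u' * w₂') * w₃' := by rw [e2]
    _ = w₁ * u' * w₂' * w₃' := by simp only [mul_assoc]

/-- the parametrisation of the normal forms -/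
def nfMap8 {Γ : Type*} [Group Γ] (x y z : Γ) : Fin 2 × Fin 3 × Fin 4 → Γ :=
  fun t => ![1, x] t.1 * ![1, y, y * x] t.2.1 * ![1, z, z * y, z * y * x] t.2.2

theorem nfSet_range8 {Γ : Type*} [Group Γ] {x y z g : Γ} (hg : g ∈ nfSet8 x y z) :
    ∃ t, nfMap8 x y z t = g := by
  obtain ⟨w₁, w₂, w₃, h1, h2, h3, rfl⟩ := hg
  obtain ⟨i, hi⟩ : ∃ i : Fin 2, ![1, x] i = w₁ := by
    rcases h1 with h | h
    · exact ⟨0, by rw [h]; rfl⟩
    · exact ⟨1, by rw [h]; rfl⟩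
  obtain ⟨j, hj⟩ : ∃ j : Fin 3, ![1, y, y * x] j = w₂ := by
    rcases h2 with h | h | h
    · exact ⟨0, by rw [h]; rfl⟩
    · exact ⟨1, by rw [h]; rfl⟩
    · exact ⟨2, by rw [h]; rfl⟩
  obtain ⟨k, hk⟩ : ∃ k : Fin 4, ![1, z, z * y, z * y * x] k = w₃ := by
    rcases h3 with h | h | h | h
    · exact ⟨0, by rw [h]; rfl⟩
    · exact ⟨1, by rw [h]; rfl⟩
    · exact ⟨2, by rw [h]; rfl⟩
    · exact ⟨3, by rw [h]; rfl⟩
  refine ⟨(i, j, k), ?_⟩
  show ![1, x] i * ![1, y, y * x] j * ![1, z, z * y, z * y * x] k = w₁ * w₂ * w₃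
  rw [hi, hj, hk]

theorem braid_of_cube8 {Γ : Type*} [Group Γ] {x y : Γ} (hx : x * x = 1) (hy : y * y = 1)
    (h : (x * y) ^ 3 = 1) : x * y * x = y * x * y := by
  have h1 : x * y * x * (y * x * y) = 1 := by
    have h2 : (x * y) ^ 3 = x * y * x * (y * x * y) := by
      simp only [pow_succ, pow_zero, one_mul, mul_assoc]
    rw [← h2]; exact h
  have h3 : y * x * y * (y * x * y) = 1 := by
    calc y * x * y * (y * x * y) = y * x * (y * y) * x * y := by simp only [mul_assoc]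
      _ = y * (x * x) * y := by rw [hy, mul_one]; simp only [mul_assoc]
      _ = 1 := by rw [hx, mul_one, hy]
  calc x * y * x = (y * x * y)⁻¹ := eq_inv_of_mul_eq_one_left h1
    _ = y * x * y := inv_eq_of_mul_eq_one_right h3

theorem comm_of_sq8 {Γ : Type*} [Group Γ] {x y : Γ} (hx : x * x = 1) (hy : y * y = 1)
    (h : (x * y) ^ 2 = 1) : x * y = y * x := by
  have h1 : x * y * (x * y) = 1 := by rw [← pow_two]; exact h
  have hxi : x⁻¹ = x := inv_eq_of_mul_eq_one_right hx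
  have hyi : y⁻¹ = y := inv_eq_of_mul_eq_one_right hy
  calc x * y = (x * y)⁻¹ := (inv_eq_of_mul_eq_one_right h1).symm
    _ = y⁻¹ * x⁻¹ := mul_inv_rev x y
    _ = y * x := by rw [hxi, hyi]

theorem cox_rel8 :
    let cs := (CoxeterMatrix.A 3).toCoxeterSystem
    cs.simple 0 * cs.simple 0 = 1 ∧ cs.simple 1 * cs.simple 1 = 1 ∧ cs.simple 2 * cs.simple 2 = 1 ∧
    cs.simple 0 * cs.simple 1 * cs.simple 0 = cs.simple 1 * cs.simple 0 * cs.simple 1 ∧
    cs.simple 1 * cs.simple 2 * cs.simple 1 = cs.simple 2 * cs.simple 1 * cs.simple 2 ∧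
    cs.simple 0 * cs.simple 2 = cs.simple 2 * cs.simple 0 := by
  intro cs
  have h0 := cs.simple_mul_simple_self 0
  have h1 := cs.simple_mul_simple_self 1
  have h2 := cs.simple_mul_simple_self 2
  have h01 : (cs.simple 0 * cs.simple 1) ^ 3 = 1 := cs.simple_mul_simple_pow 0 1
  have h12 : (cs.simple 1 * cs.simple 2) ^ 3 = 1 := cs.simple_mul_simple_pow 1 2
  have h02 : (cs.simple 0 * cs.simple 2) ^ 2 = 1 := cs.simple_mul_simple_pow 0 2
  exact ⟨h0, h1, h2, braid_of_cube8 h0 h1 h01, braid_of_cube8 h1 h2 h12, comm_of_sq8 h0 h2 h02⟩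

theorem cox_nf8 (w : (CoxeterMatrix.A 3).Group) :
    w ∈ nfSet8 ((CoxeterMatrix.A 3).toCoxeterSystem.simple 0)
      ((CoxeterMatrix.A 3).toCoxeterSystem.simple 1) ((CoxeterMatrix.A 3).toCoxeterSystem.simple 2) := by
  obtain ⟨h0, h1, h2, h01, h12, h02⟩ := cox_rel8
  apply (CoxeterMatrix.A 3).toCoxeterSystem.simple_induction_right w
  · exact ⟨1, 1, 1, Or.inl rfl, Or.inl rfl, Or.inl rfl, by simp⟩
  · intro w i hw
    apply nf_closed8 h0 h1 h2 h01 h12 h02 hw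
    have hi : i = 0 ∨ i = 1 ∨ i = 2 := by revert i; decide
    rcases hi with h | h | h
    · left; rw [h]
    · right; left; rw [h]
    · right; right; rw [h]

theorem cox_finite8 : Finite (CoxeterMatrix.A 3).Group ∧ Nat.card (CoxeterMatrix.A 3).Group ≤ 24 := by
  have hsurj : Function.Surjective (nfMap8 ((CoxeterMatrix.A 3).toCoxeterSystem.simple 0)
      ((CoxeterMatrix.A 3).toCoxeterSystem.simple 1) ((CoxeterMatrix.A 3).toCoxeterSystem.simple 2)) :=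
    fun w => nfSet_range8 (cox_nf8 w)
  have hfin : Finite (CoxeterMatrix.A 3).Group := Finite.of_surjective _ hsurj
  refine ⟨hfin, ?_⟩
  have h1 := Nat.card_le_card_of_surjective _ hsurj
  have h2 : Nat.card (Fin 2 × Fin 3 × Fin 4) = 24 := by
    simp [Nat.card_eq_fintype_card]
  rw [h2] at h1; exact h1

theorem swap_liftable8 :
    (CoxeterMatrix.A 3).IsLiftable (fun i : Fin 3 => (Equiv.swap i.castSucc i.succ : Equiv.Perm (Fin 4))) := by
  intro i i'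
  revert i i'
  decide

/-- the Coxeter group of type A₃ is the symmetric group of degree 4 -/
theorem cox_equiv8 : ∃ e : (CoxeterMatrix.A 3).Group ≃* Equiv.Perm (Fin 4),
    e ((CoxeterMatrix.A 3).toCoxeterSystem.simple 0) = Equiv.swap 0 1 ∧
    e ((CoxeterMatrix.A 3).toCoxeterSystem.simple 1) = Equiv.swap 1 2 ∧
    e ((CoxeterMatrix.A 3).toCoxeterSystem.simple 2) = Equiv.swap 2 3 := by
  obtain ⟨cs, hcs⟩ : ∃ cs, cs = (CoxeterMatrix.A 3).toCoxeterSystem := ⟨_, rfl⟩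
  obtain ⟨Θ, hΘ⟩ : ∃ Θ, Θ = cs.lift ⟨_, swap_liftable8⟩ := ⟨_, rfl⟩
  have hΘs : ∀ i : Fin 3, Θ (cs.simple i) = Equiv.swap i.castSucc i.succ := by
    intro i; rw [hΘ]; exact cs.lift_apply_simple swap_liftable8 i
  have hsurj : Function.Surjective Θ := by
    intro σ
    have hmem : σ ∈ Submonoid.closure (Set.range fun i : Fin 3 ↦ Equiv.swap i.castSucc i.succ) := by
      rw [Equiv.Perm.mclosure_swap_castSucc_succ 3]; trivial
    have hle : Submonoid.closure (Set.range fun i : Fin 3 ↦ Equiv.swap i.castSucc i.succ) ≤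
        MonoidHom.mrange Θ := by
      rw [Submonoid.closure_le]
      rintro _ ⟨i, rfl⟩
      exact ⟨cs.simple i, hΘs i⟩
    exact hle hmem
  obtain ⟨hfin, hcard⟩ := cox_finite8
  have hc : Nat.card (CoxeterMatrix.A 3).Group ≤ Nat.card (Equiv.Perm (Fin 4)) := by
    have h24 : Nat.card (Equiv.Perm (Fin 4)) = 24 := by
      rw [Nat.card_eq_fintype_card, Fintype.card_perm, Fintype.card_fin]; rfl
    rw [h24]; exact hcard
  have hbij : Function.Bijective Θ := hsurj.bijective_of_nat_card_le hc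
  refine ⟨MulEquiv.ofBijective Θ hbij, ?_, ?_, ?_⟩
  · rw [← hcs]; exact hΘs 0
  · rw [← hcs]; exact hΘs 1
  · rw [← hcs]; exact hΘs 2

set_option maxRecDepth 1000000 in
theorem s4_normal8 : ∀ σ : Equiv.Perm (Fin 4), σ ≠ 1 → ∃ τ₁ τ₂ : Equiv.Perm (Fin 4),
    swap 0 1 * swap 2 3 = τ₁ * σ * τ₁⁻¹ * (τ₂ * σ * τ₂⁻¹) ∨ swap 0 1 * swap 2 3 = τ₁ * σ * τ₁⁻¹ := by
  decide

theorem s4_hom8 {G : Type*} [Group G] {D : Set G} (hD : Cfsg.IsThreeTranspositionSet D)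
    {a b c : G} (ha : a ∈ D) (hb : b ∈ D) (hc : c ∈ D) (hac : a ≠ c) (hac' : Commute a c)
    (hab : ¬ Commute a b) (hbc : ¬ Commute b c) :
    ∃ φ : Equiv.Perm (Fin 4) →* G, Function.Injective φ ∧ φ (Equiv.swap 0 1) = a ∧
      φ (Equiv.swap 1 2) = b ∧ φ (Equiv.swap 2 3) = c := by
  have sq : ∀ d ∈ D, d * d = 1 := by
    intro d hd
    have h1 : d ^ 2 = 1 := by rw [← hD.1 d hd]; exact pow_orderOf_eq_one d
    rw [← pow_two]; exact h1
  have haa := sq a ha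
  have hbb := sq b hb
  have hcc := sq c hc
  have cube : ∀ d ∈ D, ∀ e ∈ D, ¬ Commute d e → (d * e) ^ 3 = 1 := by
    intro d hd e he hne
    rcases hD.2 d hd e he with h | h
    · exact absurd (comm_of_sq8 (sq d hd) (sq e he) h) hne
    · exact h
  have hba : ¬ Commute b a := fun h => hab h.symm
  have hcb : ¬ Commute c b := fun h => hbc h.symm
  have sq2 : ∀ d e : G, d * d = 1 → e * e = 1 → d * e = e * d → (d * e) ^ 2 = 1 := by
    intro d e hd he hde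
    calc (d * e) ^ 2 = d * (e * d) * e := by rw [pow_two]; simp only [mul_assoc]
      _ = d * (d * e) * e := by rw [hde]
      _ = (d * d) * (e * e) := by simp only [mul_assoc]
      _ = 1 := by rw [hd, he, one_mul]
  have hlift : (CoxeterMatrix.A 3).IsLiftable ![a, b, c] := by
    intro i i'
    have hi : i = 0 ∨ i = 1 ∨ i = 2 := by revert i; decide
    have hi' : i' = 0 ∨ i' = 1 ∨ i' = 2 := by revert i'; decide
    rcases hi with h | h | h <;> rcases hi' with h' | h' | h' <;> rw [h, h']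
    · show (a * a) ^ 1 = 1
      rw [pow_one]; exact haa
    · show (a * b) ^ 3 = 1
      exact cube a ha b hb hab
    · show (a * c) ^ 2 = 1
      exact sq2 a c haa hcc hac'.eq
    · show (b * a) ^ 3 = 1
      exact cube b hb a ha hba
    · show (b * b) ^ 1 = 1
      rw [pow_one]; exact hbb
    · show (b * c) ^ 3 = 1
      exact cube b hb c hc hbc
    · show (c * a) ^ 2 = 1
      exact sq2 c a hcc haa hac'.eq.symm
    · show (c * b) ^ 3 = 1
      exact cube c hc b hb hcb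
    · show (c * c) ^ 1 = 1
      rw [pow_one]; exact hcc
  obtain ⟨e, he0, he1, he2⟩ := cox_equiv8
  obtain ⟨cs, hcs⟩ : ∃ cs, cs = (CoxeterMatrix.A 3).toCoxeterSystem := ⟨_, rfl⟩
  rw [← hcs] at he0 he1 he2
  obtain ⟨Λ, hΛ⟩ : ∃ Λ, Λ = cs.lift ⟨_, hlift⟩ := ⟨_, rfl⟩
  have hΛs : ∀ i : Fin 3, Λ (cs.simple i) = ![a, b, c] i := by
    intro i; rw [hΛ]; exact cs.lift_apply_simple hlift i
  obtain ⟨φ, hφ⟩ : ∃ φ : Equiv.Perm (Fin 4) →* G, φ = Λ.comp e.symm.toMonoidHom := ⟨_, rfl⟩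
  have hφe : ∀ w, φ (e w) = Λ w := by
    intro w; rw [hφ]; simp
  have h0 : φ (Equiv.swap 0 1) = a := by rw [← he0, hφe, hΛs]; rfl
  have h1 : φ (Equiv.swap 1 2) = b := by rw [← he1, hφe, hΛs]; rfl
  have h2 : φ (Equiv.swap 2 3) = c := by rw [← he2, hφe, hΛs]; rfl
  refine ⟨φ, ?_, h0, h1, h2⟩
  rw [injective_iff_map_eq_one]
  intro σ hσ
  by_contra hne
  have hker : φ (swap 0 1 * swap 2 3) = 1 := by
    obtain ⟨τ₁, τ₂, h | h⟩ := s4_normal8 σ hne
    · rw [h]; simp only [map_mul, map_inv, hσ, mul_one, mul_inv_cancel]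
    · rw [h]; simp only [map_mul, map_inv, hσ, mul_one, mul_inv_cancel]
  rw [map_mul, h0, h2] at hker
  apply hac
  calc a = c⁻¹ := eq_inv_of_mul_eq_one_left hker
    _ = c := inv_eq_of_mul_eq_one_right hcc

end Cfsg.Agent.Lib.Helper8
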