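import Mathlib
import Cfsg.Prelude.Def_FischerSpaces
import Cfsg.Agent.Lib.Helper8.Fischer1
import Cfsg.Agent.Lib.Helper8.S4Hom

set_option autoImplicit false

namespace Cfsg.Agent.Lib.Helper8

open Cfsg Cfsg.LineSystem

section ttlines

variable {G : Type*} [Group G] {D : Set G}

theorem tt_sq8 (hD : IsThreeTranspositionSet D) {d : G} (hd : d ∈ D) : d * d = 1 := by
  have h1 : d ^ 2 = 1 := by rw [← hD.1 d hd]; exact pow_orderOf_eq_one d
  rw [← pow_two]; exact h1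

theorem tt_inv8 (hD : IsThreeTranspositionSet D) {d : G} (hd : d ∈ D) : d⁻¹ = d :=
  inv_eq_of_mul_eq_one_right (tt_sq8 hD hd)

theorem tt_cube8 (hD : IsThreeTranspositionSet D) {d e : G} (hd : d ∈ D) (he : e ∈ D)
    (hne : ¬ Commute d e) : (d * e) ^ 3 = 1 := by
  rcases hD.2 d hd e he with h | h
  · exact absurd (comm_of_sq8 (tt_sq8 hD hd) (tt_sq8 hD he) h) hne
  · exact h

theorem tt_braid8 (hD : IsThreeTranspositionSet D) {d e : G} (hd : d ∈ D) (he : e ∈ D)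
    (hne : ¬ Commute d e) : d * e * d = e * d * e :=
  braid_of_cube8 (tt_sq8 hD hd) (tt_sq8 hD he) (tt_cube8 hD hd he hne)

/-- `u, v` are non-commuting members of `D` and `w` is the third point of their line -/
def Tri8 (D : Set G) (u v w : G) : Prop := u ∈ D ∧ v ∈ D ∧ ¬ Commute u v ∧ w = v * u * v⁻¹

theorem tri_swap12_8 (hD : IsThreeTranspositionSet D) {u v w : G} (h : Tri8 D u v w) :
    Tri8 D v u w := by
  obtain ⟨hu, hv, hne, hw⟩ := h
  refine ⟨hv, hu, fun hc => hne hc.symm, ?_⟩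
  rw [hw, tt_inv8 hD hv, tt_inv8 hD hu]
  exact (tt_braid8 hD hu hv hne).symm

theorem tri_swap23_8 (hD : IsThreeTranspositionSet D) (hconj : ∀ g : G, ∀ d ∈ D, g * d * g⁻¹ ∈ D)
    {u v w : G} (h : Tri8 D u v w) : Tri8 D u w v := by
  obtain ⟨hu, hv, hne, hw⟩ := h
  have hwD : w ∈ D := by rw [hw]; exact hconj v u hu
  have huu := tt_sq8 hD hu
  have hbr := tt_braid8 hD hu hv hne
  have hw' : w = u * v * u := by rw [hw, tt_inv8 hD hv]; exact hbr.symm
  refine ⟨hu, hwD, ?_, ?_⟩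
  · intro hc
    apply hne
    have h1 : u * w = w * u := hc
    rw [hw'] at h1
    have h2 : u * (u * v * u) = v * u := by
      calc u * (u * v * u) = (u * u) * v * u := by simp only [mul_assoc]
        _ = v * u := by rw [huu, one_mul]
    have h3 : u * v * u * u = u * v := by
      calc u * v * u * u = u * v * (u * u) := by simp only [mul_assoc]
        _ = u * v := by rw [huu, mul_one]
    rw [h2, h3] at h1
    exact h1.symm
  · rw [tt_inv8 hD hwD, hw']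
    have h4 : (u * v * u) * u * (u * v * u) = v := by
      calc (u * v * u) * u * (u * v * u) = u * v * (u * u) * (u * v * u) := by simp only [mul_assoc]
        _ = u * (v * u * v) * u := by rw [huu, mul_one]; simp only [mul_assoc]
        _ = u * (u * v * u) * u := by rw [← hbr]
        _ = (u * u) * v * (u * u) := by simp only [mul_assoc]
        _ = v := by rw [huu, one_mul, mul_one]
    exact h4.symm

theorem tri_perm8 (hD : IsThreeTranspositionSet D) (hconj : ∀ g : G, ∀ d ∈ D, g * d * g⁻¹ ∈ D)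
    {u v w : G} (h : Tri8 D u v w) {p q : G}
    (hp : p = u ∨ p = v ∨ p = w) (hq : q = u ∨ q = v ∨ q = w) (hpq : p ≠ q) :
    ¬ Commute p q ∧ ∀ z : G, (z = u ∨ z = v ∨ z = w) ↔ (z = p ∨ z = q ∨ z = q * p * q⁻¹) := by
  have T0 := h
  have T1 := tri_swap12_8 hD T0
  have T2 := tri_swap23_8 hD hconj T0
  have T3 := tri_swap12_8 hD T2
  have T4 := tri_swap23_8 hD hconj T1
  have T5 := tri_swap12_8 hD T4
  rcases hp with hp | hp | hp <;> rcases hq with hq | hq | hq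
  · exact absurd (hp.trans hq.symm) hpq
  · rw [hp, hq]; refine ⟨T0.2.2.1, fun z => ?_⟩; rw [← T0.2.2.2]
  · rw [hp, hq]; refine ⟨T2.2.2.1, fun z => ?_⟩; rw [← T2.2.2.2]; tauto
  · rw [hp, hq]; refine ⟨T1.2.2.1, fun z => ?_⟩; rw [← T1.2.2.2]; tauto
  · exact absurd (hp.trans hq.symm) hpq
  · rw [hp, hq]; refine ⟨T4.2.2.1, fun z => ?_⟩; rw [← T4.2.2.2]; tauto
  · rw [hp, hq]; refine ⟨T3.2.2.1, fun z => ?_⟩; rw [← T3.2.2.2]; tauto
  · rw [hp, hq]; refine ⟨T5.2.2.1, fun z => ?_⟩; rw [← T5.2.2.2]; tauto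
  · exact absurd (hp.trans hq.symm) hpq

theorem tt_two_point8 (hD : IsThreeTranspositionSet D) (hconj : ∀ g : G, ∀ d ∈ D, g * d * g⁻¹ ∈ D)
    {l : Set D} (hl : l ∈ threeTranspositionLines D) {p q : D}
    (hp : p ∈ l) (hq : q ∈ l) (hpq : p ≠ q) :
    ¬ Commute (p : G) (q : G) ∧
      l = {z : D | (z : G) = p ∨ (z : G) = q ∨ (z : G) = (q : G) * p * (q : G)⁻¹} := by
  obtain ⟨x, y, hxy, rfl⟩ := hl
  have T0 : Tri8 D (x : G) (y : G) ((y : G) * x * (y : G)⁻¹) := ⟨x.2, y.2, hxy, rfl⟩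
  have hpq' : (p : G) ≠ q := fun h => hpq (Subtype.ext h)
  obtain ⟨h1, h2⟩ := tri_perm8 hD hconj T0 hp hq hpq'
  refine ⟨h1, ?_⟩
  ext z
  exact h2 (z : G)

theorem tt_partialLinear8 (hD : IsThreeTranspositionSet D)
    (hconj : ∀ g : G, ∀ d ∈ D, g * d * g⁻¹ ∈ D) : IsPartialLinear (threeTranspositionLines D) := by
  intro l hl m hm x y hxy hxl hyl hxm hym
  have h1 := (tt_two_point8 hD hconj hl hxl hyl hxy).2
  have h2 := (tt_two_point8 hD hconj hm hxm hym hxy).2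
  rw [h1, h2]

theorem tt_ncard8 (hD : IsThreeTranspositionSet D) (hconj : ∀ g : G, ∀ d ∈ D, g * d * g⁻¹ ∈ D)
    {l : Set D} (hl : l ∈ threeTranspositionLines D) : l.ncard = 3 := by
  obtain ⟨x, y, hxy, rfl⟩ := hl
  have hw : (y : G) * x * (y : G)⁻¹ ∈ D := hconj _ _ x.2
  rw [Set.ncard_eq_three]
  refine ⟨x, y, ⟨_, hw⟩, ?_, ?_, ?_, ?_⟩
  · intro h; apply hxy; rw [h]
  · intro h
    have h' : (x : G) = (y : G) * x * (y : G)⁻¹ := congrArg Subtype.val h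
    apply hxy
    have h2 : (x : G) * y = y * x := by
      calc (x : G) * y = ((y : G) * x * (y : G)⁻¹) * y := by rw [← h']
        _ = y * x := by simp
    exact h2
  · intro h
    have h' : (y : G) = (y : G) * x * (y : G)⁻¹ := congrArg Subtype.val h
    apply hxy
    have h2 : (y : G) * y = y * x := by
      calc (y : G) * y = ((y : G) * x * (y : G)⁻¹) * y := by rw [← h']
        _ = y * x := by simp
    have h3 : (x : G) = y := (mul_left_cancel h2).symm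
    rw [h3]
  · ext z
    simp only [Set.mem_setOf_eq, Set.mem_insert_iff, Set.mem_singleton_iff, Subtype.ext_iff]

theorem isIso_symm8 {X Y : Type*} {L : Set (Set X)} {M : Set (Set Y)} {e : X ≃ Y}
    (h : IsIso L M e) : IsIso M L e.symm := by
  intro m
  have h1 := h (e.symm '' m)
  have h2 : e '' (e.symm '' m) = m := by rw [Set.image_image]; simp
  rw [h2] at h1
  exact h1.symm

theorem fischer_iso8 (hD : IsThreeTranspositionSet D) (hconj : ∀ g : G, ∀ d ∈ D, g * d * g⁻¹ ∈ D)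
    {Y : Type*} (M : Set (Set Y)) (g : Y → G) (A : Set D)
    (g1 : ∀ y, g y ∈ D) (g2 : Function.Injective g)
    (g3a : ∀ z ∈ A, ∃ y, g y = (z : G))
    (g3b : ∀ T : Set D, IsSubspace (threeTranspositionLines D) T → A ⊆ T →
      ∀ y, (⟨g y, g1 y⟩ : D) ∈ T)
    (g4a : ∀ n ∈ M, ∃ y₁ y₂ y₃, n = {y₁, y₂, y₃} ∧ ¬ Commute (g y₁) (g y₂) ∧
      g y₃ = g y₂ * g y₁ * (g y₂)⁻¹)
    (g4b : ∀ y₁ y₂, ¬ Commute (g y₁) (g y₂) → ∃ y₃, g y₃ = g y₂ * g y₁ * (g y₂)⁻¹ ∧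
      ({y₁, y₂, y₃} : Set Y) ∈ M) :
    Isomorphic (restrict (threeTranspositionLines D) (span (threeTranspositionLines D) A)) M := by
  obtain ⟨L, hLdef⟩ : ∃ L, L = threeTranspositionLines D := ⟨_, rfl⟩
  rw [← hLdef] at g3b ⊢
  obtain ⟨P, hP⟩ : ∃ P : Set D, P = {z : D | ∃ y, g y = (z : G)} := ⟨_, rfl⟩
  have hPmem : ∀ z : D, z ∈ P ↔ ∃ y, g y = (z : G) := by intro z; rw [hP]; exact Iff.rfl
  have hsubP : IsSubspace L P := by
    intro l₀ hl₀ x hx y hy hxy hxl hyl z hz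
    obtain ⟨y₁, h1⟩ := (hPmem x).mp hx
    obtain ⟨y₂, h2⟩ := (hPmem y).mp hy
    rw [hLdef] at hl₀
    obtain ⟨hnc, hleq⟩ := tt_two_point8 hD hconj hl₀ hxl hyl hxy
    rw [← h1, ← h2] at hnc
    obtain ⟨y₃, h3, -⟩ := g4b y₁ y₂ hnc
    rw [hleq] at hz
    rw [hPmem]
    rcases hz with hz | hz | hz
    · exact ⟨y₁, by rw [h1, hz]⟩
    · exact ⟨y₂, by rw [h2, hz]⟩
    · exact ⟨y₃, by rw [h3, h1, h2, hz]⟩
  have hspan : span L A = P := by
    apply Set.Subset.antisymm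
    · apply Set.sInter_subset_of_mem
      refine ⟨?_, hsubP⟩
      intro z hz
      exact (hPmem z).mpr (g3a z hz)
    · intro z hz
      obtain ⟨y, hy⟩ := (hPmem z).mp hz
      rintro T ⟨hAT, hT⟩
      have h5 := g3b T hT hAT y
      have hzeq : (⟨g y, g1 y⟩ : D) = z := Subtype.ext hy
      rw [hzeq] at h5; exact h5
  obtain ⟨Q, hQ⟩ : ∃ Q, Q = span L A := ⟨_, rfl⟩
  rw [← hQ] at hspan ⊢
  have hQmem : ∀ z : D, z ∈ Q ↔ ∃ y, g y = (z : G) := by intro z; rw [hspan]; exact hPmem z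
  obtain ⟨f, hf⟩ : ∃ f : Y → Q, ∀ y, ((f y : D) : G) = g y :=
    ⟨fun y => ⟨⟨g y, g1 y⟩, (hQmem _).mpr ⟨y, rfl⟩⟩, fun y => rfl⟩
  have hfinj : Function.Injective f := by
    intro y y' h
    apply g2
    rw [← hf y, ← hf y', h]
  have hfsurj : Function.Surjective f := by
    intro p
    obtain ⟨y, hy⟩ := (hQmem p.1).mp p.2
    exact ⟨y, Subtype.ext (Subtype.ext (by rw [hf y, hy]))⟩
  obtain ⟨e, he⟩ : ∃ e : Y ≃ Q, ∀ y, e y = f y :=
    ⟨Equiv.ofBijective f ⟨hfinj, hfsurj⟩, fun y => rfl⟩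
  have hev : ∀ y, ((e y : D) : G) = g y := fun y => by rw [he y, hf y]
  have key : ∀ y₁ y₂ y₃ : Y, ¬ Commute (g y₁) (g y₂) → g y₃ = g y₂ * g y₁ * (g y₂)⁻¹ →
      ∀ l₀ : Set D, l₀ = {z : D | (z : G) = g y₁ ∨ (z : G) = g y₂ ∨
        (z : G) = g y₂ * g y₁ * (g y₂)⁻¹} →
      l₀ ∈ L ∧ l₀ ⊆ Q ∧ e '' {y₁, y₂, y₃} = {p : Q | (p : D) ∈ l₀} := by
    intro y₁ y₂ y₃ hnc h3 l₀ hl₀
    refine ⟨?_, ?_, ?_⟩
    · rw [hLdef, hl₀]
      exact ⟨⟨g y₁, g1 y₁⟩, ⟨g y₂, g1 y₂⟩, hnc, rfl⟩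
    · intro z hz
      rw [hl₀] at hz
      rw [hQmem]
      rcases hz with hz | hz | hz
      · exact ⟨y₁, hz.symm⟩
      · exact ⟨y₂, hz.symm⟩
      · exact ⟨y₃, by rw [h3, hz]⟩
    · ext p
      constructor
      · rintro ⟨y, hy, rfl⟩
        show (e y : D) ∈ l₀
        rw [hl₀]
        simp only [Set.mem_insert_iff, Set.mem_singleton_iff] at hy
        rcases hy with hy | hy | hy
        · left; rw [hev, hy]
        · right; left; rw [hev, hy]
        · right; right; rw [hev, hy, h3]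
      · intro hp
        have hp' : (p : D) ∈ l₀ := hp
        rw [hl₀] at hp'
        rcases hp' with h | h | h
        · exact ⟨y₁, by simp, Subtype.ext (Subtype.ext (by rw [hev, h]))⟩
        · exact ⟨y₂, by simp, Subtype.ext (Subtype.ext (by rw [hev, h]))⟩
        · exact ⟨y₃, by simp, Subtype.ext (Subtype.ext (by rw [hev, h3, h]))⟩
  have hiso : IsIso M (restrict L Q) e := by
    intro n
    constructor
    · intro hn
      obtain ⟨y₁, y₂, y₃, rfl, hnc, h3⟩ := g4a n hn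
      obtain ⟨k1, k2, k3⟩ := key y₁ y₂ y₃ hnc h3 _ rfl
      exact ⟨_, k1, k2, k3⟩
    · rintro ⟨l₀, hl₀, hl₀Q, heq⟩
      have hl₀' := hl₀
      rw [hLdef] at hl₀'
      obtain ⟨x, y, hxy, hleq⟩ := hl₀'
      have hxl : x ∈ l₀ := by rw [hleq]; left; rfl
      have hyl : y ∈ l₀ := by rw [hleq]; right; left; rfl
      obtain ⟨y₁, h1⟩ := (hQmem x).mp (hl₀Q hxl)
      obtain ⟨y₂, h2⟩ := (hQmem y).mp (hl₀Q hyl)
      have hnc : ¬ Commute (g y₁) (g y₂) := by rw [h1, h2]; exact hxy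
      obtain ⟨y₃, h3, hM⟩ := g4b y₁ y₂ hnc
      obtain ⟨-, -, k3⟩ := key y₁ y₂ y₃ hnc h3 l₀ (by rw [hleq, h1, h2])
      have h6 : e '' n = e '' {y₁, y₂, y₃} := by rw [heq, k3]
      have hn : n = {y₁, y₂, y₃} := e.injective.image_injective h6
      rw [hn]; exact hM
  exact ⟨e.symm, isIso_symm8 hiso⟩

end ttlines

end Cfsg.Agent.Lib.Helper8
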