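import Mathlib
import Cfsg.Prelude.Def_FischerSpaces
import Cfsg.Agent.Lib.Helper8.Fischer2

set_option autoImplicit false

namespace Cfsg.Agent.Lib.Helper8

open Cfsg Cfsg.LineSystem Equiv

/-- the transposition attached to a two-element subset of `Fin 4` -/
def tau8 (s : DualAffinePoint) : Equiv.Perm (Fin 4) :=
  if 0 ∈ s.val then
    (if 1 ∈ s.val then Equiv.swap 0 1 else if 2 ∈ s.val then Equiv.swap 0 2 else Equiv.swap 0 3)
  else if 1 ∈ s.val then (if 2 ∈ s.val then Equiv.swap 1 2 else Equiv.swap 1 3)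
  else Equiv.swap 2 3

set_option maxRecDepth 1000000 in
theorem tau_inj8 : ∀ s s' : DualAffinePoint, tau8 s = tau8 s' → s = s' := by decide

set_option maxRecDepth 1000000 in
theorem tau_line8 : ∀ i : Fin 4, ∃ s₁ s₂ s₃ : DualAffinePoint,
    (∀ s : DualAffinePoint, i ∉ s.val ↔ (s = s₁ ∨ s = s₂ ∨ s = s₃)) ∧
      tau8 s₁ * tau8 s₂ ≠ tau8 s₂ * tau8 s₁ ∧ tau8 s₃ = tau8 s₂ * tau8 s₁ * (tau8 s₂)⁻¹ := by
  decide

set_option maxRecDepth 1000000 in
theorem tau_third8 : ∀ s₁ s₂ : DualAffinePoint, tau8 s₁ * tau8 s₂ ≠ tau8 s₂ * tau8 s₁ →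
    ∃ s₃ : DualAffinePoint, ∃ i : Fin 4, tau8 s₃ = tau8 s₂ * tau8 s₁ * (tau8 s₂)⁻¹ ∧
      ∀ s : DualAffinePoint, i ∉ s.val ↔ (s = s₁ ∨ s = s₂ ∨ s = s₃) := by
  decide

set_option maxRecDepth 1000000 in
theorem tau_conj8 : ∀ s : DualAffinePoint, ∃ ρ : Equiv.Perm (Fin 4),
    tau8 s = ρ * swap 0 1 * ρ⁻¹ := by decide

set_option maxRecDepth 1000000 in
theorem tau_ex8 : (∃ s, tau8 s = swap 0 1) ∧ (∃ s, tau8 s = swap 1 2) ∧ (∃ s, tau8 s = swap 2 3) ∧
    (∃ s, tau8 s = swap 0 1 * swap 1 2 * (swap 0 1)⁻¹) ∧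
    (∃ s, tau8 s = swap 2 3 * swap 1 2 * (swap 2 3)⁻¹) := by decide

set_option maxRecDepth 1000000 in
theorem tau_six8 : ∀ s : DualAffinePoint, tau8 s = swap 0 1 ∨ tau8 s = swap 1 2 ∨
    tau8 s = swap 2 3 ∨ tau8 s = swap 0 1 * swap 1 2 * (swap 0 1)⁻¹ ∨
    tau8 s = swap 2 3 * swap 1 2 * (swap 2 3)⁻¹ ∨
    tau8 s = swap 2 3 * (swap 0 1 * swap 1 2 * (swap 0 1)⁻¹) * (swap 2 3)⁻¹ := by decide

set_option maxRecDepth 1000000 in
theorem s4_nc8 : (swap 0 1 * swap 1 2 * (swap 0 1)⁻¹ : Equiv.Perm (Fin 4)) * swap 2 3 ≠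
    swap 2 3 * (swap 0 1 * swap 1 2 * (swap 0 1)⁻¹) := by decide

theorem fischer_caseI8 {G : Type*} [Group G] {D : Set G} (hD : IsThreeTranspositionSet D)
    (hconj : ∀ g : G, ∀ d ∈ D, g * d * g⁻¹ ∈ D) {l m : Set D}
    (hl : l ∈ threeTranspositionLines D) (hm : m ∈ threeTranspositionLines D) (hne : l ≠ m)
    {o b c : D} (hol : o ∈ l) (hom : o ∈ m) (hbl : b ∈ l) (hcm : c ∈ m) (hbo : b ≠ o)
    (hco : c ≠ o) (hcomm : Commute (b : G) (c : G)) :
    Isomorphic (restrict (threeTranspositionLines D) (span (threeTranspositionLines D) (l ∪ m)))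
      dualAffinePlaneTwo := by
  obtain ⟨hnob, hleq⟩ := tt_two_point8 hD hconj hl hol hbl (Ne.symm hbo)
  obtain ⟨hnoc, hmeq⟩ := tt_two_point8 hD hconj hm hom hcm (Ne.symm hco)
  have hbc : (b : G) ≠ c := by
    intro h
    have hbc' : b = c := Subtype.ext h
    apply hne
    have hcl : c ∈ l := by rw [← hbc']; exact hbl
    exact tt_partialLinear8 hD hconj l hl m hm o c (Ne.symm hco) hol hcl hom hcm
  obtain ⟨φ, hφinj, h01, h12, h23⟩ :=
    s4_hom8 hD b.2 o.2 c.2 hbc hcomm (fun h => hnob h.symm) hnoc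
  obtain ⟨g, hg⟩ : ∃ g : DualAffinePoint → G, ∀ s, g s = φ (tau8 s) := ⟨_, fun _ => rfl⟩
  have g1 : ∀ s, g s ∈ D := by
    intro s
    obtain ⟨ρ, hρ⟩ := tau_conj8 s
    rw [hg, hρ, map_mul, map_mul, map_inv, h01]
    exact hconj _ _ b.2
  have hmemL : ∀ z : D, z ∈ l ↔ ((z : G) = o ∨ (z : G) = b ∨ (z : G) = (b : G) * o * (b : G)⁻¹) := by
    intro z; rw [hleq]; exact Iff.rfl
  have hmemM : ∀ z : D, z ∈ m ↔ ((z : G) = o ∨ (z : G) = c ∨ (z : G) = (c : G) * o * (c : G)⁻¹) := by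
    intro z; rw [hmeq]; exact Iff.rfl
  apply fischer_iso8 hD hconj dualAffinePlaneTwo g (l ∪ m) g1
  · intro s s' h
    rw [hg, hg] at h
    exact tau_inj8 s s' (hφinj h)
  · intro z hz
    obtain ⟨⟨s1, hs1⟩, ⟨s2, hs2⟩, ⟨s3, hs3⟩, ⟨s4, hs4⟩, ⟨s5, hs5⟩⟩ := tau_ex8
    rcases hz with hz | hz
    · rcases (hmemL z).mp hz with h | h | h
      · exact ⟨s2, by rw [hg, hs2, h12, h]⟩
      · exact ⟨s1, by rw [hg, hs1, h01, h]⟩
      · exact ⟨s4, by rw [hg, hs4, map_mul, map_mul, map_inv, h01, h12, h]⟩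
    · rcases (hmemM z).mp hz with h | h | h
      · exact ⟨s2, by rw [hg, hs2, h12, h]⟩
      · exact ⟨s3, by rw [hg, hs3, h23, h]⟩
      · exact ⟨s5, by rw [hg, hs5, map_mul, map_mul, map_inv, h23, h12, h]⟩
  · intro T hT hAT s
    rcases tau_six8 s with h | h | h | h | h | h
    · have h5 : (⟨g s, g1 s⟩ : D) = b := Subtype.ext (by show g s = (b : G); rw [hg, h, h01])
      rw [h5]; exact hAT (Or.inl hbl)
    · have h5 : (⟨g s, g1 s⟩ : D) = o := Subtype.ext (by show g s = (o : G); rw [hg, h, h12])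
      rw [h5]; exact hAT (Or.inl hol)
    · have h5 : (⟨g s, g1 s⟩ : D) = c := Subtype.ext (by show g s = (c : G); rw [hg, h, h23])
      rw [h5]; exact hAT (Or.inr hcm)
    · apply hAT; left
      rw [hmemL]; right; right
      show g s = (b : G) * o * (b : G)⁻¹
      rw [hg, h, map_mul, map_mul, map_inv, h01, h12]
    · apply hAT; right
      rw [hmemM]; right; right
      show g s = (c : G) * o * (c : G)⁻¹
      rw [hg, h, map_mul, map_mul, map_inv, h23, h12]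
    · -- the sixth point lies on the line through `b o b⁻¹` and `c`
      have hx1D : (b : G) * o * (b : G)⁻¹ ∈ D := hconj _ _ o.2
      have hx1l : (⟨(b : G) * o * (b : G)⁻¹, hx1D⟩ : D) ∈ l := by
        rw [hmemL]; right; right; rfl
      have hnc : ¬ Commute ((b : G) * o * (b : G)⁻¹) (c : G) := by
        intro hc
        apply s4_nc8
        apply hφinj
        simp only [map_mul, map_inv, h01, h12, h23]
        exact hc
      have hne' : (⟨(b : G) * o * (b : G)⁻¹, hx1D⟩ : D) ≠ c := by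
        intro h6
        apply hnc
        have h7 : (b : G) * o * (b : G)⁻¹ = c := congrArg Subtype.val h6
        rw [h7]
      have hl₀ : {z : D | (z : G) = (b : G) * o * (b : G)⁻¹ ∨ (z : G) = c ∨
          (z : G) = (c : G) * ((b : G) * o * (b : G)⁻¹) * (c : G)⁻¹} ∈ threeTranspositionLines D :=
        ⟨⟨_, hx1D⟩, c, hnc, rfl⟩
      have hsub := hT _ hl₀ ⟨_, hx1D⟩ (hAT (Or.inl hx1l)) c (hAT (Or.inr hcm)) hne'
        (Or.inl rfl) (Or.inr (Or.inl rfl))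
      apply hsub
      right; right
      show g s = (c : G) * ((b : G) * o * (b : G)⁻¹) * (c : G)⁻¹
      rw [hg, h]
      simp only [map_mul, map_inv, h01, h12, h23]
  · rintro n ⟨i, rfl⟩
    obtain ⟨s₁, s₂, s₃, hiff, hnc, h3⟩ := tau_line8 i
    refine ⟨s₁, s₂, s₃, ?_, ?_, ?_⟩
    · ext s
      simp only [Set.mem_setOf_eq, Set.mem_insert_iff, Set.mem_singleton_iff]
      exact hiff s
    · intro hc
      apply hnc
      apply hφinj
      rw [map_mul, map_mul, ← hg, ← hg]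
      exact hc
    · rw [hg, hg, hg, h3, map_mul, map_mul, map_inv]
  · intro s₁ s₂ hnc
    have hnc' : tau8 s₁ * tau8 s₂ ≠ tau8 s₂ * tau8 s₁ := by
      intro h
      apply hnc
      show g s₁ * g s₂ = g s₂ * g s₁
      rw [hg, hg, ← map_mul, ← map_mul, h]
    obtain ⟨s₃, i, h3, hiff⟩ := tau_third8 s₁ s₂ hnc'
    refine ⟨s₃, ?_, ⟨i, ?_⟩⟩
    · rw [hg, hg, hg, h3, map_mul, map_mul, map_inv]
    · ext s
      simp only [Set.mem_setOf_eq, Set.mem_insert_iff, Set.mem_singleton_iff]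
      exact (hiff s).symm

end Cfsg.Agent.Lib.Helper8
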