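import Mathlib
import Cfsg.Agent.Lib.Helper8.Fischer1

set_option autoImplicit false

namespace Cfsg.Agent.Lib.Helper8

section heis

variable {Γ : Type*} [Group Γ]

theorem comm_conj8 {x y : Γ} (hx : x ^ 3 = 1) (hy : y ^ 3 = 1)
    (h1 : (y * x) ^ 3 = 1) (h2 : (y⁻¹ * x) ^ 3 = 1) :
    x * (y⁻¹ * x * y) = (y⁻¹ * x * y) * x := by
  have hyy : y * y = y⁻¹ := by
    have h : y * y * y = 1 := by rw [← hy]; simp only [pow_succ, pow_zero, one_mul]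
    exact eq_inv_of_mul_eq_one_left h
  have hA : x * y * x = y⁻¹ * x⁻¹ * y⁻¹ := by
    have h3 : y * (x * y * x) * (y * x) = 1 := by
      rw [← h1]; simp only [pow_succ, pow_zero, one_mul, mul_assoc]
    calc x * y * x = y⁻¹ * (y * (x * y * x) * (y * x)) * (y * x)⁻¹ := by group
      _ = y⁻¹ * x⁻¹ * y⁻¹ := by rw [h3]; group
  have hB : x * y⁻¹ * x = y * x⁻¹ * y := by
    have h3 : y⁻¹ * (x * y⁻¹ * x) * (y⁻¹ * x) = 1 := by
      rw [← h2]; simp only [pow_succ, pow_zero, one_mul, mul_assoc]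
    calc x * y⁻¹ * x = y * (y⁻¹ * (x * y⁻¹ * x) * (y⁻¹ * x)) * (y⁻¹ * x)⁻¹ := by group
      _ = y * x⁻¹ * y := by rw [h3]; group
  have hR : (y⁻¹ * x * y) * x = y * x⁻¹ * y⁻¹ := by
    calc (y⁻¹ * x * y) * x = y⁻¹ * (x * y * x) := by group
      _ = y⁻¹ * (y⁻¹ * x⁻¹ * y⁻¹) := by rw [hA]
      _ = (y * y)⁻¹ * x⁻¹ * y⁻¹ := by group
      _ = y * x⁻¹ * y⁻¹ := by rw [hyy, inv_inv]
  have hLft : x * (y⁻¹ * x * y) = y * x⁻¹ * y⁻¹ := by
    calc x * (y⁻¹ * x * y) = (x * y⁻¹ * x) * y := by group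
      _ = y * x⁻¹ * y * y := by rw [hB]
      _ = y * x⁻¹ * (y * y) := by group
      _ = y * x⁻¹ * y⁻¹ := by rw [hyy]
  rw [hLft, hR]

theorem heis_central8 {a s t : Γ} (hs : s ^ 3 = 1) (ht : t ^ 3 = 1) (hst : (s * t) ^ 3 = 1)
    (hst' : (s⁻¹ * t) ^ 3 = 1) (has : a * s * a⁻¹ = s⁻¹) (hat : a * t * a⁻¹ = t⁻¹) :
    ∃ w : Γ, t * s = s * t * w ∧ w * s = s * w ∧ w * t = t * w ∧ w * a = a * w := by
  obtain ⟨w, hwdef⟩ : ∃ w, w = t⁻¹ * s⁻¹ * t * s := ⟨_, rfl⟩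
  have hts3 : (t * s) ^ 3 = 1 := by
    have e : t * s = s⁻¹ * (s * t) * s⁻¹⁻¹ := by group
    rw [e, conj_pow, hst]; group
  have hts3' : (t⁻¹ * s) ^ 3 = 1 := by
    have e : t⁻¹ * s = (s⁻¹ * t)⁻¹ := by group
    rw [e, inv_pow, hst', inv_one]
  have hc1 : Commute s (t⁻¹ * s * t) := comm_conj8 hs ht hts3 hts3'
  have hc2 : Commute t (s⁻¹ * t * s) := comm_conj8 ht hs hst hst'
  have hws : w * s = s * w := by
    have ew : w = (t⁻¹ * s * t)⁻¹ * s := by rw [hwdef]; group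
    have hc : Commute s ((t⁻¹ * s * t)⁻¹ * s) := hc1.inv_right.mul_right (Commute.refl s)
    rw [ew]; exact hc.symm.eq
  have hwt : w * t = t * w := by
    have ew : w = t⁻¹ * (s⁻¹ * t * s) := by rw [hwdef]; group
    have hc : Commute t (t⁻¹ * (s⁻¹ * t * s)) := (Commute.refl t).inv_right.mul_right hc2
    rw [ew]; exact hc.symm.eq
  have e1 : s⁻¹ * t * s * t⁻¹ = w := by
    calc s⁻¹ * t * s * t⁻¹ = t * w * t⁻¹ := by rw [hwdef]; group
      _ = w := by rw [← hwt, mul_inv_cancel_right]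
  have e2 : t * s * t⁻¹ * s⁻¹ = w := by
    calc t * s * t⁻¹ * s⁻¹ = s * (s⁻¹ * t * s * t⁻¹) * s⁻¹ := by group
      _ = s * w * s⁻¹ := by rw [e1]
      _ = w := by rw [← hws, mul_inv_cancel_right]
  have e3 : a * w * a⁻¹ = w := by
    calc a * w * a⁻¹
        = (a * t * a⁻¹)⁻¹ * (a * s * a⁻¹)⁻¹ * (a * t * a⁻¹) * (a * s * a⁻¹) := by
          rw [hwdef]; group
      _ = t * s * t⁻¹ * s⁻¹ := by rw [hat, has, inv_inv, inv_inv]
      _ = w := e2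
  refine ⟨w, ?_, hws, hwt, ?_⟩
  · rw [hwdef]; group
  · exact (mul_inv_eq_iff_eq_mul.mp e3).symm

/-- the nine conjugates of `a`, with natural exponents -/
def PN8 (a s t : Γ) (i j : ℕ) : Γ := s ^ i * (t ^ j * a * (t ^ j)⁻¹) * (s ^ i)⁻¹

/-- the nine conjugates of `a`, indexed by `ZMod 3 × ZMod 3` -/
def PZ8 (a s t : Γ) (x y : ZMod 3) : Γ := PN8 a s t x.val y.val

theorem PN_mod8 {a s t : Γ} (hs : s ^ 3 = 1) (ht : t ^ 3 = 1) (i j : ℕ) :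
    PN8 a s t i j = PZ8 a s t (i : ZMod 3) (j : ZMod 3) := by
  unfold PZ8 PN8
  rw [ZMod.val_natCast, ZMod.val_natCast, ← pow_eq_pow_mod i hs, ← pow_eq_pow_mod j ht]

theorem PZ_s8 {a s t : Γ} (hs : s ^ 3 = 1) (ht : t ^ 3 = 1) (x y : ZMod 3) :
    s * PZ8 a s t x y * s⁻¹ = PZ8 a s t (x + 1) y := by
  have h1 : s * PN8 a s t x.val y.val * s⁻¹ = PN8 a s t (x.val + 1) y.val := by
    unfold PN8
    rw [pow_succ', mul_inv_rev]
    simp only [mul_assoc]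
  have h2 := PN_mod8 (a := a) hs ht (x.val + 1) y.val
  rw [Nat.cast_add, Nat.cast_one, ZMod.natCast_zmod_val, ZMod.natCast_zmod_val] at h2
  show s * PN8 a s t x.val y.val * s⁻¹ = _
  rw [h1, h2]

theorem comm_step8 {s t w Z : Γ} (hts : t * s = s * t * w) (hZ : w * Z = Z * w) :
    t * (s * Z * s⁻¹) * t⁻¹ = s * (t * Z * t⁻¹) * s⁻¹ := by
  calc t * (s * Z * s⁻¹) * t⁻¹ = (t * s) * Z * (t * s)⁻¹ := by group
    _ = (s * t * w) * Z * (s * t * w)⁻¹ := by rw [hts]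
    _ = s * (t * (w * Z * w⁻¹) * t⁻¹) * s⁻¹ := by group
    _ = s * (t * Z * t⁻¹) * s⁻¹ := by rw [hZ, mul_inv_cancel_right]

theorem conj_comm8 {w U Y : Γ} (hU : w * U = U * w) (hY : w * Y = Y * w) :
    w * (U * Y * U⁻¹) = (U * Y * U⁻¹) * w := by
  have h1 : Commute w U := hU
  have h2 : Commute w Y := hY
  exact ((h1.mul_right h2).mul_right h1.inv_right).eq

theorem comm_pow8 {s t w : Γ} (hts : t * s = s * t * w) (hws : w * s = s * w) (i : ℕ) :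
    ∀ Y : Γ, w * Y = Y * w →
      t * (s ^ i * Y * (s ^ i)⁻¹) * t⁻¹ = s ^ i * (t * Y * t⁻¹) * (s ^ i)⁻¹ := by
  induction i with
  | zero => intro Y _; simp
  | succ i ih =>
    intro Y hY
    have hwsi : w * s ^ i = s ^ i * w := (Commute.pow_right (show Commute w s from hws) i).eq
    have hZ : w * (s ^ i * Y * (s ^ i)⁻¹) = (s ^ i * Y * (s ^ i)⁻¹) * w := conj_comm8 hwsi hY
    have e1 : ∀ Y' : Γ, s ^ (i + 1) * Y' * (s ^ (i + 1))⁻¹ = s * (s ^ i * Y' * (s ^ i)⁻¹) * s⁻¹ := by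
      intro Y'; rw [pow_succ', mul_inv_rev]; simp only [mul_assoc]
    rw [e1, e1, comm_step8 hts hZ, ih Y hY]

theorem PZ_t8 {a s t w : Γ} (hs : s ^ 3 = 1) (ht : t ^ 3 = 1) (hts : t * s = s * t * w)
    (hws : w * s = s * w) (hwt : w * t = t * w) (hwa : w * a = a * w) (x y : ZMod 3) :
    t * PZ8 a s t x y * t⁻¹ = PZ8 a s t x (y + 1) := by
  have hwtj : w * t ^ y.val = t ^ y.val * w :=
    (Commute.pow_right (show Commute w t from hwt) y.val).eq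
  have hY : w * (t ^ y.val * a * (t ^ y.val)⁻¹) = (t ^ y.val * a * (t ^ y.val)⁻¹) * w :=
    conj_comm8 hwtj hwa
  have e2 : t * (t ^ y.val * a * (t ^ y.val)⁻¹) * t⁻¹ =
      t ^ (y.val + 1) * a * (t ^ (y.val + 1))⁻¹ := by
    rw [pow_succ', mul_inv_rev]; simp only [mul_assoc]
  have h1 : t * PN8 a s t x.val y.val * t⁻¹ = PN8 a s t x.val (y.val + 1) := by
    unfold PN8
    rw [comm_pow8 hts hws x.val _ hY, e2]
  have h2 := PN_mod8 (a := a) hs ht x.val (y.val + 1)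
  rw [Nat.cast_add, Nat.cast_one, ZMod.natCast_zmod_val, ZMod.natCast_zmod_val] at h2
  show t * PN8 a s t x.val y.val * t⁻¹ = _
  rw [h1, h2]

theorem PZ_a8 {a s t : Γ} (hs : s ^ 3 = 1) (ht : t ^ 3 = 1) (has : a * s * a⁻¹ = s⁻¹)
    (hat : a * t * a⁻¹ = t⁻¹) (x y : ZMod 3) :
    a * PZ8 a s t x y * a⁻¹ = PZ8 a s t (-x) (-y) := by
  have hs2 : s⁻¹ = s ^ 2 := by
    have h : s ^ 2 * s = 1 := by rw [← pow_succ]; exact hs
    exact (eq_inv_of_mul_eq_one_left h).symm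
  have ht2 : t⁻¹ = t ^ 2 := by
    have h : t ^ 2 * t = 1 := by rw [← pow_succ]; exact ht
    exact (eq_inv_of_mul_eq_one_left h).symm
  have hsi : ∀ i : ℕ, a * s ^ i * a⁻¹ = s ^ (2 * i) := by
    intro i; rw [← conj_pow, has, hs2, ← pow_mul]
  have hti : ∀ i : ℕ, a * t ^ i * a⁻¹ = t ^ (2 * i) := by
    intro i; rw [← conj_pow, hat, ht2, ← pow_mul]
  have h1 : a * PN8 a s t x.val y.val * a⁻¹ = PN8 a s t (2 * x.val) (2 * y.val) := by
    unfold PN8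
    rw [← hsi, ← hti]
    group
  have h2 := PN_mod8 (a := a) hs ht (2 * x.val) (2 * y.val)
  have h3 : ∀ z : ZMod 3, 2 * z = -z := by decide
  rw [Nat.cast_mul, Nat.cast_mul, ZMod.natCast_zmod_val, ZMod.natCast_zmod_val, Nat.cast_ofNat,
    h3, h3] at h2
  show a * PN8 a s t x.val y.val * a⁻¹ = _
  rw [h1, h2]

theorem PZ_spow8 {a s t : Γ} (hs : s ^ 3 = 1) (ht : t ^ 3 = 1) (x y : ZMod 3) (n : ℕ) :
    s ^ n * PZ8 a s t x y * (s ^ n)⁻¹ = PZ8 a s t (x + n) y := by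
  induction n with
  | zero => simp
  | succ n ih =>
    have e1 : s ^ (n + 1) * PZ8 a s t x y * (s ^ (n + 1))⁻¹ =
        s * (s ^ n * PZ8 a s t x y * (s ^ n)⁻¹) * s⁻¹ := by
      rw [pow_succ', mul_inv_rev]; simp only [mul_assoc]
    rw [e1, ih, PZ_s8 hs ht, Nat.cast_succ, add_assoc]

theorem PZ_tpow8 {a s t w : Γ} (hs : s ^ 3 = 1) (ht : t ^ 3 = 1) (hts : t * s = s * t * w)
    (hws : w * s = s * w) (hwt : w * t = t * w) (hwa : w * a = a * w) (x y : ZMod 3) (n : ℕ) :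
    t ^ n * PZ8 a s t x y * (t ^ n)⁻¹ = PZ8 a s t x (y + n) := by
  induction n with
  | zero => simp
  | succ n ih =>
    have e1 : t ^ (n + 1) * PZ8 a s t x y * (t ^ (n + 1))⁻¹ =
        t * (t ^ n * PZ8 a s t x y * (t ^ n)⁻¹) * t⁻¹ := by
      rw [pow_succ', mul_inv_rev]; simp only [mul_assoc]
    rw [e1, ih, PZ_t8 hs ht hts hws hwt hwa, Nat.cast_succ, add_assoc]

theorem PZ_eq8 (a s t : Γ) (x y : ZMod 3) :
    PZ8 a s t x y = (s ^ x.val * t ^ y.val) * a * (s ^ x.val * t ^ y.val)⁻¹ := by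
  unfold PZ8 PN8
  rw [mul_inv_rev]; simp only [mul_assoc]

theorem PZ_zero8 (a s t : Γ) : PZ8 a s t 0 0 = a := by
  unfold PZ8 PN8
  simp

theorem PZ_main8 {a s t : Γ} (hs : s ^ 3 = 1) (ht : t ^ 3 = 1) (hst : (s * t) ^ 3 = 1)
    (hst' : (s⁻¹ * t) ^ 3 = 1) (has : a * s * a⁻¹ = s⁻¹) (hat : a * t * a⁻¹ = t⁻¹)
    (x y k l : ZMod 3) :
    PZ8 a s t x y * PZ8 a s t k l * (PZ8 a s t x y)⁻¹ = PZ8 a s t (-x - k) (-y - l) := by
  obtain ⟨w, hts, hws, hwt, hwa⟩ := heis_central8 hs ht hst hst' has hat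
  obtain ⟨U, hU⟩ : ∃ U, U = s ^ x.val * t ^ y.val := ⟨_, rfl⟩
  have hconjU : ∀ k' l' : ZMod 3, U * PZ8 a s t k' l' * U⁻¹ = PZ8 a s t (k' + x) (l' + y) := by
    intro k' l'
    have e1 : U * PZ8 a s t k' l' * U⁻¹ =
        s ^ x.val * (t ^ y.val * PZ8 a s t k' l' * (t ^ y.val)⁻¹) * (s ^ x.val)⁻¹ := by
      rw [hU, mul_inv_rev]; simp only [mul_assoc]
    rw [e1, PZ_tpow8 hs ht hts hws hwt hwa, PZ_spow8 hs ht, ZMod.natCast_zmod_val,
      ZMod.natCast_zmod_val]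
  have hP : PZ8 a s t x y = U * a * U⁻¹ := by rw [hU]; exact PZ_eq8 a s t x y
  have h1 : U⁻¹ * PZ8 a s t k l * U = PZ8 a s t (k - x) (l - y) := by
    have h := hconjU (k - x) (l - y)
    rw [sub_add_cancel, sub_add_cancel] at h
    rw [← h]; group
  have hz : ∀ x k : ZMod 3, -(k - x) + x = -x - k := by decide
  calc PZ8 a s t x y * PZ8 a s t k l * (PZ8 a s t x y)⁻¹
      = U * (a * (U⁻¹ * PZ8 a s t k l * U) * a⁻¹) * U⁻¹ := by rw [hP]; group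
    _ = U * (a * PZ8 a s t (k - x) (l - y) * a⁻¹) * U⁻¹ := by rw [h1]
    _ = U * PZ8 a s t (-(k - x)) (-(l - y)) * U⁻¹ := by rw [PZ_a8 hs ht has hat]
    _ = PZ8 a s t (-(k - x) + x) (-(l - y) + y) := hconjU _ _
    _ = PZ8 a s t (-x - k) (-y - l) := by rw [hz, hz]

theorem PZ_eq_a8 {a s t : Γ} (hs : s ^ 3 = 1) (ht : t ^ 3 = 1) (has : a * s * a⁻¹ = s⁻¹)
    (hat : a * t * a⁻¹ = t⁻¹) (h1 : s ≠ 1) (h2 : t ≠ 1) (h3 : t ≠ s) (h4 : t ≠ s⁻¹)
    {x y : ZMod 3} (h : PZ8 a s t x y = a) : x = 0 ∧ y = 0 := by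
  obtain ⟨S, hS⟩ : ∃ S, S = s ^ x.val := ⟨_, rfl⟩
  obtain ⟨T, hT⟩ : ∃ T, T = t ^ y.val := ⟨_, rfl⟩
  have h' : S * T * a * (S * T)⁻¹ = a := by rw [hS, hT, ← PZ_eq8]; exact h
  have hK : a * (S * T) * a⁻¹ = S * T := by
    calc a * (S * T) * a⁻¹ = (S * T * a * (S * T)⁻¹) * (S * T) * a⁻¹ := by rw [h']
      _ = S * T := by group
  have hK2 : a * (S * T) * a⁻¹ = S⁻¹ * T⁻¹ := by
    calc a * (S * T) * a⁻¹ = (a * S * a⁻¹) * (a * T * a⁻¹) := by group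
      _ = S⁻¹ * T⁻¹ := by rw [hS, hT, ← conj_pow, ← conj_pow, has, hat, inv_pow, inv_pow]
  rw [hK2] at hK
  have hSST : S * S * (T * T) = 1 := by
    calc S * S * (T * T) = S * (S * T) * T := by group
      _ = S * (S⁻¹ * T⁻¹) * T := by rw [← hK]
      _ = 1 := by group
  have hss : s * s = s⁻¹ := by
    have h : s * s * s = 1 := by rw [← hs]; simp only [pow_succ, pow_zero, one_mul]
    exact eq_inv_of_mul_eq_one_left h
  have htt : t * t = t⁻¹ := by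
    have h : t * t * t = 1 := by rw [← ht]; simp only [pow_succ, pow_zero, one_mul]
    exact eq_inv_of_mul_eq_one_left h
  have hs4 : s ^ 2 * s ^ 2 = s := by
    calc s ^ 2 * s ^ 2 = s ^ 3 * s := by simp only [pow_succ, pow_zero, one_mul, mul_assoc]
      _ = s := by rw [hs, one_mul]
  have ht4 : t ^ 2 * t ^ 2 = t := by
    calc t ^ 2 * t ^ 2 = t ^ 3 * t := by simp only [pow_succ, pow_zero, one_mul, mul_assoc]
      _ = t := by rw [ht, one_mul]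
  have v0 : (0 : ZMod 3).val = 0 := rfl
  have v1 : (1 : ZMod 3).val = 1 := rfl
  have v2 : (2 : ZMod 3).val = 2 := rfl
  rcases zmod3_cases8 x with hx | hx | hx <;> rcases zmod3_cases8 y with hy | hy | hy
  · exact ⟨hx, hy⟩
  · exfalso
    rw [hS, hT, hx, hy, v0, v1, pow_zero, pow_one, one_mul, one_mul, htt] at hSST
    exact h2 (inv_eq_one.mp hSST)
  · exfalso
    rw [hS, hT, hx, hy, v0, v2, pow_zero, one_mul, one_mul, ht4] at hSST
    exact h2 hSST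
  · exfalso
    rw [hS, hT, hx, hy, v0, v1, pow_zero, pow_one, mul_one, mul_one, hss] at hSST
    exact h1 (inv_eq_one.mp hSST)
  · exfalso
    rw [hS, hT, hx, hy, v1, pow_one, pow_one, hss, htt] at hSST
    -- s⁻¹ * t⁻¹ = 1
    apply h4
    have h5 : s⁻¹ = t⁻¹⁻¹ := eq_inv_of_mul_eq_one_left hSST
    rw [inv_inv] at h5
    exact h5.symm
  · exfalso
    rw [hS, hT, hx, hy, v1, v2, pow_one, hss, ht4] at hSST
    -- s⁻¹ * t = 1
    exact h3 (inv_mul_eq_one.mp hSST).symm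
  · exfalso
    rw [hS, hT, hx, hy, v0, v2, pow_zero, mul_one, mul_one, hs4] at hSST
    exact h1 hSST
  · exfalso
    rw [hS, hT, hx, hy, v1, v2, pow_one, hs4, htt] at hSST
    -- s * t⁻¹ = 1
    exact h3 (mul_inv_eq_one.mp hSST).symm
  · exfalso
    rw [hS, hT, hx, hy, v2, hs4, ht4] at hSST
    -- s * t = 1
    apply h4
    have h5 : s = t⁻¹ := eq_inv_of_mul_eq_one_left hSST
    rw [h5, inv_inv]

end heis

end Cfsg.Agent.Lib.Helper8
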