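import Mathlib
import Cfsg.Prelude.Def_FischerSpaces
import Cfsg.Agent.Lib.Helper8.Fischer3
import Cfsg.Agent.Lib.Helper8.Fischer4

set_option autoImplicit false

namespace Cfsg.Agent.Lib.Helper8

open Cfsg Cfsg.LineSystem

theorem tt_conj1_8 {G : Type*} [Group G] {d e : G} (hdd : d * d = 1) (hee : e * e = 1)
    (hbr : d * e * d = e * d * e) : (d * e) * d * (d * e)⁻¹ = e := by
  have hdi : d⁻¹ = d := inv_eq_of_mul_eq_one_right hdd
  have hei : e⁻¹ = e := inv_eq_of_mul_eq_one_right hee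
  calc (d * e) * d * (d * e)⁻¹ = (d * e * d) * e * d := by
        rw [mul_inv_rev, hdi, hei]; simp only [mul_assoc]
    _ = (e * d * e) * e * d := by rw [hbr]
    _ = e * d * (e * e) * d := by simp only [mul_assoc]
    _ = e * (d * d) := by rw [hee, mul_one]; simp only [mul_assoc]
    _ = e := by rw [hdd, mul_one]

theorem tt_conj2_8 {G : Type*} [Group G] {d e : G} (hdd : d * d = 1) (hee : e * e = 1)
    (hbr : d * e * d = e * d * e) : (d * e) ^ 2 * d * ((d * e) ^ 2)⁻¹ = e * d * e⁻¹ := by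
  have hdi : d⁻¹ = d := inv_eq_of_mul_eq_one_right hdd
  have hei : e⁻¹ = e := inv_eq_of_mul_eq_one_right hee
  have h1 := tt_conj1_8 hdd hee hbr
  calc (d * e) ^ 2 * d * ((d * e) ^ 2)⁻¹
      = (d * e) * ((d * e) * d * (d * e)⁻¹) * (d * e)⁻¹ := by
        rw [pow_two, mul_inv_rev]; simp only [mul_assoc]
    _ = (d * e) * e * (d * e)⁻¹ := by rw [h1]
    _ = d * (e * e) * e * d := by rw [mul_inv_rev, hdi, hei]; simp only [mul_assoc]
    _ = d * e * d := by rw [hee, mul_one]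
    _ = e * d * e⁻¹ := by rw [hbr, hei]

theorem fischer_caseII8 {G : Type*} [Group G] {D : Set G} (hD : IsThreeTranspositionSet D)
    (hconj : ∀ g : G, ∀ d ∈ D, g * d * g⁻¹ ∈ D) {l m : Set D}
    (hl : l ∈ threeTranspositionLines D) (hm : m ∈ threeTranspositionLines D) (hne : l ≠ m)
    {o b c : D} (hol : o ∈ l) (hom : o ∈ m) (hbl : b ∈ l) (hcm : c ∈ m) (hbo : b ≠ o)
    (hco : c ≠ o)
    (hII : ∀ b' ∈ l, ∀ c' ∈ m, b' ≠ o → c' ≠ o → ¬ Commute (b' : G) (c' : G)) :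
    Isomorphic (restrict (threeTranspositionLines D) (span (threeTranspositionLines D) (l ∪ m)))
      affinePlaneThree := by
  obtain ⟨hnob, hleq⟩ := tt_two_point8 hD hconj hl hol hbl (Ne.symm hbo)
  obtain ⟨hnoc, hmeq⟩ := tt_two_point8 hD hconj hm hom hcm (Ne.symm hco)
  have hmemL : ∀ z : D, z ∈ l ↔ ((z : G) = o ∨ (z : G) = b ∨ (z : G) = (b : G) * o * (b : G)⁻¹) := by
    intro z; rw [hleq]; exact Iff.rfl
  have hmemM : ∀ z : D, z ∈ m ↔ ((z : G) = o ∨ (z : G) = c ∨ (z : G) = (c : G) * o * (c : G)⁻¹) := by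
    intro z; rw [hmeq]; exact Iff.rfl
  -- abbreviations for the three group elements
  obtain ⟨ga, hga⟩ : ∃ ga : G, ga = (o : G) := ⟨_, rfl⟩
  obtain ⟨gb, hgb⟩ : ∃ gb : G, gb = (b : G) := ⟨_, rfl⟩
  obtain ⟨gc, hgc⟩ : ∃ gc : G, gc = (c : G) := ⟨_, rfl⟩
  rw [← hga, ← hgb] at hnob
  rw [← hga, ← hgc] at hnoc
  simp only [← hga, ← hgb, ← hgc] at hmemL hmemM
  have haD : ga ∈ D := by rw [hga]; exact o.2
  have hbD : gb ∈ D := by rw [hgb]; exact b.2
  have hcD : gc ∈ D := by rw [hgc]; exact c.2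
  have haa := tt_sq8 hD haD
  have hbb := tt_sq8 hD hbD
  have hcc := tt_sq8 hD hcD
  have hai := tt_inv8 hD haD
  have hbi := tt_inv8 hD hbD
  have hci := tt_inv8 hD hcD
  have hbrb := tt_braid8 hD haD hbD hnob
  have hbrc := tt_braid8 hD haD hcD hnoc
  -- the third point of l
  have hb'D : gb * ga * gb⁻¹ ∈ D := hconj _ _ haD
  have hb'l : (⟨gb * ga * gb⁻¹, hb'D⟩ : D) ∈ l := by rw [hmemL]; right; right; rfl
  have hb'o : (⟨gb * ga * gb⁻¹, hb'D⟩ : D) ≠ o := by
    intro h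
    have h' : gb * ga * gb⁻¹ = (o : G) := congrArg Subtype.val h
    rw [← hga] at h'
    apply hnob
    exact (mul_inv_eq_iff_eq_mul.mp h').symm
  have hcl : c ∉ l := fun h =>
    hne (tt_partialLinear8 hD hconj l hl m hm o c (Ne.symm hco) hol h hom hcm)
  have hcb : gc ≠ gb := by
    intro h; apply hcl; rw [hmemL]; right; left; rw [← hgc]; exact h
  have hcb' : gc ≠ gb * ga * gb⁻¹ := by
    intro h; apply hcl; rw [hmemL]; right; right; rw [← hgc]; exact h
  have hbc_nc : ¬ Commute gb gc := by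
    rw [hgb, hgc]; exact hII b hbl c hcm hbo hco
  have hb'c_nc : ¬ Commute (gb * ga * gb⁻¹) gc := by
    rw [hgc]; exact hII ⟨_, hb'D⟩ hb'l c hcm hb'o hco
  obtain ⟨s, hs⟩ : ∃ s, s = ga * gb := ⟨_, rfl⟩
  obtain ⟨t, ht⟩ : ∃ t, t = ga * gc := ⟨_, rfl⟩
  have hs3 : s ^ 3 = 1 := by rw [hs]; exact tt_cube8 hD haD hbD hnob
  have ht3 : t ^ 3 = 1 := by rw [ht]; exact tt_cube8 hD haD hcD hnoc
  have hst : (s * t) ^ 3 = 1 := by
    have e : s * t = (gb * ga * gb⁻¹) * gc := by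
      rw [hs, ht]
      calc ga * gb * (ga * gc) = (ga * gb * ga) * gc := by simp only [mul_assoc]
        _ = (gb * ga * gb) * gc := by rw [hbrb]
        _ = (gb * ga * gb⁻¹) * gc := by rw [hbi]
    rw [e]; exact tt_cube8 hD hb'D hcD hb'c_nc
  have hst' : (s⁻¹ * t) ^ 3 = 1 := by
    have e : s⁻¹ * t = gb * gc := by
      rw [hs, ht, mul_inv_rev, hbi]
      group
    rw [e]; exact tt_cube8 hD hbD hcD hbc_nc
  have has : ga * s * ga⁻¹ = s⁻¹ := by
    rw [hs]
    calc ga * (ga * gb) * ga⁻¹ = (ga * ga) * gb * ga⁻¹ := by simp only [mul_assoc]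
      _ = gb * ga⁻¹ := by rw [haa, one_mul]
      _ = (ga * gb)⁻¹ := by rw [mul_inv_rev, hbi]
  have hat : ga * t * ga⁻¹ = t⁻¹ := by
    rw [ht]
    calc ga * (ga * gc) * ga⁻¹ = (ga * ga) * gc * ga⁻¹ := by simp only [mul_assoc]
      _ = gc * ga⁻¹ := by rw [haa, one_mul]
      _ = (ga * gc)⁻¹ := by rw [mul_inv_rev, hci]
  have hs1 : s ≠ 1 := by
    intro h
    rw [hs] at h
    apply hnob
    have h5 : ga = gb⁻¹ := eq_inv_of_mul_eq_one_left h
    rw [h5, hbi]
  have ht1 : t ≠ 1 := by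
    intro h
    rw [ht] at h
    apply hnoc
    have h5 : ga = gc⁻¹ := eq_inv_of_mul_eq_one_left h
    rw [h5, hci]
  have hts : t ≠ s := by
    intro h
    rw [hs, ht] at h
    exact hcb (mul_left_cancel h)
  have hts' : t ≠ s⁻¹ := by
    intro h
    rw [hs, ht, mul_inv_rev, hbi, hai] at h
    -- ga * gc = gb * ga
    apply hcb'
    calc gc = (ga * ga) * gc := by rw [haa, one_mul]
      _ = ga * (ga * gc) := by simp only [mul_assoc]
      _ = ga * (gb * ga) := by rw [h]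
      _ = ga * gb * ga := by simp only [mul_assoc]
      _ = gb * ga * gb := hbrb
      _ = gb * ga * gb⁻¹ := by rw [hbi]
  -- the nine points
  have v0 : (0 : ZMod 3).val = 0 := rfl
  have v1 : (1 : ZMod 3).val = 1 := rfl
  have v2 : (2 : ZMod 3).val = 2 := rfl
  have p00 : PZ8 ga s t 0 0 = ga := PZ_zero8 ga s t
  have p10 : PZ8 ga s t 1 0 = gb := by
    have e : PZ8 ga s t 1 0 = s * ga * s⁻¹ := by
      unfold PZ8 PN8; rw [v0, v1]; simp
    rw [e, hs]; exact tt_conj1_8 haa hbb hbrb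
  have p20 : PZ8 ga s t 2 0 = gb * ga * gb⁻¹ := by
    have e : PZ8 ga s t 2 0 = s ^ 2 * ga * (s ^ 2)⁻¹ := by
      unfold PZ8 PN8; rw [v0, v2]; simp
    rw [e, hs]; exact tt_conj2_8 haa hbb hbrb
  have p01 : PZ8 ga s t 0 1 = gc := by
    have e : PZ8 ga s t 0 1 = t * ga * t⁻¹ := by
      unfold PZ8 PN8; rw [v0, v1]; simp
    rw [e, ht]; exact tt_conj1_8 haa hcc hbrc
  have p02 : PZ8 ga s t 0 2 = gc * ga * gc⁻¹ := by
    have e : PZ8 ga s t 0 2 = t ^ 2 * ga * (t ^ 2)⁻¹ := by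
      unfold PZ8 PN8; rw [v0, v2]; simp
    rw [e, ht]; exact tt_conj2_8 haa hcc hbrc
  have hmain := PZ_main8 hs3 ht3 hst hst' has hat
  have hPD : ∀ x y : ZMod 3, PZ8 ga s t x y ∈ D := by
    intro x y; rw [PZ_eq8]; exact hconj _ _ haD
  have hinjP : ∀ x y k l' : ZMod 3, PZ8 ga s t x y = PZ8 ga s t k l' → x = k ∧ y = l' := by
    intro x y k l' h
    have h1 := hmain (-k) (-l') x y
    have h2 := hmain (-k) (-l') k l'
    rw [h] at h1
    have h3 : PZ8 ga s t (- -k - x) (- -l' - y) = PZ8 ga s t (- -k - k) (- -l' - l') :=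
      h1.symm.trans h2
    simp only [neg_neg, sub_self] at h3
    rw [p00] at h3
    obtain ⟨e1, e2⟩ := PZ_eq_a8 hs3 ht3 has hat hs1 ht1 hts hts' h3
    exact ⟨(sub_eq_zero.mp e1).symm, (sub_eq_zero.mp e2).symm⟩
  have hz1 : ∀ x k : ZMod 3, k = -x - k → x = k := by decide
  have hncP : ∀ x y k l' : ZMod 3, Commute (PZ8 ga s t x y) (PZ8 ga s t k l') → x = k ∧ y = l' := by
    intro x y k l' hc
    have h1 := hmain x y k l'
    have h2 : PZ8 ga s t x y * PZ8 ga s t k l' * (PZ8 ga s t x y)⁻¹ = PZ8 ga s t k l' := by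
      rw [hc.eq, mul_inv_cancel_right]
    rw [h2] at h1
    obtain ⟨e1, e2⟩ := hinjP _ _ _ _ h1
    exact ⟨hz1 _ _ e1, hz1 _ _ e2⟩
  obtain ⟨g, hg⟩ : ∃ g : (Fin 2 → ZMod 3) → G, ∀ v, g v = PZ8 ga s t (v 0) (v 1) :=
    ⟨_, fun _ => rfl⟩
  have g1 : ∀ v, g v ∈ D := by intro v; rw [hg]; exact hPD _ _
  have hlpt : ∀ (x : ZMod 3) (h : PZ8 ga s t x 0 ∈ D), (⟨PZ8 ga s t x 0, h⟩ : D) ∈ l := by
    intro x h
    rw [hmemL]
    rcases zmod3_cases8 x with hx | hx | hx
    · left; show PZ8 ga s t x 0 = ga; rw [hx, p00]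
    · right; left; show PZ8 ga s t x 0 = gb; rw [hx, p10]
    · right; right; show PZ8 ga s t x 0 = gb * ga * gb⁻¹; rw [hx, p20]
  have hmpt : ∀ (y : ZMod 3) (h : PZ8 ga s t 0 y ∈ D), (⟨PZ8 ga s t 0 y, h⟩ : D) ∈ m := by
    intro y h
    rw [hmemM]
    rcases zmod3_cases8 y with hy | hy | hy
    · left; show PZ8 ga s t 0 y = ga; rw [hy, p00]
    · right; left; show PZ8 ga s t 0 y = gc; rw [hy, p01]
    · right; right; show PZ8 ga s t 0 y = gc * ga * gc⁻¹; rw [hy, p02]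
  have key3 : ∀ p q : ZMod 3, -q - p = p + 2 * (q - p) := by decide
  apply fischer_iso8 hD hconj affinePlaneThree g (l ∪ m) g1
  · -- injectivity
    intro v v' h
    rw [hg, hg] at h
    obtain ⟨e1, e2⟩ := hinjP _ _ _ _ h
    funext i
    fin_cases i
    · exact e1
    · exact e2
  · -- the two lines consist of points of the plane
    intro z hz
    rcases hz with hz | hz
    · rcases (hmemL z).mp hz with h | h | h
      · exact ⟨![0, 0], by rw [hg, h]; exact p00⟩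
      · exact ⟨![1, 0], by rw [hg, h]; exact p10⟩
      · exact ⟨![2, 0], by rw [hg, h]; exact p20⟩
    · rcases (hmemM z).mp hz with h | h | h
      · exact ⟨![0, 0], by rw [hg, h]; exact p00⟩
      · exact ⟨![0, 1], by rw [hg, h]; exact p01⟩
      · exact ⟨![0, 2], by rw [hg, h]; exact p02⟩
  · -- generation
    intro T hT hAT v
    by_cases hy : v 1 = 0
    · have h5 : (⟨g v, g1 v⟩ : D) = ⟨PZ8 ga s t (v 0) 0, hPD _ _⟩ :=
        Subtype.ext (by show g v = PZ8 ga s t (v 0) 0; rw [hg, hy])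
      rw [h5]; exact hAT (Or.inl (hlpt _ _))
    · by_cases hx : v 0 = 0
      · have h5 : (⟨g v, g1 v⟩ : D) = ⟨PZ8 ga s t 0 (v 1), hPD _ _⟩ :=
          Subtype.ext (by show g v = PZ8 ga s t 0 (v 1); rw [hg, hx])
        rw [h5]; exact hAT (Or.inr (hmpt _ _))
      · have hp1T : (⟨PZ8 ga s t (-(v 0)) 0, hPD _ _⟩ : D) ∈ T := hAT (Or.inl (hlpt _ _))
        have hp2T : (⟨PZ8 ga s t 0 (-(v 1)), hPD _ _⟩ : D) ∈ T := hAT (Or.inr (hmpt _ _))
        have hnc : ¬ Commute (PZ8 ga s t (-(v 0)) 0) (PZ8 ga s t 0 (-(v 1))) := by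
          intro hc
          obtain ⟨e1, -⟩ := hncP _ _ _ _ hc
          exact hx (neg_eq_zero.mp e1)
        have hne' : (⟨PZ8 ga s t (-(v 0)) 0, hPD _ _⟩ : D) ≠ ⟨PZ8 ga s t 0 (-(v 1)), hPD _ _⟩ := by
          intro h6
          apply hnc
          have h7 : PZ8 ga s t (-(v 0)) 0 = PZ8 ga s t 0 (-(v 1)) := congrArg Subtype.val h6
          rw [h7]
        have hl₀ : {z : D | (z : G) = PZ8 ga s t (-(v 0)) 0 ∨ (z : G) = PZ8 ga s t 0 (-(v 1)) ∨
            (z : G) = PZ8 ga s t 0 (-(v 1)) * PZ8 ga s t (-(v 0)) 0 * (PZ8 ga s t 0 (-(v 1)))⁻¹} ∈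
            threeTranspositionLines D :=
          ⟨⟨_, hPD _ _⟩, ⟨_, hPD _ _⟩, hnc, rfl⟩
        have hsub := hT _ hl₀ ⟨_, hPD _ _⟩ hp1T ⟨_, hPD _ _⟩ hp2T hne'
          (Or.inl rfl) (Or.inr (Or.inl rfl))
        apply hsub
        right; right
        show g v = PZ8 ga s t 0 (-(v 1)) * PZ8 ga s t (-(v 0)) 0 * (PZ8 ga s t 0 (-(v 1)))⁻¹
        rw [hmain, hg]
        simp only [neg_zero, zero_sub, neg_neg, sub_zero]
  · -- model lines are lines
    rintro n ⟨v₀, w, hw, rfl⟩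
    refine ⟨v₀, v₀ + w, -(v₀ + w) - v₀, ?_, ?_, ?_⟩
    · ext u
      simp only [Set.mem_setOf_eq, Set.mem_insert_iff, Set.mem_singleton_iff]
      have e2 : v₀ + (2 : ZMod 3) • w = -(v₀ + w) - v₀ := by
        funext i
        simp only [Pi.add_apply, Pi.sub_apply, Pi.neg_apply, Pi.smul_apply, smul_eq_mul]
        have k : ∀ p q : ZMod 3, p + 2 * q = -(p + q) - p := by decide
        exact k _ _
      constructor
      · rintro ⟨c', hc'⟩
        rcases zmod3_cases8 c' with h | h | h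
        · left; rw [hc', h]; simp
        · right; left; rw [hc', h]; simp
        · right; right; rw [hc', h]; exact e2
      · rintro (h | h | h)
        · exact ⟨0, by rw [h]; simp⟩
        · exact ⟨1, by rw [h]; simp⟩
        · exact ⟨2, by rw [h]; exact e2.symm⟩
    · rw [hg, hg]
      intro hc
      obtain ⟨e1, e2⟩ := hncP _ _ _ _ hc
      apply hw
      funext i
      fin_cases i
      · have : v₀ 0 = v₀ 0 + w 0 := e1
        exact left_eq_add.mp this
      · have : v₀ 1 = v₀ 1 + w 1 := e2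
        exact left_eq_add.mp this
    · rw [hg, hg, hg, hmain]
      rfl
  · -- lines are model lines
    intro y₁ y₂ hnc
    have hne' : y₂ - y₁ ≠ 0 := by
      intro h
      apply hnc
      rw [sub_eq_zero.mp h]
    refine ⟨-y₂ - y₁, ?_, ⟨y₁, y₂ - y₁, hne', ?_⟩⟩
    · rw [hg, hg, hg, hmain]
      rfl
    · ext u
      simp only [Set.mem_setOf_eq, Set.mem_insert_iff, Set.mem_singleton_iff]
      have e2 : -y₂ - y₁ = y₁ + (2 : ZMod 3) • (y₂ - y₁) := by
        funext i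
        simp only [Pi.add_apply, Pi.sub_apply, Pi.neg_apply, Pi.smul_apply, smul_eq_mul]
        exact key3 _ _
      constructor
      · rintro (h | h | h)
        · exact ⟨0, by rw [h]; simp⟩
        · exact ⟨1, by rw [h]; simp⟩
        · exact ⟨2, by rw [h]; exact e2⟩
      · rintro ⟨c', hc'⟩
        rcases zmod3_cases8 c' with h | h | h
        · left; rw [hc', h]; simp
        · right; left; rw [hc', h]; simp
        · right; right; rw [hc', h]; exact e2.symm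

theorem fischer_tt8 {G : Type*} [Group G] {D : Set G} (hD : IsThreeTranspositionGroup D) :
    IsFischerSpace (threeTranspositionLines D) := by
  obtain ⟨hD3, hconj, -⟩ := hD
  refine ⟨tt_partialLinear8 hD3 hconj, fun l hl => tt_ncard8 hD3 hconj hl, ?_⟩
  rintro l hl m hm hne ⟨o, hol, hom⟩
  have hex : ∀ l' ∈ threeTranspositionLines D, o ∈ l' → ∃ b ∈ l', b ≠ o := by
    intro l' hl' _
    by_contra hcon
    push_neg at hcon
    have hsub : l' ⊆ {o} := fun w hw => hcon w hw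
    have h5 := Set.ncard_le_ncard hsub (Set.finite_singleton o)
    rw [tt_ncard8 hD3 hconj hl', Set.ncard_singleton] at h5
    omega
  obtain ⟨b, hbl, hbo⟩ := hex l hl hol
  obtain ⟨c, hcm, hco⟩ := hex m hm hom
  by_cases hI : ∃ b' ∈ l, ∃ c' ∈ m, b' ≠ o ∧ c' ≠ o ∧ Commute (b' : G) (c' : G)
  · obtain ⟨b', hb'l, c', hc'm, hb'o, hc'o, hcomm⟩ := hI
    left
    exact fischer_caseI8 hD3 hconj hl hm hne hol hom hb'l hc'm hb'o hc'o hcomm
  · right
    apply fischer_caseII8 hD3 hconj hl hm hne hol hom hbl hcm hbo hco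
    intro b' hb' c' hc' hb'o hc'o hcomm
    exact hI ⟨b', hb', c', hc', hb'o, hc'o, hcomm⟩

end Cfsg.Agent.Lib.Helper8
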