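import Mathlib
import Cfsg.Prelude.Def_FusionSystem
import Cfsg.Prelude.Def_TwoFusion
import Cfsg.Agent.Lib.Helper8.GroupFusion3
import Cfsg.Agent.Lib.Helper8.FusionChain2
import Cfsg.Agent.Lib.Helper8.FusionRS

set_option autoImplicit false

namespace Cfsg.Agent.Lib.Helper8

open Cfsg Cfsg.FusionSystem

variable {G : Type*} [Group G]

/-- the chain `1 ≤ Z ≤ S ≤ S ≤ ...` -/
def chain3 (Z S : Subgroup G) : ℕ → Subgroup G
  | 0 => ⊥
  | 1 => Z
  | (_ + 2) => S

/-- if `S` is normal in the fusion system of `G` on `S`, then `N_G(S)` controls fusion in `S` -/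
theorem gfs_control_of_normal {S : Subgroup G} [Finite S]
    (hn : (groupFusionSystem S).IsNormal S) (P : Subgroup G) (φ : P →* G)
    (hφ : φ ∈ (groupFusionSystem S).Hom P) :
    ∃ g ∈ Subgroup.normalizer (S : Set G), ∀ x : P, φ x = g * (x : G) * g⁻¹ := by
  obtain ⟨ψ, hψ, hag, hmap⟩ := hn.2 P φ hφ
  obtain ⟨-, -, g, hg⟩ := hψ
  have h1 := ((map_subgroupOf_sup_eq_iff ψ).1 hmap).1
  refine ⟨g, mem_normalizer_of_conj_mem_finite (fun y hy => ?_), fun x => ?_⟩
  · have h2 := h1 ⟨y, hy⟩
    rw [hg] at h2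
    exact h2
  · rw [← hag x, hg]
    rfl

theorem gfs_core_eq_of_normal {S : Subgroup G}
    (hn : (groupFusionSystem S).IsNormal S) : (groupFusionSystem S).core = S := by
  apply le_antisymm
  · exact sSup_le (fun Q hQ => hQ.1)
  · exact le_sSup hn

/-- class at most two with strongly closed centre: the Sylow subgroup is normal in the fusion system -/
theorem gfs_normal_of_class_two [Finite G] (p : ℕ) [Fact p.Prime] (S : Sylow p G)
    (hcl : ⁅(S : Subgroup G), (S : Subgroup G)⁆ ≤
      (S : Subgroup G) ⊓ Subgroup.centralizer ((S : Subgroup G) : Set G))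
    (hZ : IsStronglyClosed ((S : Subgroup G) ⊓ Subgroup.centralizer ((S : Subgroup G) : Set G))
      (S : Subgroup G)) :
    (groupFusionSystem (S : Subgroup G)).IsNormal S := by
  have hsat := gfs_saturated p S
  have hS : IsPGroup p (S : Subgroup G) := S.isPGroup'
  have hZsc : (groupFusionSystem (S : Subgroup G)).StronglyClosed
      ((S : Subgroup G) ⊓ Subgroup.centralizer ((S : Subgroup G) : Set G)) := by
    refine ⟨inf_le_left, fun R hR φ hφ x => ?_⟩
    obtain ⟨-, hval, g, hg⟩ := hφ
    have h1 := hval x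
    rw [hg] at h1 ⊢
    exact hZ.2 _ (hR x.2) g h1
  have hSsc : (groupFusionSystem (S : Subgroup G)).StronglyClosed (S : Subgroup G) :=
    ⟨le_rfl, fun R _ φ hφ x => fs_map_mem _ hφ x⟩
  refine fs_normal_of_chain (groupFusionSystem (S : Subgroup G)) p hS hsat
    (chain3 ((S : Subgroup G) ⊓ Subgroup.centralizer ((S : Subgroup G) : Set G)) (S : Subgroup G))
    rfl ?_ ?_ ?_ 2 rfl ?_
  · intro j
    match j with
    | 0 => exact bot_le
    | 1 => exact inf_le_left
    | (j + 2) => exact le_rfl
  · intro j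
    match j with
    | 0 => exact ⟨bot_le, fun R hR φ hφ x => by
        have hx : (x : G) = 1 := (Subgroup.mem_bot.1 (hR x.2))
        have hx' : x = 1 := Subtype.ext hx
        rw [hx', map_one]
        exact Subgroup.one_mem _⟩
    | 1 => exact hZsc
    | (j + 2) => exact hSsc
  · intro j
    match j with
    | 0 => exact bot_le
    | 1 => exact inf_le_left
    | (j + 2) => exact le_rfl
  · intro j
    match j with
    | 0 =>
      show ⁅(S : Subgroup G), (S : Subgroup G) ⊓ Subgroup.centralizer ((S : Subgroup G) : Set G)⁆ ≤ ⊥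
      rw [Subgroup.commutator_le]
      intro a ha b hb
      rw [Subgroup.mem_bot, commutatorElement_def]
      have h1 := (Subgroup.mem_centralizer_iff.1 (Subgroup.mem_inf.1 hb).2) a ha
      calc a * b * a⁻¹ * b⁻¹ = (a * b) * a⁻¹ * b⁻¹ := by group
        _ = (b * a) * a⁻¹ * b⁻¹ := by rw [h1]
        _ = 1 := by group
    | 1 => exact hcl
    | (j + 2) => exact commutator_self_le _

end Cfsg.Agent.Lib.Helper8
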