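import Mathlib
import Cfsg.Prelude.Def_FusionSystem
import Cfsg.Agent.Lib.Helper8.FusionHyp
import Cfsg.Agent.Lib.Helper8.FusionHypFactor
import Cfsg.Agent.Lib.Helper8.GroupFusionNormal
import Cfsg.Agent.Lib.Helper3.CtrlTransfer

set_option autoImplicit false

namespace Cfsg.Agent.Lib.Helper8

open Cfsg Cfsg.FusionSystem

variable {G : Type*} [Group G]

theorem aut_pow_conj8 {P : Subgroup G} (α : MulAut P) (g : G)
    (hg : ∀ x : P, ((α x : P) : G) = g * (x : G) * g⁻¹) (n : ℕ) :
    ∀ x : P, (((α ^ n) x : P) : G) = g ^ n * (x : G) * (g ^ n)⁻¹ := by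
  induction n with
  | zero =>
    intro x
    simp
  | succ n ih =>
    intro x
    rw [pow_succ, MulAut.mul_apply, ih, hg, pow_succ]
    group

/-- `hyp(F_S(G)) ≤ S ∩ O^p(G)` -/
theorem gfs_hyperfocal_le8 [Finite G] (p : ℕ) [Fact p.Prime] (S : Subgroup G) :
    (groupFusionSystem S).hyperfocalSubgroup p ≤ S ⊓ pResidual p G := by
  have hN : (pResidual p G).Normal := pResidual_normal8 p
  refine le_inf (hyperfocal_le _ p) ?_
  unfold FusionSystem.hyperfocalSubgroup
  rw [Subgroup.closure_le]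
  rintro _ ⟨P, α, x, hPS, hα, rfl⟩
  refine pResidual_induction8 p ((groupFusionSystem S).autGroup P) (pResidual p G)
    (fun α hcop x => ?_) α hα x
  have hα2 := (mem_autGroup_iff (groupFusionSystem S) hPS (α : MulAut P)).1 α.2
  obtain ⟨-, -, g, hg⟩ := hα2
  have hg' : ∀ x : P, (((α : MulAut P) x : P) : G) = g * (x : G) * g⁻¹ := fun x => hg x
  obtain ⟨k, hk⟩ := exists_pow_mem_pResidual p g
  have hp : p.Prime := Fact.out
  rw [← Subgroup.orderOf_coe] at hcop
  by_cases hm : orderOf (α : MulAut P) = 1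
  · rw [orderOf_eq_one_iff] at hm
    rw [hm]
    simp
  · have hm1 : 1 < orderOf (α : MulAut P) := by
      have := orderOf_pos (α : MulAut P)
      omega
    have hc2 : Nat.Coprime (p ^ k) (orderOf (α : MulAut P)) :=
      (Nat.Coprime.pow_right k hcop).symm
    obtain ⟨j, -, hj⟩ := Nat.exists_mul_mod_eq_one_of_coprime hc2 hm1
    have h1 : (α : MulAut P) ^ (p ^ k * j) = (α : MulAut P) := by
      rw [← pow_mod_orderOf, hj, pow_one]
    have h2 := aut_pow_conj8 (α : MulAut P) g hg' (p ^ k * j) x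
    rw [h1] at h2
    rw [h2]
    have h3 : g ^ (p ^ k * j) ∈ pResidual p G := by
      rw [pow_mul]
      exact Subgroup.pow_mem _ hk j
    have e : (x : G)⁻¹ * (g ^ (p ^ k * j) * (x : G) * (g ^ (p ^ k * j))⁻¹) =
        ((x : G)⁻¹ * g ^ (p ^ k * j) * ((x : G)⁻¹)⁻¹) * (g ^ (p ^ k * j))⁻¹ := by group
    rw [e]
    exact Subgroup.mul_mem _ (hN.conj_mem _ h3 _) (Subgroup.inv_mem _ h3)

/-- every element of `O^p(G)` has a `p'`-power in the commutator subgroup of `O^p(G)` -/
theorem pResidual_pow_mem_comm8 (p : ℕ) [Fact p.Prime] (n : G) (hn : n ∈ pResidual p G) :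
    ∃ m : ℕ, Nat.Coprime m p ∧ n ^ m ∈ ⁅pResidual p G, pResidual p G⁆ := by
  have hN : (pResidual p G).Normal := pResidual_normal8 p
  have hD : (⁅pResidual p G, pResidual p G⁆).Normal := Subgroup.commutator_normal _ _
  have key : ∀ n ∈ pResidual p G, n ∈ pResidual p G ∧
      ∃ m : ℕ, Nat.Coprime m p ∧ n ^ m ∈ ⁅pResidual p G, pResidual p G⁆ := by
    intro n hn
    unfold pResidual at hn
    induction hn using Subgroup.closure_induction with
    | mem x hx =>
      refine ⟨Subgroup.subset_closure hx, orderOf x, hx, ?_⟩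
      rw [pow_orderOf_eq_one]
      exact one_mem _
    | one =>
      refine ⟨one_mem _, 1, Nat.coprime_one_left p, ?_⟩
      rw [one_pow]
      exact one_mem _
    | mul a b _ _ iha ihb =>
      obtain ⟨haN, ma, hma, ha⟩ := iha
      obtain ⟨hbN, mb, hmb, hb⟩ := ihb
      refine ⟨Subgroup.mul_mem _ haN hbN, ma * mb, Nat.Coprime.mul_left hma hmb, ?_⟩
      rw [← QuotientGroup.eq_one_iff] at ha hb ⊢
      have hcomm : Commute ((a : G) : G ⧸ ⁅pResidual p G, pResidual p G⁆)
          ((b : G) : G ⧸ ⁅pResidual p G, pResidual p G⁆) := by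
        have h1 : a⁻¹ * b⁻¹ * a * b ∈ ⁅pResidual p G, pResidual p G⁆ := by
          have h2 := Subgroup.commutator_mem_commutator (Subgroup.inv_mem _ haN)
            (Subgroup.inv_mem _ hbN)
          rw [commutatorElement_def] at h2
          simpa using h2
        rw [← QuotientGroup.eq_one_iff] at h1
        show ((a : G) : G ⧸ ⁅pResidual p G, pResidual p G⁆) *
            ((b : G) : G ⧸ ⁅pResidual p G, pResidual p G⁆) =
            ((b : G) : G ⧸ ⁅pResidual p G, pResidual p G⁆) *
              ((a : G) : G ⧸ ⁅pResidual p G, pResidual p G⁆)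
        have h3 : ((a⁻¹ * b⁻¹ * a * b : G) : G ⧸ ⁅pResidual p G, pResidual p G⁆) =
            ((a : G) : G ⧸ ⁅pResidual p G, pResidual p G⁆)⁻¹ *
              ((b : G) : G ⧸ ⁅pResidual p G, pResidual p G⁆)⁻¹ *
              ((a : G) : G ⧸ ⁅pResidual p G, pResidual p G⁆) *
              ((b : G) : G ⧸ ⁅pResidual p G, pResidual p G⁆) := rfl
        rw [h3] at h1
        have h4 : ((a : G) : G ⧸ ⁅pResidual p G, pResidual p G⁆) *
            ((b : G) : G ⧸ ⁅pResidual p G, pResidual p G⁆) =
            ((b : G) : G ⧸ ⁅pResidual p G, pResidual p G⁆) *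
              ((a : G) : G ⧸ ⁅pResidual p G, pResidual p G⁆) *
              (((a : G) : G ⧸ ⁅pResidual p G, pResidual p G⁆)⁻¹ *
              ((b : G) : G ⧸ ⁅pResidual p G, pResidual p G⁆)⁻¹ *
              ((a : G) : G ⧸ ⁅pResidual p G, pResidual p G⁆) *
              ((b : G) : G ⧸ ⁅pResidual p G, pResidual p G⁆)) := by group
        rw [h4, h1, mul_one]
      have h5 : ((a * b : G) : G ⧸ ⁅pResidual p G, pResidual p G⁆) ^ (ma * mb) =
          ((a : G) : G ⧸ _) ^ (ma * mb) * ((b : G) : G ⧸ _) ^ (ma * mb) := by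
        rw [QuotientGroup.mk_mul]
        exact hcomm.mul_pow _
      rw [QuotientGroup.mk_pow, h5, pow_mul, ← QuotientGroup.mk_pow, ha, one_pow, mul_comm ma mb,
        pow_mul, ← QuotientGroup.mk_pow, hb, one_pow, one_mul]
    | inv a _ iha =>
      obtain ⟨haN, ma, hma, ha⟩ := iha
      refine ⟨Subgroup.inv_mem _ haN, ma, hma, ?_⟩
      rw [inv_pow]
      exact Subgroup.inv_mem _ ha
  exact (key n hn).2

/-- `p`-elements of `O^p(G)` lie in its commutator subgroup -/
theorem pelt_pResidual_mem_comm8 (p : ℕ) [Fact p.Prime] (t : G) (k : ℕ) (ht : t ^ (p ^ k) = 1)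
    (hn : t ∈ pResidual p G) : t ∈ ⁅pResidual p G, pResidual p G⁆ := by
  have hN : (pResidual p G).Normal := pResidual_normal8 p
  have hD : (⁅pResidual p G, pResidual p G⁆).Normal := Subgroup.commutator_normal _ _
  obtain ⟨m, hm, hmt⟩ := pResidual_pow_mem_comm8 p t hn
  rw [← QuotientGroup.eq_one_iff] at hmt ⊢
  have h1 : ((t : G) : G ⧸ ⁅pResidual p G, pResidual p G⁆) ^ (p ^ k) = 1 := by
    rw [← QuotientGroup.mk_pow, ht]
    rfl
  rw [QuotientGroup.mk_pow] at hmt
  have h2 := pow_gcd_eq_one.2 ⟨hmt, h1⟩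
  have hp : p.Prime := Fact.out
  have h3 : Nat.gcd m (p ^ k) = 1 := Nat.Coprime.pow_right k hm
  rw [h3, pow_one] at h2
  exact h2

/-- a finite `p`-group `T` with `T ≤ H [T,T]`, `H ≤ T` normal in `T`, equals `H` -/
theorem pgroup_le_of_le_sup_comm8 (p : ℕ) [Fact p.Prime] (T H : Subgroup G) [Finite T]
    (hT : IsPGroup p T) (hHT : H ≤ T) (hn : T ≤ Subgroup.normalizer (H : Set G))
    (h : T ≤ H ⊔ ⁅T, T⁆) : T ≤ H := by
  have hnorm : (H.subgroupOf T).Normal := by
    constructor
    intro n hn' g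
    rw [Subgroup.mem_subgroupOf] at hn' ⊢
    have := (Subgroup.mem_normalizer_iff.1 (hn g.2) n.1).1 hn'
    exact this
  have hnil : Group.IsNilpotent T := hT.isNilpotent
  have hsol : Group.IsSolvable T := inferInstance
  have hQsol : Group.IsSolvable (T ⧸ H.subgroupOf T) :=
    Group.isSolvable_of_surjective (QuotientGroup.mk'_surjective (H.subgroupOf T))
  have htop : H.subgroupOf T ⊔ commutator T = ⊤ := by
    rw [eq_top_iff]
    have hinj := Subgroup.map_injective (Subgroup.subtype_injective T)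
    have h1 : (H.subgroupOf T ⊔ commutator T).map T.subtype = H ⊔ ⁅T, T⁆ := by
      rw [Subgroup.map_sup, Subgroup.map_subgroupOf_eq_of_le hHT, commutator_def,
        Subgroup.map_commutator, ← MonoidHom.range_eq_map, Subgroup.range_subtype]
    have h2 : (⊤ : Subgroup T).map T.subtype ≤ (H.subgroupOf T ⊔ commutator T).map T.subtype := by
      rw [h1, ← MonoidHom.range_eq_map, Subgroup.range_subtype]
      exact h
    exact (Subgroup.map_le_map_iff_of_injective (Subgroup.subtype_injective T)).1 h2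
  have hQ : commutator (T ⧸ H.subgroupOf T) = ⊤ := by
    have h1 : (H.subgroupOf T ⊔ commutator T).map (QuotientGroup.mk' (H.subgroupOf T)) = ⊤ := by
      rw [htop, ← MonoidHom.range_eq_map]
      exact MonoidHom.range_eq_top.2 (QuotientGroup.mk'_surjective _)
    rw [Subgroup.map_sup, commutator_def, Subgroup.map_commutator, ← MonoidHom.range_eq_map,
      MonoidHom.range_eq_top.2 (QuotientGroup.mk'_surjective _)] at h1
    have h2 : (H.subgroupOf T).map (QuotientGroup.mk' (H.subgroupOf T)) = ⊥ := by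
      rw [Subgroup.map_eq_bot_iff, QuotientGroup.ker_mk']
    rw [h2, bot_sup_eq] at h1
    rw [commutator_def]
    exact h1
  have htriv : Subsingleton (T ⧸ H.subgroupOf T) := by
    by_contra hne
    rw [not_subsingleton_iff_nontrivial] at hne
    have := Group.IsSolvable.commutator_lt_top_of_nontrivial (T ⧸ H.subgroupOf T)
    rw [hQ] at this
    exact lt_irrefl _ this
  intro t ht
  have h1 : ((⟨t, ht⟩ : T) : T ⧸ H.subgroupOf T) = 1 := Subsingleton.elim _ _
  rw [QuotientGroup.eq_one_iff, Subgroup.mem_subgroupOf] at h1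
  exact h1

/-- `hyp(F_T(N)) ≤ hyp(F_S(G))` for `T ≤ S` -/
theorem fsos_hyperfocal_le8 (p : ℕ) (S N T : Subgroup G) (hTN : T ≤ N) (hTS : T ≤ S) :
    (fusionSystemOfSubgroup N T hTN).hyperfocalSubgroup p ≤
      (groupFusionSystem S).hyperfocalSubgroup p := by
  unfold FusionSystem.hyperfocalSubgroup
  rw [Subgroup.closure_le]
  rintro _ ⟨P, α, x, hPT, hα, rfl⟩
  refine pResidual_induction8 p ((fusionSystemOfSubgroup N T hTN).autGroup P)
    (Subgroup.closure {y : G | ∃ (P : Subgroup G) (α : (groupFusionSystem S).autGroup P) (x : P),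
      P ≤ S ∧ α ∈ pResidual p ((groupFusionSystem S).autGroup P) ∧
      y = (x : G)⁻¹ * ((α : MulAut P) x : P)})
    (fun α hcop x => ?_) α hα x
  have hα2 := (mem_autGroup_iff (fusionSystemOfSubgroup N T hTN) hPT (α : MulAut P)).1 α.2
  obtain ⟨-, hval, g, -, hg⟩ := hα2
  have hα3 : (α : MulAut P) ∈ (groupFusionSystem S).autGroup P := by
    rw [mem_autGroup_iff (groupFusionSystem S) (hPT.trans hTS)]
    exact ⟨hPT.trans hTS, fun x => hTS (hval x), g, hg⟩
  apply Subgroup.subset_closure
  refine ⟨P, ⟨(α : MulAut P), hα3⟩, x, hPT.trans hTS, ?_, rfl⟩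
  apply Subgroup.subset_closure
  show Nat.Coprime (orderOf (⟨(α : MulAut P), hα3⟩ : (groupFusionSystem S).autGroup P)) p
  rw [Subgroup.orderOf_mk, Subgroup.orderOf_coe]
  exact hcop

/-- the hyperfocal subgroup theorem for finite groups -/
theorem gfs_hyperfocal_eq8 [Finite G] (p : ℕ) [Fact p.Prime] (S : Sylow p G) :
    (groupFusionSystem (S : Subgroup G)).hyperfocalSubgroup p =
      (S : Subgroup G) ⊓ pResidual p G := by
  apply le_antisymm (gfs_hyperfocal_le8 p (S : Subgroup G))
  have hN : (pResidual p G).Normal := pResidual_normal8 p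
  obtain ⟨R, hR⟩ := sylow_inf_normal p S (pResidual p G)
  have hsat := fsos_saturated p (pResidual p G) ((S : Subgroup G) ⊓ pResidual p G) inf_le_right
    ⟨R, hR⟩
  have hTfin : Finite ((S : Subgroup G) ⊓ pResidual p G : Subgroup G) := inferInstance
  have hTp : IsPGroup p ((S : Subgroup G) ⊓ pResidual p G : Subgroup G) :=
    S.isPGroup'.to_le inf_le_left
  have hfe := focal_eq (fusionSystemOfSubgroup (pResidual p G)
    ((S : Subgroup G) ⊓ pResidual p G) inf_le_right) p hTp hsat
  have hhn := hyperfocal_normalizer (fusionSystemOfSubgroup (pResidual p G)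
    ((S : Subgroup G) ⊓ pResidual p G) inf_le_right) p
  have hhl := hyperfocal_le (fusionSystemOfSubgroup (pResidual p G)
    ((S : Subgroup G) ⊓ pResidual p G) inf_le_right) p
  -- T ≤ focal subgroup
  have hfoc : (S : Subgroup G) ⊓ pResidual p G ≤
      (fusionSystemOfSubgroup (pResidual p G)
        ((S : Subgroup G) ⊓ pResidual p G) inf_le_right).focalSubgroup := by
    have h1 := Cfsg.Agent.Lib.Helper3.sylow_inf_commutator_le_of_focal R
      (((fusionSystemOfSubgroup (pResidual p G)
        ((S : Subgroup G) ⊓ pResidual p G) inf_le_right).focalSubgroup).subgroupOf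
          (pResidual p G)) ?_
    · intro t ht
      have htN : t ∈ pResidual p G := ht.2
      have htR : (⟨t, htN⟩ : pResidual p G) ∈ (R : Subgroup (pResidual p G)) := by
        rw [hR, Subgroup.mem_subgroupOf]
        exact ht
      obtain ⟨k, hk⟩ := (S.isPGroup' : IsPGroup p (S : Subgroup G)) ⟨t, ht.1⟩
      have hk' : t ^ (p ^ k) = 1 := by
        have := congrArg Subtype.val hk
        simpa using this
      have htD := pelt_pResidual_mem_comm8 p t k hk' htN
      have htD' : (⟨t, htN⟩ : pResidual p G) ∈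
          ⁅(⊤ : Subgroup (pResidual p G)), (⊤ : Subgroup (pResidual p G))⁆ := by
        have h2 : (⁅(⊤ : Subgroup (pResidual p G)), (⊤ : Subgroup (pResidual p G))⁆).map
            (pResidual p G).subtype = ⁅pResidual p G, pResidual p G⁆ := by
          rw [Subgroup.map_commutator, ← MonoidHom.range_eq_map, Subgroup.range_subtype]
        rw [← h2] at htD
        obtain ⟨y, hy, hyt⟩ := htD
        have e : y = ⟨t, htN⟩ := Subtype.ext hyt
        rw [← e]
        exact hy
      have h3 := h1 (Subgroup.mem_inf.2 ⟨htR, htD'⟩)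
      rw [Subgroup.mem_subgroupOf] at h3
      exact h3
    · intro a ha g hga
      rw [Subgroup.mem_subgroupOf]
      rw [hR, Subgroup.mem_subgroupOf] at ha hga
      apply Subgroup.subset_closure
      have hz : Subgroup.zpowers (a : G) ≤ (S : Subgroup G) ⊓ pResidual p G := by
        rw [Subgroup.zpowers_le]
        exact ha
      have hz2 : Subgroup.zpowers (a : G) ≤
          conjSub (g : G) ((S : Subgroup G) ⊓ pResidual p G) := by
        rw [Subgroup.zpowers_le, mem_conjSub]
        exact hga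
      refine ⟨Subgroup.zpowers (a : G), conjHom (Subgroup.zpowers (a : G)) ((g : G)⁻¹),
        ⟨(a : G), Subgroup.mem_zpowers _⟩, ⟨hz, ?_, (g : G)⁻¹, Subgroup.inv_mem _ g.2,
          fun x => rfl⟩, ?_⟩
      · intro x
        have h4 := mem_conjSub.1 (hz2 x.2)
        show (g : G)⁻¹ * (x : G) * ((g : G)⁻¹)⁻¹ ∈ _
        rw [inv_inv]
        exact h4
      · show ((a⁻¹ * (g⁻¹ * a * g) : pResidual p G) : G) =
          (a : G)⁻¹ * ((g : G)⁻¹ * (a : G) * ((g : G)⁻¹)⁻¹)
        rw [inv_inv]
        rfl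
  rw [hfe] at hfoc
  have h5 := pgroup_le_of_le_sup_comm8 p ((S : Subgroup G) ⊓ pResidual p G) _ hTp hhl hhn hfoc
  exact h5.trans (fsos_hyperfocal_le8 p (S : Subgroup G) (pResidual p G) _ inf_le_right inf_le_left)

end Cfsg.Agent.Lib.Helper8
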