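import Mathlib
import Cfsg.Prelude.Def_FusionSystem
import Cfsg.Prelude.Def_FusionComponents
import Cfsg.Agent.Lib.Helper8.HypGroup
import Cfsg.Agent.Lib.Helper8.FusionPPowerLe
import Cfsg.Agent.Lib.Helper8.FusionAlperin
import Cfsg.Agent.Lib.Helper8.FusionRS

set_option autoImplicit false

namespace Cfsg.Agent.Lib.Helper8

open Cfsg Cfsg.FusionSystem

variable {G : Type*} [Group G]

/-- a conjugation automorphism of `p'`-order is induced by an element of `O^p(G)` -/
theorem conj_pprime_induced8 [Finite G] (p : ℕ) [Fact p.Prime] {P : Subgroup G} (α : MulAut P)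
    (g : G) (hg : ∀ x : P, ((α x : P) : G) = g * (x : G) * g⁻¹)
    (hcop : Nat.Coprime (orderOf α) p) :
    ∃ h ∈ pResidual p G, ∀ x : P, ((α x : P) : G) = h * (x : G) * h⁻¹ := by
  obtain ⟨k, hk⟩ := exists_pow_mem_pResidual p g
  have hp : p.Prime := Fact.out
  by_cases hm : orderOf α = 1
  · rw [orderOf_eq_one_iff] at hm
    refine ⟨1, one_mem _, fun x => ?_⟩
    rw [hm]
    simp
  · have hm1 : 1 < orderOf α := by
      have := orderOf_pos α
      omega
    have hc2 : Nat.Coprime (p ^ k) (orderOf α) := (Nat.Coprime.pow_right k hcop).symm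
    obtain ⟨j, -, hj⟩ := Nat.exists_mul_mod_eq_one_of_coprime hc2 hm1
    have h1 : α ^ (p ^ k * j) = α := by
      rw [← pow_mod_orderOf, hj, pow_one]
    refine ⟨g ^ (p ^ k * j), ?_, fun x => ?_⟩
    · rw [pow_mul]
      exact Subgroup.pow_mem _ hk j
    · have h2 := aut_pow_conj8 α g hg (p ^ k * j) x
      rw [h1] at h2
      exact h2

/-- a saturated subsystem of `p`-power index of `F_S(G)` over `S ∩ O^p(G)` is the fusion system of
`O^p(G)` -/
theorem ppower_residual_group8 [Finite G] (p : ℕ) [Fact p.Prime] (S : Sylow p G) (T : Subgroup G)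
    (hT : T = (S : Subgroup G) ⊓ pResidual p G) (E : FusionSystem T) (hsat : E.IsSaturated p)
    (hidx : E.HasPPowerIndexIn (groupFusionSystem (S : Subgroup G)) p) :
    ∀ P : Subgroup G, E.Hom P = (fusionSystemOfSubgroup (pResidual p G)
      ((S : Subgroup G) ⊓ pResidual p G) inf_le_right).Hom P := by
  subst hT
  have hN : (pResidual p G).Normal := pResidual_normal8 p
  have hSp : IsPGroup p (S : Subgroup G) := S.isPGroup'
  have hTp : IsPGroup p ((S : Subgroup G) ⊓ pResidual p G : Subgroup G) := hSp.to_le inf_le_left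
  have h1 : (fusionSystemOfSubgroup (pResidual p G)
      ((S : Subgroup G) ⊓ pResidual p G) inf_le_right).IsSubsystemOf E := by
    refine normal_le_ppower_index p hSp (groupFusionSystem (S : Subgroup G)) _
      (fsos_normal p S (pResidual p G)) E ?_ hidx
    rw [gfs_hyperfocal_eq8 p S, sup_idem]
  have h2 : E ≤ fusionSystemOfSubgroup (pResidual p G)
      ((S : Subgroup G) ⊓ pResidual p G) inf_le_right := by
    apply fs_alperin E p hTp hsat
    intro P hP
    have hPn : E.IsFullyNormalized P := by
      rcases hP with rfl | hP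
      · exact fs_fullyNormalized_top E
      · exact hP.2.1
    obtain ⟨hPT, R, hR⟩ := (((fs_saturated_iff E p hTp).1 hsat).1 P hPn).2
    rw [fsos_autGroup_eq inf_le_right hPT]
    -- p'-part
    have hres : pResidual p (E.autGroup P) ≤
        (autInducedBy (pResidual p G) P).subgroupOf (E.autGroup P) := by
      unfold pResidual
      rw [Subgroup.closure_le]
      intro β hβ
      have hβ' : Nat.Coprime (orderOf β) p := hβ
      rw [← Subgroup.orderOf_coe] at hβ'
      have hβ2 := (mem_autGroup_iff E hPT (β : MulAut P)).1 β.2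
      obtain ⟨-, -, g, hg⟩ := hidx.1 P hβ2
      obtain ⟨h, hh, hhx⟩ := conj_pprime_induced8 p (β : MulAut P) g (fun x => hg x) hβ'
      show (β : MulAut P) ∈ autInducedBy (pResidual p G) P
      exact Subgroup.subset_closure ⟨h, hh, hhx⟩
    have hsyl : (autInducedBy ((S : Subgroup G) ⊓ pResidual p G) P) ≤
        autInducedBy (pResidual p G) P := by
      unfold autInducedBy
      apply Subgroup.closure_mono
      rintro α ⟨g, hg, hgx⟩
      exact ⟨g, hg.2, hgx⟩
    intro α hα
    obtain ⟨r, hr, t, ht, hrt⟩ := exists_mul_pResidual_sylow R (⟨α, hα⟩ : E.autGroup P)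
    have h3 : α = (r : MulAut P) * (t : MulAut P) := by
      have := congrArg Subtype.val hrt
      exact this
    rw [h3]
    refine Subgroup.mul_mem _ (hres hr) (hsyl ?_)
    rw [hR, Subgroup.mem_subgroupOf] at ht
    exact ht
  intro P
  exact Set.Subset.antisymm (h2 P) (h1 P)

end Cfsg.Agent.Lib.Helper8
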