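import Mathlib
import Cfsg.Prelude.Def_Characters
import Cfsg.Agent.Lib.Lead.CharGalSum
import Cfsg.Agent.Lib.Lead.CharPZero
import Cfsg.Agent.Lib.Lead.CharIto
import Cfsg.Agent.Lib.Lead.CharMichler2
import Cfsg.Agent.Lib.Lead.CharCount
import Cfsg.Agent.Lib.Helper8.CharQuotient

set_option autoImplicit false

namespace Cfsg.Agent.Lib.Helper8

open Cfsg.Agent.Lib.Lead

variable {X : Type*} [Group X]

/-- order of the centralizer of an element of an abelian normal subgroup with complement -/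
theorem card_centralizer_complement8 [Finite X] (V : Subgroup X)
    (hab : ∀ a ∈ V, ∀ b ∈ V, a * b = b * a) (G : Subgroup X)
    (hGV : Subgroup.IsComplement' V G) (v : X) (hv : v ∈ V) :
    Nat.card (Subgroup.centralizer ({v} : Set X)) =
      Nat.card V * Nat.card ↥(G ⊓ Subgroup.centralizer ({v} : Set X)) := by
  have hVC : V ≤ Subgroup.centralizer ({v} : Set X) := by
    intro a ha
    rw [Subgroup.mem_centralizer_iff]
    intro h hh
    rw [Set.mem_singleton_iff] at hh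
    rw [hh]
    exact hab v hv a ha
  rw [← Nat.card_prod]
  symm
  apply Nat.card_congr
  refine Equiv.ofBijective (fun x : ↥V × ↥(G ⊓ Subgroup.centralizer ({v} : Set X)) =>
    (⟨(x.1 : X) * (x.2 : X), Subgroup.mul_mem _ (hVC x.1.2) x.2.2.2⟩ :
      Subgroup.centralizer ({v} : Set X))) ⟨?_, ?_⟩
  · rintro ⟨a, g⟩ ⟨a', g'⟩ h
    have h1 : (a : X) * (g : X) = (a' : X) * (g' : X) := congrArg Subtype.val h
    have h2 := hGV.1 (a₁ := (a, ⟨(g : X), g.2.1⟩)) (a₂ := (a', ⟨(g' : X), g'.2.1⟩)) h1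
    have h3 : a = a' := congrArg Prod.fst h2
    have h4 : (g : X) = (g' : X) := congrArg (fun z => ((z.2 : G) : X)) h2
    exact Prod.ext h3 (Subtype.ext h4)
  · rintro ⟨c, hc⟩
    obtain ⟨⟨a, g⟩, hag⟩ := hGV.2 c
    have hag' : (a : X) * (g : X) = c := hag
    have hg : (g : X) ∈ Subgroup.centralizer ({v} : Set X) := by
      have e : (g : X) = (a : X)⁻¹ * c := by rw [← hag']; group
      rw [e]
      exact Subgroup.mul_mem _ (Subgroup.inv_mem _ (hVC a.2)) hc
    exact ⟨(a, ⟨(g : X), ⟨g.2, hg⟩⟩), Subtype.ext hag'⟩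

/-- the quotient by a normal subgroup has at most as many classes as a complement -/
theorem card_conjClasses_quotient_le8 [Finite X] (V : Subgroup X) [V.Normal] (G : Subgroup X)
    (hGV : Subgroup.IsComplement' V G) :
    Nat.card (ConjClasses (X ⧸ V)) ≤ Nat.card (ConjClasses G) := by
  have hsurj : Function.Surjective ((QuotientGroup.mk' V).comp G.subtype) := by
    intro q
    obtain ⟨x, rfl⟩ := QuotientGroup.mk'_surjective V q
    obtain ⟨⟨a, g⟩, hag⟩ := hGV.2 x
    have hag' : (a : X) * (g : X) = x := hag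
    refine ⟨g, ?_⟩
    show QuotientGroup.mk' V (g : X) = QuotientGroup.mk' V x
    rw [← hag', map_mul]
    have e : QuotientGroup.mk' V (a : X) = 1 := (QuotientGroup.eq_one_iff _).2 a.2
    rw [e, one_mul]
  exact Nat.card_le_card_of_surjective _ (ConjClasses.map_surjective hsurj)

/-- Knörr's bound with Robinson's refinement -/
theorem knorr_bound8 [Finite X] (p : ℕ) [Fact p.Prime] (V : Subgroup X) [V.Normal]
    (hVp : IsPGroup p V) (hidx : ¬ p ∣ V.index) (hab : ∀ a ∈ V, ∀ b ∈ V, a * b = b * a)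
    (G : Subgroup X) (hGV : Subgroup.IsComplement' V G) (v : X) (hv : v ∈ V) :
    Nat.card (ConjClasses X) + Nat.card G ≤
      Nat.card ↥(G ⊓ Subgroup.centralizer ({v} : Set X)) * Nat.card V +
        Nat.card (ConjClasses G) := by
  classical
  haveI : Fintype X := Fintype.ofFinite X
  haveI : Fintype (Cfsg.IrrCharacter X) := by
    have h : Finite (Cfsg.IrrCharacter X) := by
      apply Nat.finite_of_card_ne_zero
      rw [card_irr]
      exact Nat.card_pos.ne'
    exact Fintype.ofFinite _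
  haveI : Fintype (X ⧸ V) := Fintype.ofFinite _
  haveI : Fintype (Cfsg.IrrCharacter (X ⧸ V)) := by
    have h : Finite (Cfsg.IrrCharacter (X ⧸ V)) := by
      apply Nat.finite_of_card_ne_zero
      rw [card_irr]
      exact Nat.card_pos.ne'
    exact Fintype.ofFinite _
  obtain ⟨ι, hι, m, hιpos, hm, hgal⟩ := exists_galois_system X
  -- degrees are prime to p
  have hdeg : ∀ χ : Cfsg.IrrCharacter X, ¬ p ∣ Cfsg.charDegree (χ : X → ℂ) := by
    intro χ hdvd
    obtain ⟨n, ρ, hρ, hχ⟩ := χ.2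
    have h1 := ito_degree ρ V hab
    have h2 := charDegree_eq_finrank ρ
    rw [← hχ, h2] at hdvd
    exact hidx (hdvd.trans h1)
  -- v is a p-element
  have hvord : ∃ j : ℕ, orderOf v = p ^ j := by
    obtain ⟨j, hj⟩ := (IsPGroup.iff_orderOf.1 hVp) ⟨v, hv⟩
    exact ⟨j, by rw [← hj, Subgroup.orderOf_mk]⟩
  have hne : ∀ χ : Cfsg.IrrCharacter X, (χ : X → ℂ) v ≠ 0 := by
    intro χ h0
    exact hdeg χ (prime_dvd_charDegree_of_eq_zero p (χ : X → ℂ)
      (isCharacter_of_isIrrCharacter χ.2) v hvord h0)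
  -- upper bound
  have hupper : ∀ i : ι, ∑ χ : Cfsg.IrrCharacter X, ‖(χ : X → ℂ) (v ^ m i)‖ ^ 2 ≤
      (Nat.card (Subgroup.centralizer ({v} : Set X)) : ℝ) := by
    intro i
    have h1 := normSq_sum_irr (G := X) (v ^ m i)
    have h2 : ∑ χ : Cfsg.IrrCharacter X, ‖(χ : X → ℂ) (v ^ m i)‖ ^ 2 =
        ∑ χ : Cfsg.IrrCharacter X, Complex.normSq ((χ : X → ℂ) (v ^ m i)) := by
      apply Finset.sum_congr rfl
      intro χ _
      rw [Complex.normSq_eq_norm_sq]
    rw [h2, h1]
    have hcop : (m i).Coprime (orderOf v) :=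
      Nat.Coprime.coprime_dvd_right (orderOf_dvd_natCard v) (hm i)
    obtain ⟨k, hk⟩ := exists_pow_eq_self_of_coprime hcop
    have hle : Subgroup.centralizer ({v ^ m i} : Set X) ≤ Subgroup.centralizer ({v} : Set X) := by
      intro c hc
      rw [Subgroup.mem_centralizer_iff] at hc ⊢
      intro h hh
      rw [Set.mem_singleton_iff] at hh
      have h3 := hc (v ^ m i) (Set.mem_singleton _)
      have h4 : Commute (v ^ m i) c := h3
      have h5 : Commute ((v ^ m i) ^ k) c := h4.pow_left k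
      rw [hk] at h5
      rw [hh]
      exact h5
    exact_mod_cast Subgroup.card_le_of_le hle
  -- lower bound
  have hlower : ∀ χ : Cfsg.IrrCharacter X,
      (Fintype.card ι : ℝ) * (if (∀ x ∈ V, (χ : X → ℂ) x = (χ : X → ℂ) 1) then
        ((Cfsg.charDegree (χ : X → ℂ) ^ 2 : ℕ) : ℝ) else 1) ≤
        ∑ i : ι, ‖(χ : X → ℂ) (v ^ m i)‖ ^ 2 := by
    intro χ
    split_ifs with hA
    · have h1 : ∀ i : ι, ‖(χ : X → ℂ) (v ^ m i)‖ ^ 2 =
          ((Cfsg.charDegree (χ : X → ℂ) ^ 2 : ℕ) : ℝ) := by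
        intro i
        rw [hA _ (Subgroup.pow_mem _ hv _), (irr_charDegree χ).1]
        simp
      rw [Finset.sum_congr rfl (fun i _ => h1 i), Finset.sum_const, Finset.card_univ,
        nsmul_eq_mul]
    · rw [mul_one]
      exact hgal (χ : X → ℂ) (isCharacter_of_isIrrCharacter χ.2) v (hne χ)
  have hsum : ∑ χ : Cfsg.IrrCharacter X, (Fintype.card ι : ℝ) *
      (if (∀ x ∈ V, (χ : X → ℂ) x = (χ : X → ℂ) 1) then
        ((Cfsg.charDegree (χ : X → ℂ) ^ 2 : ℕ) : ℝ) else 1) ≤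
      (Fintype.card ι : ℝ) * (Nat.card (Subgroup.centralizer ({v} : Set X)) : ℝ) := by
    calc ∑ χ : Cfsg.IrrCharacter X, (Fintype.card ι : ℝ) *
        (if (∀ x ∈ V, (χ : X → ℂ) x = (χ : X → ℂ) 1) then
          ((Cfsg.charDegree (χ : X → ℂ) ^ 2 : ℕ) : ℝ) else 1)
        ≤ ∑ χ : Cfsg.IrrCharacter X, ∑ i : ι, ‖(χ : X → ℂ) (v ^ m i)‖ ^ 2 :=
          Finset.sum_le_sum (fun χ _ => hlower χ)
      _ = ∑ i : ι, ∑ χ : Cfsg.IrrCharacter X, ‖(χ : X → ℂ) (v ^ m i)‖ ^ 2 := Finset.sum_comm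
      _ ≤ ∑ i : ι, (Nat.card (Subgroup.centralizer ({v} : Set X)) : ℝ) :=
          Finset.sum_le_sum (fun i _ => hupper i)
      _ = (Fintype.card ι : ℝ) * (Nat.card (Subgroup.centralizer ({v} : Set X)) : ℝ) := by
          rw [Finset.sum_const, Finset.card_univ, nsmul_eq_mul]
  rw [← Finset.mul_sum] at hsum
  have hιpos' : (0 : ℝ) < Fintype.card ι := by exact_mod_cast hιpos
  have hsum2 := le_of_mul_le_mul_left hsum hιpos'
  -- evaluate the sum
  have hsplit : ∑ χ : Cfsg.IrrCharacter X,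
      (if (∀ x ∈ V, (χ : X → ℂ) x = (χ : X → ℂ) 1) then
        ((Cfsg.charDegree (χ : X → ℂ) ^ 2 : ℕ) : ℝ) else 1) =
      ((V.index : ℕ) : ℝ) + ((Finset.univ.filter (fun χ : Cfsg.IrrCharacter X =>
        ¬ ∀ x ∈ V, (χ : X → ℂ) x = (χ : X → ℂ) 1)).card : ℝ) := by
    rw [Finset.sum_ite]
    congr 1
    · rw [← sum_sq_deg_over_normal V]
      push_cast
      rfl
    · rw [Finset.sum_const, nsmul_eq_mul, mul_one]
  rw [hsplit] at hsum2
  have hA : (Finset.univ.filter (fun χ : Cfsg.IrrCharacter X =>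
      ∀ x ∈ V, (χ : X → ℂ) x = (χ : X → ℂ) 1)).card = Nat.card (ConjClasses (X ⧸ V)) := by
    rw [← card_irr, Nat.card_eq_fintype_card, ← Finset.card_univ, Finset.card_eq_sum_ones,
      Finset.card_eq_sum_ones]
    exact sum_over_normal V (fun _ => 1)
  have hcompl : (Finset.univ.filter (fun χ : Cfsg.IrrCharacter X =>
      ∀ x ∈ V, (χ : X → ℂ) x = (χ : X → ℂ) 1)).card + (Finset.univ.filter
      (fun χ : Cfsg.IrrCharacter X => ¬ ∀ x ∈ V, (χ : X → ℂ) x = (χ : X → ℂ) 1)).card =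
      Nat.card (ConjClasses X) := by
    rw [Finset.card_filter_add_card_filter_not, Finset.card_univ, ← Nat.card_eq_fintype_card,
      card_irr]
  have hnat : V.index + (Finset.univ.filter (fun χ : Cfsg.IrrCharacter X =>
      ¬ ∀ x ∈ V, (χ : X → ℂ) x = (χ : X → ℂ) 1)).card ≤
      Nat.card (Subgroup.centralizer ({v} : Set X)) := by
    exact_mod_cast hsum2
  have h1 := card_centralizer_complement8 V hab G hGV v hv
  have h2 := card_conjClasses_quotient_le8 V G hGV
  have h3 : V.index = Nat.card G := hGV.symm.index_eq_card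
  rw [h1, h3] at hnat
  rw [hA] at hcompl
  have e : Nat.card ↥(G ⊓ Subgroup.centralizer ({v} : Set X)) * Nat.card V =
      Nat.card V * Nat.card ↥(G ⊓ Subgroup.centralizer ({v} : Set X)) := mul_comm _ _
  omega

end Cfsg.Agent.Lib.Helper8
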