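import Mathlib
import Cfsg.Prelude.Def_FusionSystem
import Cfsg.Agent.Lib.Helper8.FusionRealized
import Cfsg.Agent.Lib.Helper8.FusionMisc

set_option autoImplicit false

namespace Cfsg.Agent.Lib.Helper8

open Cfsg Cfsg.FusionSystem

/-- an automorphism of a finite group `G` with `C_G(O_p(G)) ≤ O_p(G)` which is the identity on a
Sylow `p`-subgroup `T` is conjugation by an element of `Z(T)` -/
theorem aut_trivial_on_sylow_of_constrained {G : Type*} [Group G] [Finite G] (p : ℕ)
    [Fact p.Prime] (T : Sylow p G)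
    (hC : Subgroup.centralizer ((pCore p G : Subgroup G) : Set G) ≤ pCore p G)
    (ψ : G ≃* G) (hψ : ∀ t ∈ (T : Subgroup G), ψ t = t) :
    ∃ z ∈ (T : Subgroup G), (∀ t ∈ (T : Subgroup G), z * t = t * z) ∧
      ∀ g : G, ψ g = z * g * z⁻¹ := by
  classical
  have hQn : (pCore p G).Normal := pCore_normal8 p G
  have hQT : pCore p G ≤ (T : Subgroup G) := pCore_le_sylow8 p T
  have hAn : (Subgroup.centralizer ((pCore p G : Subgroup G) : Set G)).Normal := by
    refine ⟨fun a ha g => ?_⟩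
    rw [Subgroup.mem_centralizer_iff] at ha ⊢
    intro x hx
    have hx' : g⁻¹ * x * g ∈ pCore p G := by
      have := hQn.conj_mem x hx g⁻¹
      rwa [inv_inv] at this
    have h1 := ha _ hx'
    calc x * (g * a * g⁻¹) = g * ((g⁻¹ * x * g) * a) * g⁻¹ := by group
      _ = g * (a * (g⁻¹ * x * g)) * g⁻¹ := by rw [h1]
      _ = g * a * g⁻¹ * x := by group
  have hAcomm : ∀ a b : Subgroup.centralizer ((pCore p G : Subgroup G) : Set G), a * b = b * a := by
    intro a b
    apply Subtype.ext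
    have h1 := (Subgroup.mem_centralizer_iff.1 a.2) b (hC b.2)
    exact h1.symm
  letI : CommGroup (Subgroup.centralizer ((pCore p G : Subgroup G) : Set G)) :=
    { (inferInstance : Group (Subgroup.centralizer ((pCore p G : Subgroup G) : Set G))) with
      mul_comm := hAcomm }
  have hεmem : ∀ g : G, ψ g * g⁻¹ ∈ Subgroup.centralizer ((pCore p G : Subgroup G) : Set G) := by
    intro g
    rw [Subgroup.mem_centralizer_iff]
    intro x hx
    have hy : g⁻¹ * x * g ∈ pCore p G := by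
      have := hQn.conj_mem x hx g⁻¹
      rwa [inv_inv] at this
    have h1 : ψ (g⁻¹ * x * g) = g⁻¹ * x * g := hψ _ (hQT hy)
    have h2 : ψ x = x := hψ _ (hQT hx)
    have h3 : ψ g * (g⁻¹ * x * g) * (ψ g)⁻¹ = x := by
      have e : x = g * (g⁻¹ * x * g) * g⁻¹ := by group
      have h4 : ψ x = ψ g * ψ (g⁻¹ * x * g) * (ψ g)⁻¹ := by
        conv_lhs => rw [e]
        rw [map_mul, map_mul, map_inv]
      rw [h2, h1] at h4
      exact h4.symm
    calc x * (ψ g * g⁻¹) = (ψ g * (g⁻¹ * x * g) * (ψ g)⁻¹) * (ψ g * g⁻¹) := by rw [h3]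
      _ = ψ g * g⁻¹ * x := by group
  have hεT : ∀ (g : G) (t : G), t ∈ (T : Subgroup G) → ψ (g * t) * (g * t)⁻¹ = ψ g * g⁻¹ := by
    intro g t ht
    rw [map_mul, hψ t ht]
    group
  -- the product over cosets
  have : Fintype (G ⧸ (T : Subgroup G)) := Fintype.ofFinite _
  have hkey : ∀ g : G,
      ∏ q : G ⧸ (T : Subgroup G),
        (⟨ψ (g * q.out) * (g * q.out)⁻¹, hεmem _⟩ :
          Subgroup.centralizer ((pCore p G : Subgroup G) : Set G)) =
      ∏ q : G ⧸ (T : Subgroup G),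
        (⟨ψ q.out * q.out⁻¹, hεmem _⟩ :
          Subgroup.centralizer ((pCore p G : Subgroup G) : Set G)) := by
    intro g
    rw [← Equiv.prod_comp (MulAction.toPerm g : Equiv.Perm (G ⧸ (T : Subgroup G)))
      (fun q : G ⧸ (T : Subgroup G) => (⟨ψ q.out * q.out⁻¹, hεmem _⟩ :
          Subgroup.centralizer ((pCore p G : Subgroup G) : Set G)))]
    apply Finset.prod_congr rfl
    intro q _
    apply Subtype.ext
    show ψ (g * q.out) * (g * q.out)⁻¹ =
      ψ ((MulAction.toPerm g q : G ⧸ (T : Subgroup G)).out) *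
        ((MulAction.toPerm g q : G ⧸ (T : Subgroup G)).out)⁻¹
    have h1 : (MulAction.toPerm g q : G ⧸ (T : Subgroup G)) =
        QuotientGroup.mk (g * q.out) := by
      show g • q = _
      conv_lhs => rw [← QuotientGroup.out_eq' q]
      rfl
    obtain ⟨t, ht⟩ := QuotientGroup.mk_out_eq_mul (T : Subgroup G) (g * q.out)
    rw [h1, ht]
    exact (hεT _ _ t.2).symm
  have hsplit : ∀ g : G,
      ∏ q : G ⧸ (T : Subgroup G),
        (⟨ψ (g * q.out) * (g * q.out)⁻¹, hεmem _⟩ :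
          Subgroup.centralizer ((pCore p G : Subgroup G) : Set G)) =
      (⟨ψ g * g⁻¹, hεmem g⟩ : Subgroup.centralizer ((pCore p G : Subgroup G) : Set G)) ^
          Fintype.card (G ⧸ (T : Subgroup G)) *
        MulAut.conjNormal g (∏ q : G ⧸ (T : Subgroup G),
          (⟨ψ q.out * q.out⁻¹, hεmem _⟩ :
            Subgroup.centralizer ((pCore p G : Subgroup G) : Set G))) := by
    intro g
    rw [map_prod, ← Finset.card_univ, ← Finset.prod_const, ← Finset.prod_mul_distrib]
    apply Finset.prod_congr rfl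
    intro q _
    apply Subtype.ext
    show ψ (g * q.out) * (g * q.out)⁻¹ = ψ g * g⁻¹ * (g * (ψ q.out * q.out⁻¹) * g⁻¹)
    rw [map_mul]
    group
  have hAp : IsPGroup p (Subgroup.centralizer ((pCore p G : Subgroup G) : Set G)) :=
    (pCore_isPGroup8 p G).to_le hC
  have hcop : (Nat.card (Subgroup.centralizer ((pCore p G : Subgroup G) : Set G))).Coprime
      (Fintype.card (G ⧸ (T : Subgroup G))) := by
    obtain ⟨n, hn⟩ := IsPGroup.iff_card.1 hAp
    rw [hn]
    apply Nat.Coprime.pow_left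
    rw [Nat.Prime.coprime_iff_not_dvd (Fact.out : p.Prime)]
    have h1 := T.not_dvd_index
    rw [Subgroup.index, Nat.card_eq_fintype_card] at h1
    exact h1
  have hinj : ∀ a b : Subgroup.centralizer ((pCore p G : Subgroup G) : Set G),
      a ^ Fintype.card (G ⧸ (T : Subgroup G)) = b ^ Fintype.card (G ⧸ (T : Subgroup G)) →
      a = b := by
    intro a b hab
    exact (powCoprime hcop).injective hab
  obtain ⟨z, hz⟩ := (powCoprime hcop).surjective (∏ q : G ⧸ (T : Subgroup G),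
      (⟨ψ q.out * q.out⁻¹, hεmem _⟩ : Subgroup.centralizer ((pCore p G : Subgroup G) : Set G)))
  have hz' : z ^ Fintype.card (G ⧸ (T : Subgroup G)) = ∏ q : G ⧸ (T : Subgroup G),
      (⟨ψ q.out * q.out⁻¹, hεmem _⟩ : Subgroup.centralizer ((pCore p G : Subgroup G) : Set G)) :=
    hz
  have hform : ∀ g : G, ψ g = (z : G) * g * (z : G)⁻¹ := by
    intro g
    have h1 := (hkey g).symm.trans (hsplit g)
    rw [← hz'] at h1
    have h2 : (⟨ψ g * g⁻¹, hεmem g⟩ : Subgroup.centralizer ((pCore p G : Subgroup G) : Set G)) =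
        z * (MulAut.conjNormal g z)⁻¹ := by
      apply hinj
      rw [mul_pow, inv_pow, ← map_pow]
      exact eq_mul_inv_of_mul_eq h1.symm
    have h3 := congrArg Subtype.val h2
    have h4 : ψ g * g⁻¹ = (z : G) * (g * (z : G) * g⁻¹)⁻¹ := h3
    calc ψ g = ψ g * g⁻¹ * g := by group
      _ = (z : G) * (g * (z : G) * g⁻¹)⁻¹ * g := by rw [h4]
      _ = (z : G) * g * (z : G)⁻¹ := by group
  refine ⟨(z : G), hQT (hC z.2), fun t ht => ?_, hform⟩
  have h1 := hform t
  rw [hψ t ht] at h1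
  calc (z : G) * t = (z : G) * t * (z : G)⁻¹ * (z : G) := by group
    _ = t * (z : G) := by rw [← h1]

/-- S5105 -/
theorem model_aut_inner {Ω : Type*} [Group Ω] {S : Subgroup Ω} (p : ℕ) [Fact p.Prime]
    (F : Cfsg.FusionSystem S) {G : Type*} [Group G] (ι : S →* G) (hG : F.IsModel p G ι)
    (ψ : G ≃* G) (hψ : ∀ x : S, ψ (ι x) = ι x) :
    ∃ z : S, z ∈ Subgroup.center S ∧ ∀ g : G, ψ g = ι z * g * (ι z)⁻¹ := by
  obtain ⟨hfin, hreal, ⟨T, hT⟩, hC⟩ := hG
  have hψT : ∀ t ∈ (T : Subgroup G), ψ t = t := by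
    intro t ht
    rw [hT] at ht
    obtain ⟨x, rfl⟩ := ht
    exact hψ x
  obtain ⟨z, hzT, hzc, hz⟩ := aut_trivial_on_sylow_of_constrained p T hC ψ hψT
  rw [hT] at hzT
  obtain ⟨z₀, rfl⟩ := hzT
  refine ⟨z₀, ?_, hz⟩
  rw [Subgroup.mem_center_iff]
  intro s
  apply hreal.1
  rw [map_mul, map_mul]
  have h1 := hzc (ι s) (by rw [hT]; exact ⟨s, rfl⟩)
  exact h1.symm

end Cfsg.Agent.Lib.Helper8
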