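import Mathlib
import Cfsg.Prelude.Def_RootSubgroups
import Cfsg.Prelude.Def_Solvable
import Cfsg.Agent.Lib.Helper8.FusionMisc

set_option autoImplicit false

namespace Cfsg.Agent.Lib.Helper8

open Cfsg
open scoped commutatorElement

variable {G : Type*} [Group G]

theorem rootInv_mul_self {D : Set G} (hD : IsRootInvolutionSet D) {d : G} (hd : d ∈ D) :
    d * d = 1 := by
  have := pow_orderOf_eq_one d
  rwa [hD.orderOf_eq d hd, pow_two] at this

theorem rootInv_inv {D : Set G} (hD : IsRootInvolutionSet D) {d : G} (hd : d ∈ D) :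
    d⁻¹ = d := inv_eq_of_mul_eq_one_left (rootInv_mul_self hD hd)

/-- two members of an odd transposition set whose product is a 2-element commute -/
theorem oddTransp_commute_of_two_elt {D : Set G} (hD : IsOddTranspositionSet D) {d₁ d₂ : G}
    (h1 : d₁ ∈ D) (h2 : d₂ ∈ D) (hk : ∃ k : ℕ, (d₁ * d₂) ^ (2 ^ k) = 1) :
    d₁ * d₂ = d₂ * d₁ := by
  obtain ⟨k, hk⟩ := hk
  rcases hD.1.pair d₁ h1 d₂ h2 with h | h | h
  · exact h
  · have hdvd : orderOf (d₁ * d₂) ∣ 2 ^ k := orderOf_dvd_of_pow_eq_one hk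
    have hcop : Nat.Coprime (orderOf (d₁ * d₂)) (2 ^ k) :=
      Nat.Coprime.pow_right k (Nat.coprime_two_right.2 h)
    have h1' : orderOf (d₁ * d₂) = 1 := Nat.Coprime.eq_one_of_dvd hcop hdvd
    rw [orderOf_eq_one_iff] at h1'
    have h3 : d₂ * d₁ = 1 := by
      have h4 := mul_eq_one_iff_eq_inv.1 h1'
      rw [h4]
      group
    rw [h1', h3]
  · exact absurd h.1 (hD.2 d₁ h1 d₂ h2)

theorem pow_two_pow_of_sq_mem {Q : Subgroup G} (hQ : IsPGroup 2 Q) {x : G} (hx : x * x ∈ Q) :
    ∃ k : ℕ, x ^ (2 ^ k) = 1 := by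
  obtain ⟨k, hk⟩ := hQ ⟨x * x, hx⟩
  have hk' : (x * x) ^ (2 ^ k) = 1 := by
    have := congrArg Subtype.val hk
    simpa using this
  refine ⟨k + 1, ?_⟩
  rw [pow_succ, mul_comm, pow_mul, pow_two]
  exact hk'

/-- `e` commutes with all `Q`-conjugates of `a` when `e`, `a ∈ D` commute -/
theorem oddTransp_commute_conj {D : Set G} (hD : IsOddTranspositionSet D) {a e q : G}
    (ha : a ∈ D) (he : e ∈ D) (hea : e * a = a * e) (hq : q ∈ pCore 2 G) :
    e * (q * a * q⁻¹) = (q * a * q⁻¹) * e := by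
  have hQn := pCore_normal8 2 G
  have hQp := pCore_isPGroup8 2 G
  apply oddTransp_commute_of_two_elt hD he (hD.1.conj_mem a ha q)
  apply pow_two_pow_of_sq_mem hQp
  have hu : q * a * q⁻¹ * a⁻¹ ∈ pCore 2 G := by
    have h1 : a * q⁻¹ * a⁻¹ ∈ pCore 2 G := hQn.conj_mem _ (Subgroup.inv_mem _ hq) a
    have e1 : q * a * q⁻¹ * a⁻¹ = q * (a * q⁻¹ * a⁻¹) := by group
    rw [e1]
    exact Subgroup.mul_mem _ hq h1
  have haa := rootInv_mul_self hD.1 ha
  have hee := rootInv_mul_self hD.1 he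
  have hainv := rootInv_inv hD.1 ha
  have heinv := rootInv_inv hD.1 he
  have key : e * (q * a * q⁻¹) * (e * (q * a * q⁻¹)) =
      (e * (q * a * q⁻¹ * a⁻¹) * e⁻¹) * (a * (q * a * q⁻¹ * a⁻¹) * a⁻¹) := by
    calc e * (q * a * q⁻¹) * (e * (q * a * q⁻¹))
        = e * (q * a * q⁻¹ * a⁻¹) * (a * e) * (q * a * q⁻¹ * a⁻¹) * a := by group
      _ = e * (q * a * q⁻¹ * a⁻¹) * (e * a) * (q * a * q⁻¹ * a⁻¹) * a := by rw [hea]
      _ = (e * (q * a * q⁻¹ * a⁻¹) * e) * (a * (q * a * q⁻¹ * a⁻¹) * a) := by group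
      _ = (e * (q * a * q⁻¹ * a⁻¹) * e⁻¹) * (a * (q * a * q⁻¹ * a⁻¹) * a⁻¹) := by
          rw [heinv, hainv]
  rw [key]
  exact Subgroup.mul_mem _ (hQn.conj_mem _ hu e) (hQn.conj_mem _ hu a)

/-- S5049, first part -/
theorem oddTransp_part1 {D : Set G} (hD : IsOddTranspositionSet D) {a : G} (ha : a ∈ D) :
    ∀ e ∈ commutingMembers D a, ∀ q ∈ ⁅pCore 2 G, Subgroup.zpowers a⁆, e * q = q * e := by
  rintro e ⟨he, hea⟩
  have hle : ⁅pCore 2 G, Subgroup.zpowers a⁆ ≤ Subgroup.centralizer ({e} : Set G) := by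
    rw [Subgroup.commutator_le]
    intro q hq z hz
    obtain ⟨k, rfl⟩ := Subgroup.mem_zpowers_iff.1 hz
    rw [Subgroup.mem_centralizer_iff]
    intro h hh
    rw [Set.mem_singleton_iff] at hh
    rw [hh]
    have h1 : Commute e (q * a * q⁻¹) := oddTransp_commute_conj hD ha he hea hq
    have h2 : Commute e a := hea
    have e1 : ⁅q, a ^ k⁆ = (q * a * q⁻¹) ^ k * (a ^ k)⁻¹ := by
      rw [commutatorElement_def, conj_zpow]
    rw [e1]
    exact ((h1.zpow_right k).mul_right (h2.zpow_right k).inv_right).eq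
  intro q hq
  have := hle hq
  rw [Subgroup.mem_centralizer_iff] at this
  exact this e rfl

theorem mul_mul_self_of_commute {x y : G} (hx : x * x = 1) (hy : y * y = 1) (h : x * y = y * x) :
    (x * y) * (x * y) = 1 := by
  calc (x * y) * (x * y) = x * (y * x) * y := by group
    _ = x * (x * y) * y := by rw [h]
    _ = (x * x) * (y * y) := by group
    _ = 1 := by rw [hx, hy, one_mul]

/-- S5049, second part -/
theorem oddTransp_part2 {D : Set G} (hD : IsOddTranspositionSet D) {a : G} (ha : a ∈ D) :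
    ∀ b ∈ oddPartners D a,
      pCore 2 G ⊓ Subgroup.centralizer {a * b} =
        pCore 2 G ⊓ Subgroup.centralizer {a} ⊓ Subgroup.centralizer {b} := by
  rintro b ⟨hb, hba, hodd⟩
  have hQn := pCore_normal8 2 G
  have hQp := pCore_isPGroup8 2 G
  have haa := rootInv_mul_self hD.1 ha
  have hbb := rootInv_mul_self hD.1 hb
  have hainv := rootInv_inv hD.1 ha
  have hbinv := rootInv_inv hD.1 hb
  ext q
  simp only [Subgroup.mem_inf, Subgroup.mem_centralizer_iff, Set.mem_singleton_iff, forall_eq]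
  constructor
  · rintro ⟨hq, hqr⟩
    -- `hqr : a * b * q = q * (a * b)`
    have ha' : q * a * q⁻¹ ∈ D := hD.1.conj_mem a ha q
    have ha'a' := rootInv_mul_self hD.1 ha'
    have ht : q * a * q⁻¹ * a ∈ pCore 2 G := by
      have h1 : a * q⁻¹ * a⁻¹ ∈ pCore 2 G := hQn.conj_mem _ (Subgroup.inv_mem _ hq) a
      have e1 : q * a * q⁻¹ * a = q * (a * q⁻¹ * a⁻¹) := by rw [hainv]; group
      rw [e1]
      exact Subgroup.mul_mem _ hq h1
    have hcomm : q * a * q⁻¹ * a = a * (q * a * q⁻¹) := by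
      apply oddTransp_commute_of_two_elt hD ha' ha
      obtain ⟨k, hk⟩ := hQp ⟨_, ht⟩
      refine ⟨k, ?_⟩
      have := congrArg Subtype.val hk
      simpa using this
    have htt : (q * a * q⁻¹ * a) * (q * a * q⁻¹ * a) = 1 :=
      mul_mul_self_of_commute ha'a' haa hcomm
    have h1 : SemiconjBy a (a * b) (a * b)⁻¹ := by
      show a * (a * b) = (a * b)⁻¹ * a
      calc a * (a * b) = (a * a) * b := by group
        _ = b := by rw [haa, one_mul]
        _ = b⁻¹ := hbinv.symm
        _ = (a * b)⁻¹ * a := by group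
    have h2 : SemiconjBy q (a * b) (a * b) := hqr.symm
    have h2' : SemiconjBy q⁻¹ (a * b) (a * b) := h2.inv_symm_left
    have h3 : SemiconjBy (q * a * q⁻¹) (a * b) (a * b)⁻¹ :=
      (h2.inv_right.mul_left h1).mul_left h2'
    have h4 : SemiconjBy (q * a * q⁻¹ * a) (a * b) (a * b) := by
      have := h3.inv_right.mul_left h1
      rwa [inv_inv] at this
    have htr : Commute (q * a * q⁻¹ * a) (a * b) := h4
    have heq : q * a * q⁻¹ * b = (q * a * q⁻¹ * a) * (a * b) := by
      calc q * a * q⁻¹ * b = q * a * q⁻¹ * 1 * b := by group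
        _ = q * a * q⁻¹ * (a * a) * b := by rw [haa]
        _ = (q * a * q⁻¹ * a) * (a * b) := by group
    have ht1 : q * a * q⁻¹ * a = 1 := by
      by_contra hne
      have : Fact (Nat.Prime 2) := ⟨Nat.prime_two⟩
      have hot : orderOf (q * a * q⁻¹ * a) = 2 := by
        apply orderOf_eq_prime _ hne
        rw [pow_two]
        exact htt
      have hcop : (orderOf (q * a * q⁻¹ * a)).Coprime (orderOf (a * b)) := by
        rw [hot]
        exact Nat.coprime_two_left.2 hodd
      have hord := htr.orderOf_mul_eq_mul_orderOf_of_coprime hcop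
      rw [hot, ← heq] at hord
      rcases hD.1.pair _ ha' b hb with h | h | h
      · have h5 := mul_mul_self_of_commute ha'a' hbb h
        have h6 : orderOf (q * a * q⁻¹ * b) ∣ 2 := by
          apply orderOf_dvd_of_pow_eq_one
          rw [pow_two]
          exact h5
        rw [hord] at h6
        have h7 : orderOf (a * b) ∣ 1 := by
          have := Nat.dvd_of_mul_dvd_mul_left (by norm_num : 0 < 2) (by simpa using h6 : 2 * orderOf (a * b) ∣ 2 * 1)
          exact this
        have h8 : orderOf (a * b) = 1 := Nat.dvd_one.1 h7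
        rw [orderOf_eq_one_iff] at h8
        apply hba
        have h9 := mul_eq_one_iff_eq_inv.1 h8
        rw [hbinv] at h9
        exact h9.symm
      · rw [hord] at h
        exact (Nat.not_odd_iff_even.2 (even_two_mul _)) h
      · exact hD.2 _ ha' b hb h.1
    have hqa : a * q = q * a := by
      calc a * q = (q * a * q⁻¹ * a)⁻¹ * (q * a * q⁻¹ * (a * a)) * q := by group
        _ = q * a := by rw [ht1, haa]; group
    refine ⟨⟨hq, hqa⟩, ?_⟩
    calc b * q = a⁻¹ * (a * b * q) := by group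
      _ = a⁻¹ * (q * (a * b)) := by rw [hqr]
      _ = a⁻¹ * (q * a) * b := by group
      _ = a⁻¹ * (a * q) * b := by rw [hqa]
      _ = q * b := by group
  · rintro ⟨⟨hq, hqa⟩, hqb⟩
    refine ⟨hq, ?_⟩
    rw [mul_assoc, hqb, ← mul_assoc, hqa, mul_assoc]

end Cfsg.Agent.Lib.Helper8
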