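import Mathlib
import Cfsg.Prelude.Def_SporadicB
import Cfsg.Agent.Lib.Helper8.S4Hom

set_option autoImplicit false

namespace Cfsg.Agent.Lib.Helper8

open Cfsg Equiv

/-- `z'` is the unique other member commuting with `z`, and has the same commuting set -/
def TPair8 {G : Type*} [Group G] (D : Set G) (z z' : G) : Prop :=
  z ∈ D ∧ z' ∈ D ∧ z ≠ z' ∧ (∀ w ∈ D, Commute z w ↔ (w = z ∨ w = z')) ∧
    (∀ w ∈ D, Commute z' w ↔ (w = z ∨ w = z'))

theorem tpair_conj8 {G : Type*} [Group G] {D : Set G}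
    (hconj : ∀ g : G, ∀ w ∈ D, g * w * g⁻¹ ∈ D)
    {z z' : G} (h : TPair8 D z z') (g : G) : TPair8 D (g * z * g⁻¹) (g * z' * g⁻¹) := by
  obtain ⟨hz, hz', hne, h1, h2⟩ := h
  have key : ∀ (u v : G), Commute (g * u * g⁻¹) v ↔ Commute u (g⁻¹ * v * g) := by
    intro u v
    constructor
    · intro hc
      have h3 := hc.eq
      show u * (g⁻¹ * v * g) = (g⁻¹ * v * g) * u
      calc u * (g⁻¹ * v * g) = g⁻¹ * ((g * u * g⁻¹) * v) * g := by group
        _ = g⁻¹ * (v * (g * u * g⁻¹)) * g := by rw [h3]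
        _ = (g⁻¹ * v * g) * u := by group
    · intro hc
      have h3 := hc.eq
      show (g * u * g⁻¹) * v = v * (g * u * g⁻¹)
      calc (g * u * g⁻¹) * v = g * (u * (g⁻¹ * v * g)) * g⁻¹ := by group
        _ = g * ((g⁻¹ * v * g) * u) * g⁻¹ := by rw [h3]
        _ = v * (g * u * g⁻¹) := by group
  have e1 : ∀ (u v : G), g⁻¹ * v * g = u ↔ v = g * u * g⁻¹ := by
    intro u v
    constructor
    · intro h; rw [← h]; group
    · intro h; rw [h]; group
  have hw' : ∀ w ∈ D, g⁻¹ * w * g ∈ D := by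
    intro w hw
    have h3 := hconj g⁻¹ w hw
    rwa [inv_inv] at h3
  refine ⟨hconj g z hz, hconj g z' hz', ?_, ?_, ?_⟩
  · intro h
    exact hne (mul_left_cancel (mul_right_cancel h))
  · intro w hw
    rw [key, h1 _ (hw' w hw), e1, e1]
  · intro w hw
    rw [key, h2 _ (hw' w hw), e1, e1]

theorem tpair_unique8 {G : Type*} [Group G] {D : Set G} {z z' z'' : G} (h : TPair8 D z z')
    (h' : TPair8 D z z'') : z' = z'' := by
  obtain ⟨-, -, -, h1, -⟩ := h
  obtain ⟨-, hz'', hne, h1', -⟩ := h'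
  have hc : Commute z z'' := (h1' z'' hz'').mpr (Or.inr rfl)
  rcases (h1 z'' hz'').mp hc with e | e
  · exact absurd e.symm hne
  · exact e.symm

theorem tpair_key8 {G : Type*} [Group G] {D : Set G} (hD : IsThreeTranspositionSet D)
    (hconj : ∀ g : G, ∀ w ∈ D, g * w * g⁻¹ ∈ D) {a a' z z' : G} (ha : TPair8 D a a')
    (hz : TPair8 D z z') (hza : z ≠ a) (hza' : z ≠ a') :
    z' = (a * a') * z * (a * a')⁻¹ := by
  have hsq : ∀ w ∈ D, w * w = 1 := by
    intro w hw
    have h := hD.1 w hw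
    have h2 : w ^ 2 = 1 := by rw [← h]; exact pow_orderOf_eq_one w
    rw [← sq]; exact h2
  have ha0 := ha
  have hz0 := hz
  obtain ⟨haD, ha'D, hane, ha1, ha2⟩ := ha
  obtain ⟨hzD, hz'D, hzne, hz1, hz2⟩ := hz
  have hnc : ¬ Commute a z := fun h => by
    rcases (ha1 z hzD).mp h with e | e
    · exact hza e
    · exact hza' e
  have hnc' : ¬ Commute a' z := fun h => by
    rcases (ha2 z hzD).mp h with e | e
    · exact hza e
    · exact hza' e
  have hb : a * z * a = z * a * z := by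
    rcases hD.2 a haD z hzD with h | h
    · exact absurd (comm_of_sq8 (hsq a haD) (hsq z hzD) h) hnc
    · exact braid_of_cube8 (hsq a haD) (hsq z hzD) h
  have hb' : a' * z * a' = z * a' * z := by
    rcases hD.2 a' ha'D z hzD with h | h
    · exact absurd (comm_of_sq8 (hsq a' ha'D) (hsq z hzD) h) hnc'
    · exact braid_of_cube8 (hsq a' ha'D) (hsq z hzD) h
  have hzi : z⁻¹ = z := inv_eq_of_mul_eq_one_right (hsq z hzD)
  have hai : a⁻¹ = a := inv_eq_of_mul_eq_one_right (hsq a haD)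
  have ha'i : a'⁻¹ = a' := inv_eq_of_mul_eq_one_right (hsq a' ha'D)
  have p1 : TPair8 D (z * a * z⁻¹) (z * a' * z⁻¹) := tpair_conj8 hconj ha0 z
  have p2 : TPair8 D (a * z * a⁻¹) (a * z' * a⁻¹) := tpair_conj8 hconj hz0 a
  rw [hzi] at p1
  rw [hai] at p2
  rw [← hb] at p1
  have e := tpair_unique8 p1 p2
  rw [mul_inv_rev, hai, ha'i]
  have h0 : a * (a * z' * a) * a = z' := by
    calc a * (a * z' * a) * a = (a * a) * z' * (a * a) := by group
      _ = z' := by rw [hsq a haD, one_mul, mul_one]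
  calc z' = a * (a * z' * a) * a := h0.symm
    _ = a * (z * a' * z) * a := by rw [e]
    _ = a * (a' * z * a') * a := by rw [hb']
    _ = a * a' * z * (a' * a) := by group

set_option maxRecDepth 1000000 in
theorem s4_rel8 : (swap (0 : Fin 4) 1 * swap 1 2 * (swap (0 : Fin 4) 1)⁻¹) *
      (swap (0 : Fin 4) 1 * ((swap (0 : Fin 4) 1 * swap 2 3) * swap 1 2 *
        (swap (0 : Fin 4) 1 * swap 2 3)⁻¹) * (swap (0 : Fin 4) 1)⁻¹) =
    (swap (0 : Fin 4) 1 * swap 2 3) * (swap 1 2 * ((swap (0 : Fin 4) 1 * swap 2 3) * swap 1 2 *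
        (swap (0 : Fin 4) 1 * swap 2 3)⁻¹)) := by
  decide

theorem s4_of_pair8 {G : Type*} [Group G] {D : Set G}
    (hD : IsThreeTranspositionClass D) {d : G} (hd : d ∈ D)
    (hV : {y : G | y ∈ D ∧ Commute d y} = {v : G | v ∈ D ∧ ∀ e ∈ D, Commute v e ↔ Commute d e})
    (hm : {y : G | y ∈ D ∧ Commute d y}.ncard = 2) : Nonempty (G ≃* Equiv.Perm (Fin 4)) := by
  obtain ⟨hT, ⟨d₀, hd₀, hcls⟩, hgen⟩ := hD
  have hconj : ∀ g : G, ∀ w ∈ D, g * w * g⁻¹ ∈ D := by
    intro g w hw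
    rw [hcls] at hw ⊢
    have hw2 : IsConj d₀ w := hw
    show IsConj d₀ (g * w * g⁻¹)
    exact hw2.trans (isConj_iff.mpr ⟨g, rfl⟩)
  have hall : ∀ w ∈ D, ∃ g : G, g * d * g⁻¹ = w := by
    intro w hw
    rw [hcls] at hw
    have hd' := hd
    rw [hcls] at hd'
    have hw2 : IsConj d₀ w := hw
    have hd2 : IsConj d₀ d := hd'
    exact isConj_iff.mp (hd2.symm.trans hw2)
  have hsq : ∀ w ∈ D, w * w = 1 := by
    intro w hw
    have h := hT.1 w hw
    have h2 : w ^ 2 = 1 := by rw [← h]; exact pow_orderOf_eq_one w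
    rw [← sq]; exact h2
  obtain ⟨u, v, huv, hC⟩ := Set.ncard_eq_two.mp hm
  have hdC : d ∈ ({y : G | y ∈ D ∧ Commute d y} : Set G) := ⟨hd, Commute.refl d⟩
  obtain ⟨d', hd'ne, hC'⟩ : ∃ d' : G, d ≠ d' ∧ {y : G | y ∈ D ∧ Commute d y} = {d, d'} := by
    have h := hdC
    rw [hC, Set.mem_insert_iff, Set.mem_singleton_iff] at h
    rcases h with h | h
    · exact ⟨v, by rw [h]; exact huv, by rw [hC, h]⟩
    · exact ⟨u, by rw [h]; exact huv.symm, by rw [hC, h, Set.pair_comm]⟩
  have hd'C : d' ∈ ({y : G | y ∈ D ∧ Commute d y} : Set G) := by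
    rw [hC']; exact Set.mem_insert_of_mem _ rfl
  have hd'D : d' ∈ D := hd'C.1
  have hdd' : Commute d d' := hd'C.2
  have hd'V : ∀ e ∈ D, Commute d' e ↔ Commute d e := by
    have h := hd'C
    rw [hV] at h
    exact h.2
  have hP : TPair8 D d d' := by
    have hmem : ∀ w ∈ D, Commute d w ↔ (w = d ∨ w = d') := by
      intro w hw
      constructor
      · intro hc
        have h : w ∈ ({y : G | y ∈ D ∧ Commute d y} : Set G) := ⟨hw, hc⟩
        rw [hC'] at h
        rwa [Set.mem_insert_iff, Set.mem_singleton_iff] at h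
      · rintro (e | e)
        · subst e; exact Commute.refl _
        · subst e; exact hdd'
    exact ⟨hd, hd'D, hd'ne, hmem, fun w hw => (hd'V w hw).trans (hmem w hw)⟩
  have hpartner : ∀ w ∈ D, ∃ w', TPair8 D w w' := by
    intro w hw
    obtain ⟨g, rfl⟩ := hall w hw
    exact ⟨_, tpair_conj8 hconj hP g⟩
  obtain ⟨e, heD, hed, hed'⟩ : ∃ e ∈ D, e ≠ d ∧ e ≠ d' := by
    by_contra hcon
    push_neg at hcon
    have hcent : D ⊆ (Subgroup.centralizer ({d} : Set G) : Set G) := by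
      intro w hw
      rw [SetLike.mem_coe, Subgroup.mem_centralizer_iff]
      intro h hh
      rw [Set.mem_singleton_iff] at hh
      rw [hh]
      by_cases h1 : w = d
      · rw [h1]
      · rw [hcon w hw h1]; exact hdd'.eq
    have htop : Subgroup.closure D ≤ Subgroup.centralizer ({d} : Set G) :=
      (Subgroup.closure_le _).mpr hcent
    rw [hgen] at htop
    obtain ⟨g, hg⟩ := hall d' hd'D
    have hgc : g ∈ Subgroup.centralizer ({d} : Set G) := htop (Subgroup.mem_top g)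
    have h2 := Subgroup.mem_centralizer_iff.mp hgc d rfl
    apply hd'ne
    rw [← hg, ← h2, mul_inv_cancel_right]
  obtain ⟨e', hPe⟩ := hpartner e heD
  have hnc1 : ¬ Commute d e := fun h => by
    rcases (hP.2.2.2.1 e heD).mp h with h' | h'
    · exact hed h'
    · exact hed' h'
  have hnc2 : ¬ Commute e d' := fun h => by
    have h2 : Commute d' e := h.symm
    rcases (hP.2.2.2.2 e heD).mp h2 with h' | h'
    · exact hed h'
    · exact hed' h'
  obtain ⟨φ, hφinj, hφ0, hφ1, hφ2⟩ := s4_hom8 hT hd heD hd'D hd'ne hdd' hnc1 hnc2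
  have he' : e' = (d * d') * e * (d * d')⁻¹ := tpair_key8 hT hconj hP hPe hed hed'
  have hPx : TPair8 D (d * e * d⁻¹) (d * e' * d⁻¹) := tpair_conj8 hconj hPe d
  have hemem : e ∈ φ.range := ⟨_, hφ1⟩
  have hdmem : d ∈ φ.range := ⟨_, hφ0⟩
  have hd'mem : d' ∈ φ.range := ⟨_, hφ2⟩
  have he'mem : e' ∈ φ.range := by
    rw [he']
    exact φ.range.mul_mem (φ.range.mul_mem (φ.range.mul_mem hdmem hd'mem) hemem)
      (φ.range.inv_mem (φ.range.mul_mem hdmem hd'mem))
  have hxmem : d * e * d⁻¹ ∈ φ.range :=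
    φ.range.mul_mem (φ.range.mul_mem hdmem hemem) (φ.range.inv_mem hdmem)
  have hx'mem : d * e' * d⁻¹ ∈ φ.range :=
    φ.range.mul_mem (φ.range.mul_mem hdmem he'mem) (φ.range.inv_mem hdmem)
  have hrel : (d * e * d⁻¹) * (d * e' * d⁻¹) = (d * d') * (e * e') := by
    have h := congrArg φ s4_rel8
    simp only [map_mul, map_inv, hφ0, hφ1, hφ2] at h
    rw [← he'] at h
    exact h
  have ht2 : (d * d') * (d * d') = 1 := by
    calc (d * d') * (d * d') = d * (d' * d) * d' := by group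
      _ = d * (d * d') * d' := by rw [← hdd'.eq]
      _ = (d * d) * (d' * d') := by group
      _ = 1 := by rw [hsq d hd, hsq d' hd'D, one_mul]
  have hrange : ∀ z ∈ D, z ∈ φ.range := by
    intro z hzD
    by_contra hz
    obtain ⟨z', hPz⟩ := hpartner z hzD
    have hzd : z ≠ d := fun h => hz (by rw [h]; exact hdmem)
    have hzd' : z ≠ d' := fun h => hz (by rw [h]; exact hd'mem)
    have hze : z ≠ e := fun h => hz (by rw [h]; exact hemem)
    have hze' : z ≠ e' := fun h => hz (by rw [h]; exact he'mem)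
    have hzx : z ≠ d * e * d⁻¹ := fun h => hz (by rw [h]; exact hxmem)
    have hzx' : z ≠ d * e' * d⁻¹ := fun h => hz (by rw [h]; exact hx'mem)
    have k1 := tpair_key8 hT hconj hP hPz hzd hzd'
    have k2 := tpair_key8 hT hconj hPe hPz hze hze'
    have k3 := tpair_key8 hT hconj hPx hPz hzx hzx'
    rw [hrel] at k3
    have h1 : z' = (d * d') * (e * e' * z * (e * e')⁻¹) * (d * d')⁻¹ := by rw [k3]; group
    rw [← k2] at h1
    have h2 : z' = (d * d') * ((d * d') * z * (d * d')⁻¹) * (d * d')⁻¹ := by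
      rw [← k1]; exact h1
    have h3 : (d * d') * ((d * d') * z * (d * d')⁻¹) * (d * d')⁻¹ =
        ((d * d') * (d * d')) * z * ((d * d') * (d * d'))⁻¹ := by group
    rw [h3, ht2, one_mul, inv_one, mul_one] at h2
    exact hPz.2.2.1 h2.symm
  have hsurj : Function.Surjective φ := by
    rw [← MonoidHom.range_eq_top]
    have h1 : Subgroup.closure D ≤ φ.range := (Subgroup.closure_le _).mpr (fun z hz => hrange z hz)
    rw [hgen] at h1
    exact top_le_iff.mp h1
  exact ⟨(MulEquiv.ofBijective φ ⟨hφinj, hsurj⟩).symm⟩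

end Cfsg.Agent.Lib.Helper8
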