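import Mathlib
import Cfsg.Prelude.Def_FusionSystem
import Cfsg.Prelude.Def_TwoFusion
import Cfsg.Agent.Lib.Helper8.Prod1
import Cfsg.Agent.Lib.Helper8.PIdx2

set_option autoImplicit false

namespace Cfsg.Agent.Lib.Helper8

open Cfsg Cfsg.FusionSystem

variable {Ω : Type*} [Group Ω] {S : Subgroup Ω}

/-- strong invariance of the centralizing factor subsystem -/
theorem si_factor_cent8 (F : FusionSystem S) [Finite S] (p : ℕ) [Fact p.Prime] (hS : IsPGroup p S)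
    (hF : F.IsSaturated p) (S₁ S₂ : Subgroup Ω) (h₁ : F.StronglyClosed S₁)
    (h₂ : F.StronglyClosed S₂) (hcomm : ∀ a ∈ S₁, ∀ b ∈ S₂, a * b = b * a)
    (R' : FusionSystem S₁) (hR' : ∀ P : Subgroup Ω, P ≤ S₁ → R'.Hom P = F.centralizerHom S₂ P)
    (P Q : Subgroup Ω) (hPQ : P ≤ Q) (hQ : Q ≤ S₁) (φ : P →* Ω) (hφ : φ ∈ R'.Hom P)
    (hφQ : ∀ x : P, φ x ∈ Q) (ψ : Q →* Ω) (hψ : ψ ∈ F.Hom Q) :
    ∃ χ ∈ R'.Hom ((P.subgroupOf Q).map ψ),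
      ∀ (x : P) (hx : ψ (Subgroup.inclusion hPQ x) ∈ (P.subgroupOf Q).map ψ),
        χ ⟨ψ (Subgroup.inclusion hPQ x), hx⟩ = ψ ⟨φ x, hφQ x⟩ := by
  have hP : P ≤ S₁ := hPQ.trans hQ
  rw [hR' P hP] at hφ
  obtain ⟨hφF, hφP, hφC, φ', hφ', hφ1, hφ2⟩ := hφ
  obtain ⟨σ, hσ, hσ1⟩ := ext_factor8 F p hS hF S₁ S₂ h₁ h₂ hcomm hQ hψ
  obtain ⟨W, hW⟩ : ∃ W : Subgroup Ω, W = (P.subgroupOf Q).map ψ := ⟨_, rfl⟩
  rw [← hW]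
  have hWS₁ : W ≤ S₁ := by
    rw [hW]
    rintro _ ⟨z, -, rfl⟩
    exact h₁.2 Q hQ ψ hψ z
  have hWmem : ∀ x : P, ψ (Subgroup.inclusion hPQ x) ∈ W := by
    intro x
    rw [hW]
    exact ⟨_, Subgroup.mem_subgroupOf.2 x.2, rfl⟩
  have hle : P ⊔ S₂ ≤ Q ⊔ S₂ := sup_le_sup_right hPQ S₂
  have hσ₁ : σ.comp (Subgroup.inclusion hle) ∈ F.Hom (P ⊔ S₂) := fs_restrict_mem F hσ hle
  obtain ⟨ι, hι, hιinv⟩ := F.inv_mem hσ₁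
  have hι' : ∀ (y : Ω) (hy : y ∈ (σ.comp (Subgroup.inclusion hle)).range) (z : ↥(P ⊔ S₂)),
      σ (Subgroup.inclusion hle z) = y → ι ⟨y, hy⟩ = (z : Ω) := by
    intro y hy z hz
    subst hz
    exact hιinv z
  have hσS₂ : ∀ (b : Ω) (_ : b ∈ S₂), ∃ (b' : Ω) (hb' : b' ∈ S₂),
      σ ⟨b', (le_sup_right : S₂ ≤ Q ⊔ S₂) hb'⟩ = b :=
    fun b hb => sc_surj8 F h₂ le_sup_right hσ b hb
  have hle2 : W ⊔ S₂ ≤ (σ.comp (Subgroup.inclusion hle)).range := by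
    apply sup_le
    · rw [hW]
      rintro _ ⟨z, hz, rfl⟩
      have hzP : (z : Ω) ∈ P := Subgroup.mem_subgroupOf.1 hz
      refine ⟨Subgroup.inclusion le_sup_left ⟨(z : Ω), hzP⟩, ?_⟩
      exact hσ1 z
    · intro b hb
      obtain ⟨b', hb', hb'e⟩ := hσS₂ b hb
      exact ⟨Subgroup.inclusion le_sup_right ⟨b', hb'⟩, hb'e⟩
  have hκ : ι.comp (Subgroup.inclusion hle2) ∈ F.Hom (W ⊔ S₂) := fs_restrict_mem F hι hle2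
  have hκv : ∀ w : ↥(W ⊔ S₂), (ι.comp (Subgroup.inclusion hle2)) w ∈ P ⊔ S₂ := by
    intro w
    obtain ⟨z, hz⟩ := hle2 w.2
    have e : ι ⟨(w : Ω), hle2 w.2⟩ = (z : Ω) := hι' _ _ z hz
    have e' : (ι.comp (Subgroup.inclusion hle2)) w = (z : Ω) := e
    rw [e']
    exact z.2
  have hφ'v : ∀ z : ↥(P ⊔ S₂), φ' z ∈ Q ⊔ S₂ := by
    apply sup_map_mem8
    · intro x
      rw [hφ1]
      exact (le_sup_left : Q ≤ Q ⊔ S₂) (hφQ x)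
    · intro x
      rw [hφ2]
      exact (le_sup_right : S₂ ≤ Q ⊔ S₂) x.2
  have hc1 : φ'.comp ((ι.comp (Subgroup.inclusion hle2)).codRestrict (P ⊔ S₂) hκv) ∈
      F.Hom (W ⊔ S₂) := F.comp_mem hκ hφ' hκv
  have hc1v : ∀ w : ↥(W ⊔ S₂),
      (φ'.comp ((ι.comp (Subgroup.inclusion hle2)).codRestrict (P ⊔ S₂) hκv)) w ∈ Q ⊔ S₂ :=
    fun w => hφ'v _
  have hc2 : σ.comp ((φ'.comp ((ι.comp (Subgroup.inclusion hle2)).codRestrict (P ⊔ S₂)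
      hκv)).codRestrict (Q ⊔ S₂) hc1v) ∈ F.Hom (W ⊔ S₂) := F.comp_mem hc1 hσ hc1v
  obtain ⟨Θ, hΘ, hΘdef⟩ : ∃ Θ ∈ F.Hom (W ⊔ S₂), ∀ w : ↥(W ⊔ S₂),
      Θ w = σ ⟨φ' ⟨ι ⟨(w : Ω), hle2 w.2⟩, hκv w⟩, hφ'v _⟩ := ⟨_, hc2, fun w => rfl⟩
  have hΘW : ∀ x : P, Θ ⟨ψ (Subgroup.inclusion hPQ x),
      (le_sup_left : W ≤ W ⊔ S₂) (hWmem x)⟩ = ψ ⟨φ x, hφQ x⟩ := by
    intro x
    rw [hΘdef]
    have e1 : ι ⟨ψ (Subgroup.inclusion hPQ x), hle2 ((le_sup_left : W ≤ W ⊔ S₂) (hWmem x))⟩ =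
        ((Subgroup.inclusion le_sup_left x : ↥(P ⊔ S₂)) : Ω) :=
      hι' _ _ (Subgroup.inclusion le_sup_left x) (hσ1 (Subgroup.inclusion hPQ x))
    have e2 : (⟨ι ⟨ψ (Subgroup.inclusion hPQ x),
        hle2 ((le_sup_left : W ≤ W ⊔ S₂) (hWmem x))⟩,
        hκv ⟨_, (le_sup_left : W ≤ W ⊔ S₂) (hWmem x)⟩⟩ : ↥(P ⊔ S₂)) =
        Subgroup.inclusion le_sup_left x := Subtype.ext e1
    have e3 : (⟨φ' ⟨ι ⟨ψ (Subgroup.inclusion hPQ x),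
        hle2 ((le_sup_left : W ≤ W ⊔ S₂) (hWmem x))⟩,
        hκv ⟨_, (le_sup_left : W ≤ W ⊔ S₂) (hWmem x)⟩⟩, hφ'v _⟩ : ↥(Q ⊔ S₂)) =
        Subgroup.inclusion le_sup_left ⟨φ x, hφQ x⟩ :=
      Subtype.ext ((congrArg φ' e2).trans (hφ1 x))
    exact (congrArg σ e3).trans (hσ1 _)
  have hΘS₂ : ∀ (s : Ω) (hs : s ∈ S₂), Θ ⟨s, (le_sup_right : S₂ ≤ W ⊔ S₂) hs⟩ = s := by
    intro s hs
    rw [hΘdef]
    obtain ⟨b', hb', hb'e⟩ := hσS₂ s hs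
    have e1 : ι ⟨s, hle2 ((le_sup_right : S₂ ≤ W ⊔ S₂) hs)⟩ = b' :=
      hι' s _ (Subgroup.inclusion le_sup_right ⟨b', hb'⟩) hb'e
    have e2 : (⟨ι ⟨s, hle2 ((le_sup_right : S₂ ≤ W ⊔ S₂) hs)⟩,
        hκv ⟨s, (le_sup_right : S₂ ≤ W ⊔ S₂) hs⟩⟩ : ↥(P ⊔ S₂)) =
        Subgroup.inclusion le_sup_right ⟨b', hb'⟩ := Subtype.ext e1
    have e3 : (⟨φ' ⟨ι ⟨s, hle2 ((le_sup_right : S₂ ≤ W ⊔ S₂) hs)⟩,
        hκv ⟨s, (le_sup_right : S₂ ≤ W ⊔ S₂) hs⟩⟩, hφ'v _⟩ : ↥(Q ⊔ S₂)) =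
        ⟨b', (le_sup_right : S₂ ≤ Q ⊔ S₂) hb'⟩ :=
      Subtype.ext ((congrArg φ' e2).trans (hφ2 ⟨b', hb'⟩))
    exact (congrArg σ e3).trans hb'e
  refine ⟨Θ.comp (Subgroup.inclusion (le_sup_left : W ≤ W ⊔ S₂)), ?_, fun x hx => hΘW x⟩
  rw [hR' W hWS₁]
  refine ⟨fs_restrict_mem F hΘ le_sup_left, ?_, ?_, Θ, hΘ, fun y => rfl, fun s => hΘS₂ s s.2⟩
  · intro w hw
    rw [mem_centralizerIn]
    exact ⟨h₁.1 (hWS₁ hw), fun b hb => (hcomm w (hWS₁ hw) b hb).symm⟩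
  · intro y
    have hy : (y : Ω) ∈ (P.subgroupOf Q).map ψ := by
      rw [← hW]
      exact y.2
    obtain ⟨z, hz, hzy⟩ := hy
    have hzP : (z : Ω) ∈ P := Subgroup.mem_subgroupOf.1 hz
    have e : (Θ.comp (Subgroup.inclusion (le_sup_left : W ≤ W ⊔ S₂))) y =
        ψ ⟨φ ⟨(z : Ω), hzP⟩, hφQ _⟩ := by
      have h0 := hΘW ⟨(z : Ω), hzP⟩
      have e0 : (Subgroup.inclusion (le_sup_left : W ≤ W ⊔ S₂) y) =
          ⟨ψ (Subgroup.inclusion hPQ ⟨(z : Ω), hzP⟩),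
            (le_sup_left : W ≤ W ⊔ S₂) (hWmem _)⟩ := Subtype.ext hzy.symm
      exact (congrArg Θ e0).trans h0
    rw [e]
    have hin : ψ ⟨φ ⟨(z : Ω), hzP⟩, hφQ _⟩ ∈ S₁ := h₁.2 Q hQ ψ hψ _
    rw [mem_centralizerIn]
    exact ⟨h₁.1 hin, fun b hb => (hcomm _ hin b hb).symm⟩

/-- strong invariance of the full subsystem on a strongly closed subgroup -/
theorem si_factor8 (F : FusionSystem S) (S₁ : Subgroup Ω) (h₁ : F.StronglyClosed S₁)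
    (R : FusionSystem S₁) (hR : ∀ P : Subgroup Ω, P ≤ S₁ → R.Hom P = F.Hom P) :
    StrongInv8 F R := by
  intro P Q hPQ hQ φ hφ hφQ ψ hψ
  have hP : P ≤ S₁ := hPQ.trans hQ
  rw [hR P hP] at hφ
  obtain ⟨W, hW⟩ : ∃ W : Subgroup Ω, W = (P.subgroupOf Q).map ψ := ⟨_, rfl⟩
  rw [← hW]
  have hWS₁ : W ≤ S₁ := by
    rw [hW]
    rintro _ ⟨z, -, rfl⟩
    exact h₁.2 Q hQ ψ hψ z
  have hψ₁ : ψ.comp (Subgroup.inclusion hPQ) ∈ F.Hom P := fs_restrict_mem F hψ hPQ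
  obtain ⟨ι, hι, hιinv⟩ := F.inv_mem hψ₁
  have hWle : W ≤ (ψ.comp (Subgroup.inclusion hPQ)).range := by
    rw [hW]
    rintro _ ⟨z, hz, rfl⟩
    exact ⟨⟨(z : Ω), Subgroup.mem_subgroupOf.1 hz⟩, rfl⟩
  have hκ : ι.comp (Subgroup.inclusion hWle) ∈ F.Hom W := fs_restrict_mem F hι hWle
  have hι' : ∀ (y : Ω) (hy : y ∈ (ψ.comp (Subgroup.inclusion hPQ)).range) (z : P),
      ψ (Subgroup.inclusion hPQ z) = y → ι ⟨y, hy⟩ = (z : Ω) := by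
    intro y hy z hz
    subst hz
    exact hιinv z
  have hκv : ∀ w : W, (ι.comp (Subgroup.inclusion hWle)) w ∈ P := by
    intro w
    obtain ⟨z, hz⟩ := hWle w.2
    have e : ι ⟨(w : Ω), hWle w.2⟩ = (z : Ω) := hι' _ _ z hz
    have e' : (ι.comp (Subgroup.inclusion hWle)) w = (z : Ω) := e
    rw [e']
    exact z.2
  have hc1 : φ.comp ((ι.comp (Subgroup.inclusion hWle)).codRestrict P hκv) ∈ F.Hom W :=
    F.comp_mem hκ hφ hκv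
  have hc1v : ∀ w : W, (φ.comp ((ι.comp (Subgroup.inclusion hWle)).codRestrict P hκv)) w ∈ Q :=
    fun w => hφQ _
  have hc2 : ψ.comp ((φ.comp ((ι.comp (Subgroup.inclusion hWle)).codRestrict P hκv)).codRestrict
      Q hc1v) ∈ F.Hom W := F.comp_mem hc1 hψ hc1v
  have hc2R : ψ.comp ((φ.comp ((ι.comp (Subgroup.inclusion hWle)).codRestrict P hκv)).codRestrict
      Q hc1v) ∈ R.Hom W := by
    rw [hR W hWS₁]
    exact hc2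
  refine ⟨_, hc2R, fun x hx => ?_⟩
  have e1 : ι ⟨ψ (Subgroup.inclusion hPQ x), hWle hx⟩ = (x : Ω) := hι' _ _ x rfl
  have e2 : (⟨ι ⟨ψ (Subgroup.inclusion hPQ x), hWle hx⟩, hκv ⟨_, hx⟩⟩ : P) = x := Subtype.ext e1
  have e3 : (⟨φ ⟨ι ⟨ψ (Subgroup.inclusion hPQ x), hWle hx⟩, hκv ⟨_, hx⟩⟩, hc1v ⟨_, hx⟩⟩ : Q) =
      ⟨φ x, hφQ x⟩ := Subtype.ext (congrArg φ e2)
  exact congrArg ψ e3

/-- an automorphism maps elements commuting with the subgroup to such elements -/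
theorem aut_comm8 {T : Subgroup Ω} (α : MulAut T) (c : T)
    (hc : ∀ a ∈ T, a * (c : Ω) = (c : Ω) * a) :
    ∀ a ∈ T, a * ((α c : T) : Ω) = ((α c : T) : Ω) * a := by
  intro a ha
  have h3 : (α.symm ⟨a, ha⟩ : T) * c = c * (α.symm ⟨a, ha⟩ : T) :=
    Subtype.ext (hc _ (α.symm ⟨a, ha⟩).2)
  have h4 : α ((α.symm ⟨a, ha⟩ : T) * c) = α (c * (α.symm ⟨a, ha⟩ : T)) := congrArg α h3
  rw [map_mul, map_mul, MulEquiv.apply_symm_apply] at h4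
  exact congrArg (fun z : T => (z : Ω)) h4

/-- extension condition for the centralizing factor subsystem in `F` -/
theorem ext_cond_F8 (F : FusionSystem S) [Finite S] (S₁ S₂ : Subgroup Ω) (hS₁S : S₁ ≤ S)
    (hS₂S : S₂ ≤ S) (hcomm : ∀ a ∈ S₁, ∀ b ∈ S₂, a * b = b * a) (hsup : S₁ ⊔ S₂ = S)
    (hdec : ∀ s ∈ S, ∃ s₁ ∈ S₁, ∃ s₂ ∈ S₂, s = s₁ * s₂)
    (R' : FusionSystem S₁) (hR' : ∀ P : Subgroup Ω, P ≤ S₁ → R'.Hom P = F.centralizerHom S₂ P)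
    (α : MulAut S₁) (hα : α ∈ R'.autGroup S₁) :
    ∃ β ∈ F.autGroup (S₁ ⊔ centralizerIn S S₁),
      (∀ x : S₁, ((β (Subgroup.inclusion le_sup_left x) : ↥(S₁ ⊔ centralizerIn S S₁)) : Ω) =
        ((α x : S₁) : Ω)) ∧
      ∀ c : ↥(S₁ ⊔ centralizerIn S S₁), (c : Ω) ∈ centralizerIn S S₁ →
        (c : Ω)⁻¹ * ((β c : ↥(S₁ ⊔ centralizerIn S S₁)) : Ω) ∈
          S₁ ⊓ Subgroup.centralizer (S₁ : Set Ω) := by
  have hαR : S₁.subtype.comp α.toMonoidHom ∈ R'.Hom S₁ := (mem_autGroup_iff R' le_rfl α).1 hα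
  rw [hR' S₁ le_rfl] at hαR
  obtain ⟨-, -, -, ψ, hψ, hψ1, hψ2⟩ := hαR
  have hA : S₁ ⊔ centralizerIn S S₁ ≤ S₁ ⊔ S₂ := by
    rw [hsup]
    exact sup_le hS₁S (centralizerIn_le S S₁)
  have hψ' : ψ.comp (Subgroup.inclusion hA) ∈ F.Hom (S₁ ⊔ centralizerIn S S₁) :=
    fs_restrict_mem F hψ hA
  have hS₂A : S₂ ≤ S₁ ⊔ centralizerIn S S₁ := by
    intro b hb
    apply (le_sup_right : centralizerIn S S₁ ≤ S₁ ⊔ centralizerIn S S₁)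
    rw [mem_centralizerIn]
    exact ⟨hS₂S hb, fun a ha => hcomm a ha b hb⟩
  have hψv : ∀ z : ↥(S₁ ⊔ S₂), ψ z ∈ S₁ ⊔ centralizerIn S S₁ := by
    apply sup_map_mem8
    · intro x
      rw [hψ1]
      exact (le_sup_left : S₁ ≤ S₁ ⊔ centralizerIn S S₁) (α x).2
    · intro x
      rw [hψ2]
      exact hS₂A x.2
  have hrange : (ψ.comp (Subgroup.inclusion hA)).range ≤ S₁ ⊔ centralizerIn S S₁ := by
    rintro _ ⟨z, rfl⟩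
    exact hψv _
  obtain ⟨β, hβ, hβ1⟩ := fs_exists_aut_of_range_le F hψ' hrange
  refine ⟨β, hβ, fun x => ?_, fun c hc => ?_⟩
  · exact (hβ1 _).trans (hψ1 x)
  · obtain ⟨s₁, hs₁, s₂, hs₂, hcs⟩ := hdec (c : Ω) (centralizerIn_le S S₁ hc)
    have hc' : (Subgroup.inclusion hA c) =
        (Subgroup.inclusion le_sup_left ⟨s₁, hs₁⟩ : ↥(S₁ ⊔ S₂)) *
          Subgroup.inclusion le_sup_right ⟨s₂, hs₂⟩ := Subtype.ext hcs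
    have e1 : ψ (Subgroup.inclusion le_sup_left ⟨s₁, hs₁⟩) = ((α ⟨s₁, hs₁⟩ : S₁) : Ω) :=
      hψ1 ⟨s₁, hs₁⟩
    have e2 : ψ (Subgroup.inclusion le_sup_right ⟨s₂, hs₂⟩) = s₂ := hψ2 ⟨s₂, hs₂⟩
    have hval : ψ (Subgroup.inclusion hA c) = ((α ⟨s₁, hs₁⟩ : S₁) : Ω) * s₂ := by
      rw [hc', map_mul, e1, e2]
    have hval' : ((β c : ↥(S₁ ⊔ centralizerIn S S₁)) : Ω) = ((α ⟨s₁, hs₁⟩ : S₁) : Ω) * s₂ :=
      (hβ1 c).trans hval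
    rw [hval', hcs]
    have hs₁Z : ∀ a ∈ S₁, a * ((⟨s₁, hs₁⟩ : S₁) : Ω) = ((⟨s₁, hs₁⟩ : S₁) : Ω) * a := by
      intro a ha
      have h1 : a * (c : Ω) = (c : Ω) * a := (mem_centralizerIn.1 hc).2 a ha
      have h2 : a * s₂ = s₂ * a := hcomm a ha s₂ hs₂
      rw [hcs] at h1
      show a * s₁ = s₁ * a
      calc a * s₁ = a * (s₁ * s₂) * s₂⁻¹ := by group
        _ = s₁ * s₂ * a * s₂⁻¹ := by rw [h1]
        _ = s₁ * (s₂ * a) * s₂⁻¹ := by group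
        _ = s₁ * (a * s₂) * s₂⁻¹ := by rw [h2]
        _ = s₁ * a := by group
    have hαZ := aut_comm8 α ⟨s₁, hs₁⟩ hs₁Z
    have ht : s₁⁻¹ * ((α ⟨s₁, hs₁⟩ : S₁) : Ω) ∈ S₁ :=
      S₁.mul_mem (S₁.inv_mem hs₁) (α ⟨s₁, hs₁⟩).2
    have hts : s₁⁻¹ * ((α ⟨s₁, hs₁⟩ : S₁) : Ω) * s₂ = s₂ * (s₁⁻¹ * ((α ⟨s₁, hs₁⟩ : S₁) : Ω)) :=
      hcomm _ ht s₂ hs₂
    have e : (s₁ * s₂)⁻¹ * (((α ⟨s₁, hs₁⟩ : S₁) : Ω) * s₂) =
        s₁⁻¹ * ((α ⟨s₁, hs₁⟩ : S₁) : Ω) := by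
      calc (s₁ * s₂)⁻¹ * (((α ⟨s₁, hs₁⟩ : S₁) : Ω) * s₂)
          = s₂⁻¹ * (s₁⁻¹ * ((α ⟨s₁, hs₁⟩ : S₁) : Ω) * s₂) := by group
        _ = s₂⁻¹ * (s₂ * (s₁⁻¹ * ((α ⟨s₁, hs₁⟩ : S₁) : Ω))) := by rw [hts]
        _ = s₁⁻¹ * ((α ⟨s₁, hs₁⟩ : S₁) : Ω) := by group
    rw [e]
    refine Subgroup.mem_inf.2 ⟨ht, Subgroup.mem_centralizer_iff.2 (fun a ha => ?_)⟩
    have hz1 : a * s₁ = s₁ * a := hs₁Z a ha
    have hz2 := hαZ a ha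
    calc a * (s₁⁻¹ * ((α ⟨s₁, hs₁⟩ : S₁) : Ω))
        = s₁⁻¹ * (s₁ * a) * s₁⁻¹ * ((α ⟨s₁, hs₁⟩ : S₁) : Ω) := by group
      _ = s₁⁻¹ * (a * s₁) * s₁⁻¹ * ((α ⟨s₁, hs₁⟩ : S₁) : Ω) := by rw [hz1]
      _ = s₁⁻¹ * (a * ((α ⟨s₁, hs₁⟩ : S₁) : Ω)) := by group
      _ = s₁⁻¹ * (((α ⟨s₁, hs₁⟩ : S₁) : Ω) * a) := by rw [hz2]
      _ = s₁⁻¹ * ((α ⟨s₁, hs₁⟩ : S₁) : Ω) * a := by group

/-- extension condition for a subsystem over the same group -/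
theorem ext_cond_R8 (S₁ : Subgroup Ω) [Finite S₁] (R R' : FusionSystem S₁)
    (hR'R : R'.IsSubsystemOf R) (α : MulAut S₁) (hα : α ∈ R'.autGroup S₁) :
    ∃ β ∈ R.autGroup (S₁ ⊔ centralizerIn S₁ S₁),
      (∀ x : S₁, ((β (Subgroup.inclusion le_sup_left x) : ↥(S₁ ⊔ centralizerIn S₁ S₁)) : Ω) =
        ((α x : S₁) : Ω)) ∧
      ∀ c : ↥(S₁ ⊔ centralizerIn S₁ S₁), (c : Ω) ∈ centralizerIn S₁ S₁ →
        (c : Ω)⁻¹ * ((β c : ↥(S₁ ⊔ centralizerIn S₁ S₁)) : Ω) ∈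
          S₁ ⊓ Subgroup.centralizer (S₁ : Set Ω) := by
  have hαR : S₁.subtype.comp α.toMonoidHom ∈ R.Hom S₁ :=
    hR'R S₁ ((mem_autGroup_iff R' le_rfl α).1 hα)
  have hA : S₁ ⊔ centralizerIn S₁ S₁ ≤ S₁ := sup_le le_rfl (centralizerIn_le S₁ S₁)
  have hψ' : (S₁.subtype.comp α.toMonoidHom).comp (Subgroup.inclusion hA) ∈
      R.Hom (S₁ ⊔ centralizerIn S₁ S₁) := fs_restrict_mem R hαR hA
  have hrange : ((S₁.subtype.comp α.toMonoidHom).comp (Subgroup.inclusion hA)).range ≤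
      S₁ ⊔ centralizerIn S₁ S₁ := by
    rintro _ ⟨z, rfl⟩
    exact (le_sup_left : S₁ ≤ S₁ ⊔ centralizerIn S₁ S₁) (α (Subgroup.inclusion hA z)).2
  obtain ⟨β, hβ, hβ1⟩ := fs_exists_aut_of_range_le R hψ' hrange
  refine ⟨β, hβ, fun x => ?_, fun c hc => ?_⟩
  · exact (hβ1 _).trans rfl
  · have hcS₁ : (c : Ω) ∈ S₁ := centralizerIn_le S₁ S₁ hc
    have hcZ : ∀ a ∈ S₁, a * ((⟨(c : Ω), hcS₁⟩ : S₁) : Ω) = ((⟨(c : Ω), hcS₁⟩ : S₁) : Ω) * a :=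
      (mem_centralizerIn.1 hc).2
    have hval : ((β c : ↥(S₁ ⊔ centralizerIn S₁ S₁)) : Ω) = ((α ⟨(c : Ω), hcS₁⟩ : S₁) : Ω) :=
      (hβ1 c).trans rfl
    rw [hval]
    have hαZ := aut_comm8 α ⟨(c : Ω), hcS₁⟩ hcZ
    refine Subgroup.mem_inf.2 ⟨S₁.mul_mem (S₁.inv_mem hcS₁) (α ⟨(c : Ω), hcS₁⟩).2,
      Subgroup.mem_centralizer_iff.2 (fun a ha => ?_)⟩
    have hz1 : a * (c : Ω) = (c : Ω) * a := hcZ a ha
    have hz2 := hαZ a ha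
    calc a * ((c : Ω)⁻¹ * ((α ⟨(c : Ω), hcS₁⟩ : S₁) : Ω))
        = (c : Ω)⁻¹ * ((c : Ω) * a) * (c : Ω)⁻¹ * ((α ⟨(c : Ω), hcS₁⟩ : S₁) : Ω) := by group
      _ = (c : Ω)⁻¹ * (a * (c : Ω)) * (c : Ω)⁻¹ * ((α ⟨(c : Ω), hcS₁⟩ : S₁) : Ω) := by rw [hz1]
      _ = (c : Ω)⁻¹ * (a * ((α ⟨(c : Ω), hcS₁⟩ : S₁) : Ω)) := by group
      _ = (c : Ω)⁻¹ * (((α ⟨(c : Ω), hcS₁⟩ : S₁) : Ω) * a) := by rw [hz2]
      _ = (c : Ω)⁻¹ * ((α ⟨(c : Ω), hcS₁⟩ : S₁) : Ω) * a := by group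

/-- direct factors of a saturated fusion system -/
theorem dp_main8 (F : FusionSystem S) [Finite S] (p : ℕ) [Fact p.Prime] (hS : IsPGroup p S)
    (hF : F.IsSaturated p) (S₁ S₂ : Subgroup Ω) (hprod : Cfsg.IsInternalDirectProduct S₁ S₂ S)
    (h₁ : F.StronglyClosed S₁) (h₂ : F.StronglyClosed S₂) (R R' : FusionSystem S₁)
    (hR : ∀ P : Subgroup Ω, P ≤ S₁ → R.Hom P = F.Hom P)
    (hR' : ∀ P : Subgroup Ω, P ≤ S₁ → R'.Hom P = F.centralizerHom S₂ P) :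
    R.IsSaturated p ∧ R'.IsSaturated p ∧ R'.IsNormalIn F p ∧ R'.IsNormalIn R p ∧
      R.IsWeaklyNormalIn F p := by
  obtain ⟨hS₁S, hS₂S, hcomm, hdisj, hsup⟩ := hprod
  have hfin₁ : Finite S₁ := finite_of_le_fs hS₁S
  have hS₁p : IsPGroup p S₁ := hS.to_le hS₁S
  have hS₁n : S₁ ≤ Subgroup.normalizer (S₂ : Set Ω) := by
    intro a ha
    apply Subgroup.centralizer_le_normalizer
    rw [Subgroup.mem_centralizer_iff]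
    intro b hb
    exact (hcomm a ha b hb).symm
  have hdec : ∀ s ∈ S, ∃ s₁ ∈ S₁, ∃ s₂ ∈ S₂, s = s₁ * s₂ := by
    intro s hs
    rw [← hsup] at hs
    exact exists_mul_of_mem_sup8 S₁ S₂ hS₁n hs
  have hRsat : R.IsSaturated p := by
    apply factor_saturated8 F p hS hF S₁ h₁ _ R hR
    intro s hs
    obtain ⟨s₁, hs₁, s₂, hs₂, rfl⟩ := hdec s hs
    refine ⟨s₁, hs₁, s₂, ?_, rfl⟩
    rw [mem_centralizerIn]
    exact ⟨hS₂S hs₂, fun a ha => hcomm a ha s₂ hs₂⟩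
  have hR'sat : R'.IsSaturated p := by
    have hfc : F.IsFullyCentralized S₂ := by
      refine ⟨hS₂S, ?_⟩
      rintro Q ⟨φ, hφ, rfl⟩
      have hle : φ.range ≤ S₂ := by
        rintro _ ⟨x, rfl⟩
        exact h₂.2 S₂ le_rfl φ hφ x
      rw [fs_range_eq_of_le F hφ hle]
    have hCsat : (cSys8 F S₂ hS₂S).IsSaturated p :=
      centralizer_saturated8 F p hS hF S₂ hfc (cSys8 F S₂ hS₂S)
        (cSys_isCentralizerSystem8 F S₂ hS₂S)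
    haveI : Finite ↥(centralizerIn S S₂) := finite_of_le_fs (centralizerIn_le S S₂)
    have hS₁C : S₁ ≤ centralizerIn S S₂ := by
      intro a ha
      rw [mem_centralizerIn]
      exact ⟨hS₁S ha, fun b hb => (hcomm a ha b hb).symm⟩
    have hsc : (cSys8 F S₂ hS₂S).StronglyClosed S₁ := by
      refine ⟨hS₁C, ?_⟩
      intro P hP φ hφ x
      exact h₁.2 P hP φ hφ.1 x
    apply factor_saturated8 (cSys8 F S₂ hS₂S) p (hS.to_le (centralizerIn_le S S₂)) hCsat S₁ hsc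
      _ R' hR'
    intro s hs
    obtain ⟨s₁, hs₁, s₂, hs₂, rfl⟩ := hdec s (centralizerIn_le S S₂ hs)
    refine ⟨s₁, hs₁, s₂, ?_, rfl⟩
    have hs₂c : s₂ ∈ centralizerIn S S₂ := by
      have e : s₂ = s₁⁻¹ * (s₁ * s₂) := by group
      rw [e]
      exact (centralizerIn S S₂).mul_mem ((centralizerIn S S₂).inv_mem (hS₁C hs₁)) hs
    rw [mem_centralizerIn]
    exact ⟨hs₂c, fun a ha => hcomm a ha s₂ hs₂⟩
  have hR'F : R'.IsSubsystemOf F := by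
    intro P φ hφ
    have hP : P ≤ S₁ := (R'.le_of_mem hφ).1
    rw [hR' P hP] at hφ
    exact hφ.1
  have hRF : R.IsSubsystemOf F := by
    intro P φ hφ
    have hP : P ≤ S₁ := (R.le_of_mem hφ).1
    rw [hR P hP] at hφ
    exact hφ
  have hR'R : R'.IsSubsystemOf R := by
    intro P φ hφ
    have hP : P ≤ S₁ := (R'.le_of_mem hφ).1
    rw [hR P hP]
    exact hR'F P hφ
  have hinv1 : R'.IsInvariantIn F := si_invariant8 F p hS hF R' hR'F h₁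
    (fun P Q hPQ hQ φ hφ hφQ ψ hψ =>
      si_factor_cent8 F p hS hF S₁ S₂ h₁ h₂ hcomm R' hR' P Q hPQ hQ φ hφ hφQ ψ hψ)
  have hscR : R.StronglyClosed S₁ := fs_sc_top8 R
  have hinv2 : R'.IsInvariantIn R := si_invariant8 R p hS₁p hRsat R' hR'R hscR
    (fun P Q hPQ hQ φ hφ hφQ ψ hψ =>
      si_factor_cent8 F p hS hF S₁ S₂ h₁ h₂ hcomm R' hR' P Q hPQ hQ φ hφ hφQ ψ
        (by rw [← hR Q hQ]; exact hψ))
  have hinv3 : R.IsInvariantIn F := si_invariant8 F p hS hF R hRF h₁ (si_factor8 F S₁ h₁ R hR)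
  exact ⟨hRsat, hR'sat,
    ⟨⟨hR'sat, hF, hinv1⟩, fun α hα =>
      ext_cond_F8 F S₁ S₂ hS₁S hS₂S hcomm hsup hdec R' hR' α hα⟩,
    ⟨⟨hR'sat, hRsat, hinv2⟩, fun α hα => ext_cond_R8 S₁ R R' hR'R α hα⟩,
    ⟨hRsat, hF, hinv3⟩⟩

end Cfsg.Agent.Lib.Helper8
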