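import Mathlib
import Cfsg.Prelude.Def_RootSubgroups

set_option autoImplicit false

namespace Cfsg.Agent.Lib.Helper8

open Cfsg

variable {k : Type*} [Field k] {M : Type*} [AddCommGroup M] [Module k M]

/-- the unit `1 + N` for `N * N = 0` -/
def unipUnit (N : M →ₗ[k] M) (h : N * N = 0) : LinearMap.GeneralLinearGroup k M :=
  ⟨1 + N, 1 - N,
    by
      have e : (1 + N) * (1 - N) = 1 - N * N := by noncomm_ring
      rw [e, h, sub_zero],
    by
      have e : (1 - N) * (1 + N) = 1 - N * N := by noncomm_ring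
      rw [e, h, sub_zero]⟩

theorem one_add_mul_one_add (A B : M →ₗ[k] M) : (1 + A) * (1 + B) = 1 + A + B + A * B := by
  noncomm_ring

theorem unipUnit_val (N : M →ₗ[k] M) (h : N * N = 0) :
    ((unipUnit N h : LinearMap.GeneralLinearGroup k M) : M →ₗ[k] M) = 1 + N := rfl

theorem mem_sameActionClass_of [FiniteDimensional k M]
    {G : Subgroup (LinearMap.GeneralLinearGroup k M)} {σ ρ : LinearMap.GeneralLinearGroup k M}
    (hσ : σ ∈ minimalQuadraticElements G) (hρG : ρ ∈ G) (hρ1 : (ρ : M →ₗ[k] M) - 1 ≠ 0)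
    (hR : LinearMap.range ((ρ : M →ₗ[k] M) - 1) ≤ LinearMap.range ((σ : M →ₗ[k] M) - 1))
    (hK : LinearMap.ker ((σ : M →ₗ[k] M) - 1) ≤ LinearMap.ker ((ρ : M →ₗ[k] M) - 1))
    (hsc : scalarFamily ρ ⊆ (G : Set (LinearMap.GeneralLinearGroup k M))) :
    ρ ∈ sameActionClass G σ := by
  obtain ⟨⟨hσG, ⟨hσq, hσ1⟩, hσsc⟩, hσmin⟩ := hσ
  have hRK : LinearMap.range ((σ : M →ₗ[k] M) - 1) ≤ LinearMap.ker ((σ : M →ₗ[k] M) - 1) := by
    rintro _ ⟨m, rfl⟩
    rw [LinearMap.mem_ker]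
    exact LinearMap.congr_fun hσq m
  have hρq : ((ρ : M →ₗ[k] M) - 1) * ((ρ : M →ₗ[k] M) - 1) = 0 := by
    ext m
    have h1 : ((ρ : M →ₗ[k] M) - 1) m ∈ LinearMap.ker ((ρ : M →ₗ[k] M) - 1) :=
      hK (hRK (hR ⟨m, rfl⟩))
    rw [LinearMap.mem_ker] at h1
    exact h1
  have hρQ : ρ ∈ quadraticElements G := ⟨hρG, ⟨hρq, hρ1⟩, hsc⟩
  have hrank := hσmin ρ hρQ
  have hReq : LinearMap.range ((ρ : M →ₗ[k] M) - 1) = LinearMap.range ((σ : M →ₗ[k] M) - 1) :=
    Submodule.eq_of_le_of_finrank_le hR hrank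
  have hKeq : LinearMap.ker ((ρ : M →ₗ[k] M) - 1) = LinearMap.ker ((σ : M →ₗ[k] M) - 1) := by
    symm
    apply Submodule.eq_of_le_of_finrank_le hK
    have h1 := LinearMap.finrank_range_add_finrank_ker ((ρ : M →ₗ[k] M) - 1)
    have h2 := LinearMap.finrank_range_add_finrank_ker ((σ : M →ₗ[k] M) - 1)
    rw [hReq] at h1
    omega
  refine ⟨⟨hρQ, fun τ hτ => ?_⟩, hKeq, hReq⟩
  have e : commutatorRank ρ = commutatorRank σ := by
    unfold commutatorRank
    rw [hReq]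
  rw [e]
  exact hσmin τ hτ

theorem sameAction_nil_mul {G : Subgroup (LinearMap.GeneralLinearGroup k M)}
    {σ τ₁ τ₂ : LinearMap.GeneralLinearGroup k M}
    (h₁ : τ₁ ∈ sameActionClass G σ) (h₂ : τ₂ ∈ sameActionClass G σ) :
    ((τ₁ : M →ₗ[k] M) - 1) * ((τ₂ : M →ₗ[k] M) - 1) = 0 := by
  obtain ⟨⟨⟨-, ⟨hq₁, -⟩, -⟩, -⟩, -, hR₁⟩ := h₁
  obtain ⟨-, -, hR₂⟩ := h₂
  ext m
  have h1 : ((τ₂ : M →ₗ[k] M) - 1) m ∈ LinearMap.range ((τ₁ : M →ₗ[k] M) - 1) := by
    rw [hR₁, ← hR₂]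
    exact ⟨m, rfl⟩
  obtain ⟨m', hm'⟩ := h1
  show ((τ₁ : M →ₗ[k] M) - 1) (((τ₂ : M →ₗ[k] M) - 1) m) = 0
  rw [← hm']
  exact LinearMap.congr_fun hq₁ m'

theorem sameAction_mul [FiniteDimensional k M] {G : Subgroup (LinearMap.GeneralLinearGroup k M)}
    {σ τ₁ τ₂ : LinearMap.GeneralLinearGroup k M} (hσ : σ ∈ minimalQuadraticElements G)
    (h₁ : τ₁ ∈ sameActionClass G σ) (h₂ : τ₂ ∈ sameActionClass G σ) :
    τ₁ * τ₂ ∈ sameActionClass G σ ∪ {1} := by
  have h12 := sameAction_nil_mul h₁ h₂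
  have hq₁ := sameAction_nil_mul h₁ h₁
  have hq₂ := sameAction_nil_mul h₂ h₂
  obtain ⟨⟨⟨hG₁, -, hsc₁⟩, -⟩, hK₁, hR₁⟩ := h₁
  obtain ⟨⟨⟨hG₂, -, hsc₂⟩, -⟩, hK₂, hR₂⟩ := h₂
  have hval : ((τ₁ * τ₂ : LinearMap.GeneralLinearGroup k M) : M →ₗ[k] M) - 1 =
      ((τ₁ : M →ₗ[k] M) - 1) + ((τ₂ : M →ₗ[k] M) - 1) := by
    rw [Units.val_mul]
    have e : (τ₁ : M →ₗ[k] M) * (τ₂ : M →ₗ[k] M) - 1 =
        ((τ₁ : M →ₗ[k] M) - 1) * ((τ₂ : M →ₗ[k] M) - 1) + ((τ₁ : M →ₗ[k] M) - 1)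
          + ((τ₂ : M →ₗ[k] M) - 1) := by noncomm_ring
    rw [e, h12, zero_add]
  by_cases h1 : ((τ₁ * τ₂ : LinearMap.GeneralLinearGroup k M) : M →ₗ[k] M) - 1 = 0
  · right
    rw [Set.mem_singleton_iff]
    apply Units.ext
    rw [Units.val_one]
    exact sub_eq_zero.1 h1
  · left
    apply mem_sameActionClass_of hσ (G.mul_mem hG₁ hG₂) h1
    · rw [hval]
      rintro _ ⟨m, rfl⟩
      rw [LinearMap.add_apply]
      refine Submodule.add_mem _ ?_ ?_
      · rw [← hR₁]; exact ⟨m, rfl⟩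
      · rw [← hR₂]; exact ⟨m, rfl⟩
    · intro m hm
      rw [LinearMap.mem_ker, hval, LinearMap.add_apply]
      have hm1 : m ∈ LinearMap.ker ((τ₁ : M →ₗ[k] M) - 1) := by rw [hK₁]; exact hm
      have hm2 : m ∈ LinearMap.ker ((τ₂ : M →ₗ[k] M) - 1) := by rw [hK₂]; exact hm
      rw [LinearMap.mem_ker] at hm1 hm2
      rw [hm1, hm2, add_zero]
    · rintro τ ⟨c, hc⟩
      have hc1 : (c • ((τ₁ : M →ₗ[k] M) - 1)) * (c • ((τ₁ : M →ₗ[k] M) - 1)) = 0 := by
        rw [smul_mul_smul_comm, hq₁, smul_zero]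
      have hc2 : (c • ((τ₂ : M →ₗ[k] M) - 1)) * (c • ((τ₂ : M →ₗ[k] M) - 1)) = 0 := by
        rw [smul_mul_smul_comm, hq₂, smul_zero]
      have hc12 : (c • ((τ₁ : M →ₗ[k] M) - 1)) * (c • ((τ₂ : M →ₗ[k] M) - 1)) = 0 := by
        rw [smul_mul_smul_comm, h12, smul_zero]
      have hu1 : unipUnit _ hc1 ∈ G := hsc₁ ⟨c, rfl⟩
      have hu2 : unipUnit _ hc2 ∈ G := hsc₂ ⟨c, rfl⟩
      have e : τ = unipUnit _ hc1 * unipUnit _ hc2 := by
        apply Units.ext
        rw [hc, hval, Units.val_mul, unipUnit_val, unipUnit_val]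
        rw [one_add_mul_one_add, hc12, add_zero, smul_add, add_assoc]
      rw [e]
      exact G.mul_mem hu1 hu2

theorem sameAction_inv [FiniteDimensional k M] {G : Subgroup (LinearMap.GeneralLinearGroup k M)}
    {σ τ : LinearMap.GeneralLinearGroup k M} (hσ : σ ∈ minimalQuadraticElements G)
    (h : τ ∈ sameActionClass G σ) : τ⁻¹ ∈ sameActionClass G σ := by
  have hq := sameAction_nil_mul h h
  obtain ⟨⟨⟨hG, ⟨-, hne⟩, hsc⟩, -⟩, hK, hR⟩ := h
  have hinv : ((τ⁻¹ : LinearMap.GeneralLinearGroup k M) : M →ₗ[k] M) - 1 =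
      -((τ : M →ₗ[k] M) - 1) := by
    have h1 : ((τ⁻¹ : LinearMap.GeneralLinearGroup k M) : M →ₗ[k] M) = 1 - ((τ : M →ₗ[k] M) - 1) := by
      apply Units.inv_eq_of_mul_eq_one_right
      have e : (τ : M →ₗ[k] M) * (1 - ((τ : M →ₗ[k] M) - 1)) =
          1 - ((τ : M →ₗ[k] M) - 1) * ((τ : M →ₗ[k] M) - 1) := by noncomm_ring
      rw [e, hq, sub_zero]
    rw [h1]
    abel
  apply mem_sameActionClass_of hσ (G.inv_mem hG)
  · rw [hinv]
    exact neg_ne_zero.2 hne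
  · rw [hinv]
    rintro _ ⟨m, rfl⟩
    rw [← hR]
    exact ⟨-m, by rw [map_neg, LinearMap.neg_apply]⟩
  · intro m hm
    rw [← hK, LinearMap.mem_ker] at hm
    rw [LinearMap.mem_ker, hinv, LinearMap.neg_apply, hm, neg_zero]
  · rintro τ' ⟨c, hc⟩
    apply hsc
    refine ⟨-c, ?_⟩
    rw [hc, hinv, smul_neg, neg_smul]

theorem sameAction_comm {G : Subgroup (LinearMap.GeneralLinearGroup k M)}
    {σ τ₁ τ₂ : LinearMap.GeneralLinearGroup k M}
    (h₁ : τ₁ ∈ sameActionClass G σ) (h₂ : τ₂ ∈ sameActionClass G σ) : τ₁ * τ₂ = τ₂ * τ₁ := by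
  have h12 := sameAction_nil_mul h₁ h₂
  have h21 := sameAction_nil_mul h₂ h₁
  apply Units.ext
  rw [Units.val_mul, Units.val_mul]
  have e : (τ₁ : M →ₗ[k] M) * (τ₂ : M →ₗ[k] M) - (τ₂ : M →ₗ[k] M) * (τ₁ : M →ₗ[k] M) =
      ((τ₁ : M →ₗ[k] M) - 1) * ((τ₂ : M →ₗ[k] M) - 1) -
        ((τ₂ : M →ₗ[k] M) - 1) * ((τ₁ : M →ₗ[k] M) - 1) := by noncomm_ring
  rw [h12, h21, sub_zero] at e
  exact sub_eq_zero.1 e

theorem sameAction_closure [FiniteDimensional k M]
    {G : Subgroup (LinearMap.GeneralLinearGroup k M)} {σ : LinearMap.GeneralLinearGroup k M}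
    (hσ : σ ∈ minimalQuadraticElements G) :
    (sameActionSubgroup G σ : Set (LinearMap.GeneralLinearGroup k M)) =
      sameActionClass G σ ∪ {1} := by
  apply Set.Subset.antisymm
  · intro x hx
    have hx' : x ∈ Subgroup.closure (sameActionClass G σ) := hx
    clear hx
    induction hx' using Subgroup.closure_induction with
    | mem y hy => exact Or.inl hy
    | one => exact Or.inr rfl
    | mul y z _ _ hy hz =>
      rcases hy with hy | hy
      · rcases hz with hz | hz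
        · exact sameAction_mul hσ hy hz
        · rw [Set.mem_singleton_iff] at hz
          rw [hz, mul_one]
          exact Or.inl hy
      · rw [Set.mem_singleton_iff] at hy
        rw [hy, one_mul]
        exact hz
    | inv y _ hy =>
      rcases hy with hy | hy
      · exact Or.inl (sameAction_inv hσ hy)
      · rw [Set.mem_singleton_iff] at hy
        rw [hy, inv_one]
        exact Or.inr rfl
  · rintro x (hx | hx)
    · exact Subgroup.subset_closure hx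
    · rw [Set.mem_singleton_iff] at hx
      rw [hx]
      exact Subgroup.one_mem _

theorem unip_pow {N : M →ₗ[k] M} (h : N * N = 0) (n : ℕ) : (1 + N) ^ n = 1 + n • N := by
  induction n with
  | zero => simp
  | succ n ih =>
    rw [pow_succ, ih]
    rw [one_add_mul_one_add, smul_mul_assoc, h, smul_zero, add_zero, add_smul, one_smul]
    abel

/-- S5059 -/
theorem sameAction_main [FiniteDimensional k M]
    {G : Subgroup (LinearMap.GeneralLinearGroup k M)} {σ : LinearMap.GeneralLinearGroup k M}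
    (hσ : σ ∈ minimalQuadraticElements G) :
    (sameActionSubgroup G σ : Set (LinearMap.GeneralLinearGroup k M)) =
        sameActionClass G σ ∪ {1} ∧
    IsMulCommutative ↥(sameActionSubgroup G σ) ∧
    (∀ p : ℕ, p.Prime → ringChar k = p → ∀ x ∈ sameActionSubgroup G σ, x ^ p = 1) := by
  have hcl := sameAction_closure hσ
  have hmem : ∀ x ∈ sameActionSubgroup G σ, x ∈ sameActionClass G σ ∪ {1} := by
    intro x hx
    rw [← hcl]
    exact hx
  refine ⟨hcl, ⟨⟨fun a b => ?_⟩⟩, ?_⟩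
  · apply Subtype.ext
    show (a : LinearMap.GeneralLinearGroup k M) * b = b * a
    rcases hmem a.1 a.2 with ha | ha
    · rcases hmem b.1 b.2 with hb | hb
      · exact sameAction_comm ha hb
      · rw [Set.mem_singleton_iff] at hb
        rw [hb, mul_one, one_mul]
    · rw [Set.mem_singleton_iff] at ha
      rw [ha, mul_one, one_mul]
  · intro p _ hchar x hx
    rcases hmem x hx with hx | hx
    · have hq := sameAction_nil_mul hx hx
      apply Units.ext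
      rw [Units.val_pow_eq_pow_val, Units.val_one]
      have e : (x : M →ₗ[k] M) = 1 + ((x : M →ₗ[k] M) - 1) := by abel
      rw [e, unip_pow hq]
      have hp0 : (p : k) = 0 := by
        rw [← hchar]
        exact CharP.cast_eq_zero k (ringChar k)
      rw [← Nat.cast_smul_eq_nsmul k, hp0, zero_smul, add_zero]
    · rw [Set.mem_singleton_iff] at hx
      rw [hx, one_pow]

end Cfsg.Agent.Lib.Helper8
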