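import Mathlib
import Cfsg.Prelude.Def_RootSubgroups
import Cfsg.Agent.Lib.Helper8.GroupFusion
import Cfsg.Agent.Lib.Helper8.GroupFusion2
import Cfsg.Agent.Lib.Helper8.Thompson
import Cfsg.Agent.Lib.Helper8.RankOne
import Cfsg.Agent.Lib.Helper8.RankOne2

set_option autoImplicit false

namespace Cfsg.Agent.Lib.Helper8

open Cfsg

theorem rankOne_of_regular {Y Ω : Type*} [Group Y] [MulAction Y Ω] (hΩ : 3 ≤ ENat.card Ω) (α : Ω)
    (A : Subgroup Y) (hA : A ≤ MulAction.stabilizer Y α)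
    (hAn : ∀ y ∈ MulAction.stabilizer Y α, conjBy A y = A)
    (hnil : Group.IsNilpotent A) (hreg : ∀ β γ : Ω, β ≠ α → γ ≠ α → ∃! a : Y, a ∈ A ∧ a • β = γ)
    (y : Y) (hy : y ∉ MulAction.stabilizer Y α) :
    IsRankOnePair A (conjBy A y) ∧ Subgroup.normalClosure (A : Set Y) = A ⊔ conjBy A y := by
  have hpt : ∀ g g' : Y, g • α = g' • α → conjSub g A = conjSub g' A := by
    intro g g' h
    have hmem : g⁻¹ * g' ∈ MulAction.stabilizer Y α := by
      rw [MulAction.mem_stabilizer_iff, mul_smul, ← h, inv_smul_smul]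
    have h1 : conjSub (g⁻¹ * g') A = A := hAn _ hmem
    have h2 := congrArg (conjSub g) h1
    rw [conjSub_mul] at h2
    have e : g * (g⁻¹ * g') = g' := by group
    rw [e] at h2
    exact h2.symm
  have hβ : y • α ≠ α := fun h => hy (MulAction.mem_stabilizer_iff.2 h)
  have hAα : ∀ a ∈ A, a • α = α := fun a ha => MulAction.mem_stabilizer_iff.1 (hA ha)
  have hBmem : ∀ b, b ∈ conjSub y A ↔ y⁻¹ * b * y ∈ A := fun b => mem_conjSub
  have hBβ : ∀ b ∈ conjSub y A, b • (y • α) = y • α := by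
    rintro _ ⟨a, ha, rfl⟩
    show (y * a * y⁻¹) • (y • α) = y • α
    rw [mul_smul, mul_smul, inv_smul_smul, hAα a ha]
  have hBex : ∀ γ δ : Ω, γ ≠ y • α → δ ≠ y • α → ∃ b ∈ conjSub y A, b • γ = δ := by
    intro γ δ hγ hδ
    have hγ' : y⁻¹ • γ ≠ α := fun h => hγ (by rw [← h, smul_inv_smul])
    have hδ' : y⁻¹ • δ ≠ α := fun h => hδ (by rw [← h, smul_inv_smul])
    obtain ⟨a, ⟨ha, hae⟩, -⟩ := hreg _ _ hγ' hδ'
    refine ⟨y * a * y⁻¹, conj_mem_conjSub ha, ?_⟩
    rw [mul_smul, mul_smul, hae, smul_inv_smul]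
  have hAfree : ∀ a ∈ A, ∀ β : Ω, β ≠ α → a • β = β → a = 1 := by
    intro a ha β hβ' h
    obtain ⟨a₀, -, huniq⟩ := hreg β β hβ' hβ'
    rw [huniq a ⟨ha, h⟩, huniq 1 ⟨Subgroup.one_mem _, one_smul _ _⟩]
  have hBfree : ∀ b ∈ conjSub y A, ∀ γ : Ω, γ ≠ y • α → b • γ = γ → b = 1 := by
    rintro _ ⟨a, ha, rfl⟩ γ hγ h
    have hγ' : y⁻¹ • γ ≠ α := fun h' => hγ (by rw [← h', smul_inv_smul])
    have h0 : (y * a * y⁻¹) • γ = γ := h
    have h1 : a = 1 := by
      apply hAfree a ha _ hγ'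
      rw [mul_smul, mul_smul] at h0
      have h2 := congrArg (fun t => y⁻¹ • t) h0
      simpa using h2
    show y * a * y⁻¹ = 1
    rw [h1]
    group
  obtain ⟨γ₀, hγ₀α, hγ₀β⟩ := ENat.exists_ne_ne_of_three_le hΩ α (y • α)
  have hne : A ≠ conjSub y A := by
    intro h
    obtain ⟨a, ⟨ha, hae⟩, -⟩ := hreg (y • α) γ₀ hβ hγ₀α
    have h1 := hBβ a (h ▸ ha)
    rw [hae] at h1
    exact hγ₀β h1
  have hcondL : RankOneCondition A (conjSub y A) := by
    intro a ha ha1
    have h1 : a⁻¹ • (y • α) ≠ y • α := fun h => ha1 (by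
      have h3 := hAfree a⁻¹ (Subgroup.inv_mem _ ha) _ hβ h
      exact inv_eq_one.1 h3)
    have h2 : a⁻¹ • (y • α) ≠ α := fun h => hβ (by
      have h3 := congrArg (fun t => a • t) h
      simp only [smul_inv_smul] at h3
      rw [h3, hAα a ha])
    obtain ⟨b', hb', hb'e⟩ := hBex α (a⁻¹ • (y • α)) (Ne.symm hβ) h1
    refine ⟨b'⁻¹, Subgroup.inv_mem _ hb', ?_, ?_⟩
    · intro h
      have h3 : b' = 1 := inv_eq_one.1 h
      rw [h3, one_smul] at hb'e
      exact h2 hb'e.symm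
    · rw [inv_inv]
      show conjSub b' A = conjSub a⁻¹ (conjSub y A)
      rw [conjSub_mul]
      apply hpt
      rw [hb'e, mul_smul]
  have hcondR : RankOneCondition (conjSub y A) A := by
    intro b hb hb1
    have h1 : b⁻¹ • α ≠ α := fun h => hb1 (by
      have h3 := hBfree b⁻¹ (Subgroup.inv_mem _ hb) α (Ne.symm hβ) h
      exact inv_eq_one.1 h3)
    have h2 : b⁻¹ • α ≠ y • α := fun h => hβ (by
      have h3 := congrArg (fun t => b • t) h
      simp only [smul_inv_smul] at h3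
      rw [hBβ b hb] at h3
      exact h3.symm)
    obtain ⟨a', ⟨ha', ha'e⟩, -⟩ := hreg (y • α) (b⁻¹ • α) hβ h1
    refine ⟨a'⁻¹, Subgroup.inv_mem _ ha', ?_, ?_⟩
    · intro h
      have h3 : a' = 1 := inv_eq_one.1 h
      rw [h3, one_smul] at ha'e
      exact h2 ha'e.symm
    · rw [inv_inv]
      show conjSub a' (conjSub y A) = conjSub b⁻¹ A
      rw [conjSub_mul]
      apply hpt
      rw [mul_smul, ha'e]
  have hnilB : Group.IsNilpotent (conjSub y A) :=
    Group.nilpotent_of_mulEquiv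
      (A.equivMapOfInjective (MulAut.conj y).toMonoidHom (MulAut.conj y).injective)
  refine ⟨⟨hne, hnil, hnilB, hcondL, hcondR⟩, ?_⟩
  apply le_antisymm
  · unfold Subgroup.normalClosure
    rw [Subgroup.closure_le]
    intro x hx
    rw [Group.mem_conjugatesOfSet_iff] at hx
    obtain ⟨a, ha, hconj⟩ := hx
    rw [isConj_iff] at hconj
    obtain ⟨g, rfl⟩ := hconj
    have hle : conjSub g A ≤ A ⊔ conjSub y A := by
      by_cases h1 : g • α = α
      · rw [hpt g 1 (by rw [h1, one_smul]), conjSub_one]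
        exact le_sup_left
      · obtain ⟨a', ⟨ha', ha'e⟩, -⟩ := hreg (y • α) (g • α) hβ h1
        rw [hpt g (a' * y) (by rw [mul_smul, ha'e]), ← conjSub_mul]
        rintro _ ⟨b, hb, rfl⟩
        exact Subgroup.mul_mem _ (Subgroup.mul_mem _ (Subgroup.mem_sup_left ha')
          (Subgroup.mem_sup_right hb)) (Subgroup.inv_mem _ (Subgroup.mem_sup_left ha'))
    exact hle (conj_mem_conjSub ha)
  · refine sup_le Subgroup.le_normalClosure ?_
    rintro _ ⟨a, ha, rfl⟩
    exact (Subgroup.normalClosure_normal).conj_mem _ (Subgroup.le_normalClosure ha) y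

end Cfsg.Agent.Lib.Helper8
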