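import Mathlib
import Cfsg.Prelude.Def_RootSubgroups
import Cfsg.Prelude.Def_CaseTheorems
import Cfsg.Agent.Lib.Helper8.GroupFusion
import Cfsg.Agent.Lib.Helper8.GroupFusion2
import Cfsg.Agent.Lib.Helper8.Thompson
import Cfsg.Agent.Lib.Helper8.RankOne
import Cfsg.Agent.Lib.Helper8.RankOne2

set_option autoImplicit false

namespace Cfsg.Agent.Lib.Helper8

open Cfsg

variable {G : Type*} [Group G]

theorem rankOne_not_le_normalizer {A B : Subgroup G} (h : IsRankOnePair A B) :
    ¬ B ≤ Subgroup.normalizer (A : Set G) := by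
  intro hle
  obtain ⟨b, hb, hb1⟩ := rankOne_exists_ne_one (RankOnePair_symm h)
  have h1 : b ∈ B ⊓ Subgroup.normalizer (A : Set G) := Subgroup.mem_inf.2 ⟨hb, hle hb⟩
  rw [rankOne_inf_normalizer (RankOnePair_symm h), Subgroup.mem_bot] at h1
  exact hb1 h1

theorem rankOne_center_ne_top {A B : Subgroup G} (h : IsRankOnePair A B) :
    Subgroup.center G ≠ ⊤ := by
  intro htop
  apply rankOne_not_le_normalizer h
  intro b _
  have : b ∈ Subgroup.center G := by rw [htop]; exact Subgroup.mem_top b
  exact Subgroup.center_le_normalizer _ this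

/-- a normal subgroup normalising `A` in a rank one group is central -/
theorem rankOne_normal_le_center {A B : Subgroup G} (htop : A ⊔ B = ⊤) (hp : IsRankOnePair A B)
    (N : Subgroup G) (hN : N.Normal) (hNA : N ≤ Subgroup.normalizer (A : Set G)) :
    N ≤ Subgroup.center G := by
  obtain ⟨x, -, hB⟩ := rankOne_conj_B_mem_orbit hp
  have hNB : N ≤ Subgroup.normalizer (B : Set G) := by
    intro n hn
    apply mem_normalizer_of_conjSub_eq
    have h1 : x⁻¹ * n * x ∈ N := by
      have := hN.conj_mem n hn x⁻¹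
      simpa using this
    have h2 : conjSub (x⁻¹ * n * x) A = A := conjSub_eq_of_mem_normalizer (hNA h1)
    rw [hB, conjSub_mul]
    have e : n * x = x * (x⁻¹ * n * x) := by group
    rw [e, ← conjSub_mul, h2]
  have comm : ∀ {A B : Subgroup G}, IsRankOnePair A B → N ≤ Subgroup.normalizer (A : Set G) →
      N ≤ Subgroup.normalizer (B : Set G) → ∀ n ∈ N, ∀ a ∈ A, a * n = n * a := by
    intro A B hp hNA hNB n hn a ha
    have h1 : a * n * a⁻¹ * n⁻¹ ∈ A ⊓ Subgroup.normalizer (B : Set G) := by
      refine Subgroup.mem_inf.2 ⟨?_, ?_⟩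
      · have h2 : n * a⁻¹ * n⁻¹ ∈ A :=
          (Subgroup.mem_normalizer_iff.1 (hNA hn) a⁻¹).1 (A.inv_mem ha)
        have e : a * n * a⁻¹ * n⁻¹ = a * (n * a⁻¹ * n⁻¹) := by group
        rw [e]
        exact A.mul_mem ha h2
      · apply hNB
        have h2 : a * n * a⁻¹ ∈ N := hN.conj_mem n hn a
        exact N.mul_mem h2 (N.inv_mem hn)
    rw [rankOne_inf_normalizer hp, Subgroup.mem_bot] at h1
    have e : a * n = (a * n * a⁻¹ * n⁻¹) * (n * a) := by group
    rw [e, h1, one_mul]
  intro n hn
  rw [Subgroup.mem_center_iff]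
  have key : ∀ g ∈ A ⊔ B, g * n = n * g := by
    apply sup_mul_induction
    · intro a ha
      exact comm hp hNA hNB n hn a ha
    · intro b hb
      exact comm (RankOnePair_symm hp) hNB hNA n hn b hb
    · simp
    · intro x y hx hy
      rw [mul_assoc, hy, ← mul_assoc, hx, mul_assoc]
  intro g
  exact key g (htop ▸ Subgroup.mem_top g)

theorem rankOne_normal_dichotomy {A B : Subgroup G} (htop : A ⊔ B = ⊤) (hp : IsRankOnePair A B)
    (N : Subgroup G) (hN : N.Normal) : N ⊔ A = ⊤ ∨ N ≤ Subgroup.center G := by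
  by_cases hNA : N ≤ Subgroup.normalizer (A : Set G)
  · right
    exact rankOne_normal_le_center htop hp N hN hNA
  · left
    obtain ⟨n, hn, hnA⟩ := SetLike.not_le_iff_exists.1 hNA
    have h1 : conjSub n A ≠ A := fun hh => hnA (mem_normalizer_of_conjSub_eq hh)
    have h2 : conjSub n A ∈ unipotentSubgroups A B := ⟨n, htop ▸ Subgroup.mem_top n, rfl⟩
    rcases (rankOne_orbit hp _).1 h2 with h3 | ⟨a, ha, h3⟩
    · exact absurd h3 h1
    · have h4 : B = conjSub (a⁻¹ * n) A := by
        rw [← conjSub_mul, h3, conjSub_inv_conjSub]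
      have hB : B ≤ N ⊔ A := by
        rw [h4]
        intro y hy
        rw [mem_conjSub] at hy
        have e : y = (a⁻¹ * n) * ((a⁻¹ * n)⁻¹ * y * (a⁻¹ * n)) * (a⁻¹ * n)⁻¹ := by group
        rw [e]
        have hm : a⁻¹ * n ∈ N ⊔ A :=
          Subgroup.mul_mem _ (Subgroup.mem_sup_right (A.inv_mem ha)) (Subgroup.mem_sup_left hn)
        exact Subgroup.mul_mem _ (Subgroup.mul_mem _ hm (Subgroup.mem_sup_right hy))
          (Subgroup.inv_mem _ hm)
      rw [eq_top_iff, ← htop]
      exact sup_le le_sup_right hB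

theorem rankOne_quasisimple {A B : Subgroup G} (htop : A ⊔ B = ⊤) (hp : IsRankOnePair A B)
    (hperf : Group.IsPerfect G) : IsQuasisimple G := by
  refine ⟨hperf, ?_⟩
  have hnt : Nontrivial (G ⧸ Subgroup.center G) := by
    by_contra hcon
    rw [not_nontrivial_iff_subsingleton] at hcon
    apply rankOne_center_ne_top hp
    rw [eq_top_iff]
    intro x _
    have : (QuotientGroup.mk x : G ⧸ Subgroup.center G) = 1 := Subsingleton.elim _ _
    exact (QuotientGroup.eq_one_iff x).1 this
  refine { toNontrivial := hnt, eq_bot_or_eq_top_of_normal := ?_ }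
  intro H hH
  have hNn : (H.comap (QuotientGroup.mk' (Subgroup.center G))).Normal := hH.comap _
  rcases rankOne_normal_dichotomy htop hp _ hNn with h1 | h1
  · right
    -- the quotient by N is nilpotent and perfect
    set N := H.comap (QuotientGroup.mk' (Subgroup.center G)) with hNdef
    have hsurj : Function.Surjective ((QuotientGroup.mk' N).comp A.subtype) := by
      intro q
      obtain ⟨x, rfl⟩ := QuotientGroup.mk'_surjective N q
      have hx : x ∈ N ⊔ A := h1 ▸ Subgroup.mem_top x
      have : N.Normal := hNn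
      obtain ⟨n, hn, a, ha, rfl⟩ := Subgroup.mem_sup_of_normal_left.1 hx
      refine ⟨⟨a, ha⟩, ?_⟩
      show (QuotientGroup.mk' N) a = (QuotientGroup.mk' N) (n * a)
      rw [map_mul]
      have : (QuotientGroup.mk' N) n = 1 := (QuotientGroup.eq_one_iff n).2 hn
      rw [this, one_mul]
    have := hp.nilpotent_left
    have hnil : Group.IsNilpotent (G ⧸ N) := Group.nilpotent_of_surjective _ hsurj
    have hsub : Subsingleton (G ⧸ N) := by
      by_contra hcon
      rw [not_subsingleton_iff_nontrivial] at hcon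
      exact Group.IsPerfect.not_isNilpotent (G ⧸ N) hnil
    have hNtop : N = ⊤ := by
      rw [eq_top_iff]
      intro x _
      have : (QuotientGroup.mk x : G ⧸ N) = 1 := Subsingleton.elim _ _
      exact (QuotientGroup.eq_one_iff x).1 this
    rw [eq_top_iff]
    intro q _
    obtain ⟨x, rfl⟩ := QuotientGroup.mk'_surjective (Subgroup.center G) q
    have hx : x ∈ N := hNtop ▸ Subgroup.mem_top x
    exact hx
  · left
    rw [eq_bot_iff]
    intro q hq
    obtain ⟨x, rfl⟩ := QuotientGroup.mk'_surjective (Subgroup.center G) q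
    have hx : x ∈ Subgroup.center G := h1 hq
    rw [Subgroup.mem_bot]
    exact (QuotientGroup.eq_one_iff x).2 hx

end Cfsg.Agent.Lib.Helper8

namespace Cfsg.Agent.Lib.Helper8

open Cfsg

variable {G : Type*} [Group G]

theorem rankOne_le_center_of_comm {A B : Subgroup G} (htop : A ⊔ B = ⊤) (hp : IsRankOnePair A B)
    (N : Subgroup G) (hN : N.Normal)
    (hcomm : ∀ x ∈ N, ∀ y : G, x * y * x⁻¹ * y⁻¹ ∈ Subgroup.center G) :
    N ≤ Subgroup.center G := by
  rcases rankOne_normal_dichotomy htop hp N hN with h1 | h1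
  · exfalso
    apply rankOne_not_le_normalizer hp
    have key : ∀ g ∈ N ⊔ A, ∀ y ∈ Subgroup.center G ⊔ A, g * y * g⁻¹ ∈ Subgroup.center G ⊔ A := by
      apply sup_mul_induction
      · intro g hg y hy
        have e : g * y * g⁻¹ = (g * y * g⁻¹ * y⁻¹) * y := by group
        rw [e]
        exact Subgroup.mul_mem _ (Subgroup.mem_sup_left (hcomm g hg y)) hy
      · intro g hg y hy
        have hg' : g ∈ Subgroup.center G ⊔ A := Subgroup.mem_sup_right hg
        exact Subgroup.mul_mem _ (Subgroup.mul_mem _ hg' hy) (Subgroup.inv_mem _ hg')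
      · intro y hy
        simpa using hy
      · intro x y hx hy z hz
        have e : x * y * z * (x * y)⁻¹ = x * (y * z * y⁻¹) * x⁻¹ := by group
        rw [e]
        exact hx _ (hy z hz)
    obtain ⟨x, -, hB⟩ := rankOne_conj_B_mem_orbit hp
    have hle : Subgroup.center G ⊔ A ≤ Subgroup.normalizer (A : Set G) :=
      sup_le (Subgroup.center_le_normalizer _) Subgroup.le_normalizer
    intro b hb
    apply hle
    rw [hB, mem_conjSub] at hb
    have e : b = x * (x⁻¹ * b * x) * x⁻¹ := by group
    rw [e]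
    exact key x (h1 ▸ Subgroup.mem_top x) _ (Subgroup.mem_sup_right hb)
  · exact h1

theorem rankOne_upperCentralSeries_le {A B : Subgroup G} (htop : A ⊔ B = ⊤)
    (hp : IsRankOnePair A B) (n : ℕ) : Subgroup.upperCentralSeries G n ≤ Subgroup.center G := by
  induction n with
  | zero =>
    rw [Subgroup.upperCentralSeries_zero]
    exact bot_le
  | succ n ih =>
    apply rankOne_le_center_of_comm htop hp _ inferInstance
    intro x hx y
    exact ih (Subgroup.mem_upperCentralSeries_succ_iff.1 hx y)

theorem rankOne_not_nilpotent {A B : Subgroup G} (htop : A ⊔ B = ⊤)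
    (hp : IsRankOnePair A B) : ¬ Group.IsNilpotent G := by
  intro hnil
  obtain ⟨n, hn⟩ := Group.IsNilpotent.nilpotent G
  apply rankOne_center_ne_top hp
  rw [eq_top_iff, ← hn]
  exact rankOne_upperCentralSeries_le htop hp n

theorem rankOne_upperCentralSeries_two {A B : Subgroup G} (htop : A ⊔ B = ⊤)
    (hp : IsRankOnePair A B) : Subgroup.upperCentralSeries G 2 = Subgroup.center G := by
  apply le_antisymm (rankOne_upperCentralSeries_le htop hp 2)
  rw [← Subgroup.upperCentralSeries_one]
  exact Subgroup.upperCentralSeries_mono G one_le_two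

end Cfsg.Agent.Lib.Helper8
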