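import Mathlib
import Cfsg.Prelude.Def_RootSubgroups
import Cfsg.Prelude.Def_Transfer

set_option autoImplicit false

namespace Cfsg.Agent.Lib.Helper8

open Cfsg

variable {G : Type*} [Group G]

theorem mem_cj8 {S : Subgroup G} {g x : G} : x ∈ conjBy S g ↔ g⁻¹ * x * g ∈ S := by
  constructor
  · rintro ⟨y, hy, rfl⟩
    have e : g⁻¹ * (g * y * g⁻¹) * g = y := by group
    show g⁻¹ * (g * y * g⁻¹) * g ∈ S
    rw [e]; exact hy
  · intro h
    refine ⟨g⁻¹ * x * g, h, ?_⟩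
    show g * (g⁻¹ * x * g) * g⁻¹ = x
    group

theorem cj_mul8 (S : Subgroup G) (g h : G) : conjBy (conjBy S g) h = conjBy S (h * g) := by
  ext x
  rw [mem_cj8, mem_cj8, mem_cj8]
  have e : g⁻¹ * (h⁻¹ * x * h) * g = (h * g)⁻¹ * x * (h * g) := by group
  rw [e]

theorem cj_one8 (S : Subgroup G) : conjBy S 1 = S := by
  ext x
  rw [mem_cj8]
  simp

theorem cj_mem8 {S : Subgroup G} {g : G} (hg : g ∈ S) : conjBy S g = S := by
  ext x
  rw [mem_cj8]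
  constructor
  · intro h
    have e : x = g * (g⁻¹ * x * g) * g⁻¹ := by group
    rw [e]
    exact S.mul_mem (S.mul_mem hg h) (S.inv_mem hg)
  · intro h
    exact S.mul_mem (S.mul_mem (S.inv_mem hg) h) hg

theorem core8 {A B : Subgroup G} (h : IsRankOnePair A B) {β : G} (hβ : β ∈ B)
    (e : conjBy A β = A) : β = 1 := by
  by_contra hne
  obtain ⟨a', ha', ha'1, R⟩ := h.cond_right β hβ hne
  have e1 : conjBy A β⁻¹ = A := by
    have := cj_mul8 A β β⁻¹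
    rw [e] at this
    rw [this, inv_mul_cancel, cj_one8]
  rw [e1] at R
  have e2 : conjBy (conjBy B a'⁻¹) a' = B := by
    rw [cj_mul8, mul_inv_cancel, cj_one8]
  rw [R, cj_mem8 ha'] at e2
  exact h.ne e2

theorem uniq8 {A B : Subgroup G} (h : IsRankOnePair A B) {β β' : G} (hβ : β ∈ B) (hβ' : β' ∈ B)
    (e : conjBy A β = conjBy A β') : β = β' := by
  have e1 : conjBy A (β'⁻¹ * β) = A := by
    rw [← cj_mul8 A β β'⁻¹, e, cj_mul8, inv_mul_cancel, cj_one8]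
  have := core8 h (B.mul_mem (B.inv_mem hβ') hβ) e1
  exact (inv_mul_eq_one.mp this).symm

theorem ne_one8 {A B : Subgroup G} (h : IsRankOnePair A B) {a b : G} (ha : a ∈ A)
    (R : conjBy A b⁻¹ = conjBy B a⁻¹) : b ≠ 1 := by
  intro hb
  rw [hb, inv_one, cj_one8] at R
  have e2 : conjBy (conjBy B a⁻¹) a = B := by
    rw [cj_mul8, mul_inv_cancel, cj_one8]
  rw [← R, cj_mem8 ha] at e2
  exact h.ne e2

theorem braid8 {a b : G} (s : b⁻¹ * a * b = a⁻¹ * b⁻¹ * a) : a * b⁻¹ * a = b⁻¹ * a * b⁻¹ := by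
  calc a * b⁻¹ * a = a * (b⁻¹ * a * b) * b⁻¹ := by group
    _ = a * (a⁻¹ * b⁻¹ * a) * b⁻¹ := by rw [s]
    _ = b⁻¹ * a * b⁻¹ := by group

theorem special_symm8 {A B : Subgroup G} (hs : IsSpecialRankOnePair A B) :
    IsSpecialRankOnePair B A := by
  unfold IsSpecialRankOnePair
  refine ⟨RankOnePair_symm hs.1, ?_⟩
  intro b hb hb1 a ha ha1 R
  have s := hs.2 a ha ha1 b hb hb1 R.symm
  calc a⁻¹ * b * a = (a⁻¹ * b⁻¹ * a)⁻¹ := by group
    _ = (b⁻¹ * a * b)⁻¹ := by rw [s]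
    _ = b⁻¹ * a⁻¹ * b := by group

theorem rel_inv8 {A B : Subgroup G} (hs : IsSpecialRankOnePair A B)
    (hab : HasAbelianUnipotents A B)
    {a b : G} (ha : a ∈ A) (ha1 : a ≠ 1) (hb : b ∈ B) (R : conjBy A b⁻¹ = conjBy B a⁻¹) :
    conjBy A b = conjBy B a := by
  have h := hs.1
  have hb1 : b ≠ 1 := ne_one8 h ha R
  have s := hs.2 a ha ha1 b hb hb1 R
  have br := braid8 s
  obtain ⟨b', hb', hb'1, R'⟩ := h.cond_left a⁻¹ (A.inv_mem ha) (inv_ne_one.mpr ha1)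
  rw [inv_inv] at R'
  have hd : a * b⁻¹ * a⁻¹ = b * a * b⁻¹ := by
    calc a * b⁻¹ * a⁻¹ = b * (b⁻¹ * a * b⁻¹) * a⁻¹ := by group
      _ = b * (a * b⁻¹ * a) * a⁻¹ := by rw [br]
      _ = b * a * b⁻¹ := by group
  have hdB : a * b⁻¹ * a⁻¹ ∈ conjBy B a := ⟨b⁻¹, B.inv_mem hb, rfl⟩
  rw [← R', hd, mem_cj8] at hdB
  have hg : b' * b ∈ B := B.mul_mem hb' hb
  obtain ⟨c, hcdef⟩ : ∃ c, c = (b' * b) * a * (b' * b)⁻¹ := ⟨_, rfl⟩
  have hc : c ∈ A := by
    have e : (b' * b) * a * (b' * b)⁻¹ = (b'⁻¹)⁻¹ * (b * a * b⁻¹) * b'⁻¹ := by group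
    rw [hcdef, e]; exact hdB
  have hg1 : b' * b = 1 := by
    by_contra hne
    obtain ⟨a'', ha'', ha''1, R''⟩ :=
      h.cond_right (b' * b)⁻¹ (B.inv_mem hg) (inv_ne_one.mpr hne)
    rw [inv_inv] at R''
    have hc2 : c ∈ conjBy A (b' * b) := by
      rw [hcdef]; exact ⟨a, ha, rfl⟩
    rw [← R'', mem_cj8, inv_inv] at hc2
    have hcm : a'' * c = c * a'' :=
      congrArg Subtype.val (hab.1.is_comm.comm ⟨a'', ha''⟩ ⟨c, hc⟩)
    have hcomm : a'' * c * a''⁻¹ = c := by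
      rw [hcm, mul_assoc, mul_inv_cancel, mul_one]
    rw [hcomm] at hc2
    have hc1 := core8 (RankOnePair_symm h) hc (cj_mem8 hc2)
    have ea : a = (b' * b)⁻¹ * ((b' * b) * a * (b' * b)⁻¹) * (b' * b) := by group
    rw [← hcdef, hc1] at ea
    apply ha1
    rw [ea]; group
  have hb'e : b' = b⁻¹ := eq_inv_of_mul_eq_one_left hg1
  rw [hb'e, inv_inv] at R'
  exact R'

theorem keystep8 {A B : Subgroup G} (hs : IsSpecialRankOnePair A B) {a b : G} (ha : a ∈ A)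
    (ha1 : a ≠ 1) (hb : b ∈ B)
    (R : conjBy A b⁻¹ = conjBy B a⁻¹) (m : ℕ) {β : G}
    (Rβ : conjBy A β⁻¹ = conjBy B (a ^ (m + 1))⁻¹) :
    conjBy A (b * β⁻¹) = conjBy A (a * b ^ m) := by
  have h := hs.1
  have hb1 : b ≠ 1 := ne_one8 h ha R
  have s := hs.2 a ha ha1 b hb hb1 R
  have br := braid8 s
  have hμ : conjBy B (b * a⁻¹ * b) = A := by
    rw [← cj_mul8 B b (b * a⁻¹), cj_mem8 hb, ← cj_mul8 B a⁻¹ b, ← R, cj_mul8, mul_inv_cancel,
      cj_one8]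
  have sc0 : (a * b⁻¹ * a) * b⁻¹ = a * (a * b⁻¹ * a) := by
    calc (a * b⁻¹ * a) * b⁻¹ = a * (b⁻¹ * a * b⁻¹) := by group
      _ = a * (a * b⁻¹ * a) := by rw [br]
  have sc : SemiconjBy (a * b⁻¹ * a) b⁻¹ a := sc0
  have scm := sc.pow_right m
  have e2 : a ^ (m + 1) * b⁻¹ * a = (b⁻¹ * a * b⁻¹) * b⁻¹ ^ m := by
    calc a ^ (m + 1) * b⁻¹ * a = a ^ m * (a * b⁻¹ * a) := by
          rw [pow_succ]; simp only [mul_assoc]
      _ = (a * b⁻¹ * a) * b⁻¹ ^ m := scm.eq.symm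
      _ = (b⁻¹ * a * b⁻¹) * b⁻¹ ^ m := by rw [br]
  have e1 : (a ^ (m + 1) * b⁻¹ * a)⁻¹ = b ^ m * (b * a⁻¹ * b) := by
    rw [e2, mul_inv_rev, inv_pow, inv_inv]
    congr 1
    group
  have k1 : conjBy B (a ^ (m + 1) * b⁻¹ * a)⁻¹ = conjBy A (b ^ m) := by
    rw [e1, ← cj_mul8 B (b * a⁻¹ * b) (b ^ m), hμ]
  have k2 : conjBy B (a ^ (m + 1) * b⁻¹ * a)⁻¹ = conjBy A (a⁻¹ * b * β⁻¹) := by
    have e3 : (a ^ (m + 1) * b⁻¹ * a)⁻¹ = (a⁻¹ * b) * (a ^ (m + 1))⁻¹ := by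
      simp only [mul_inv_rev, inv_inv, mul_assoc]
    rw [e3, ← cj_mul8 B (a ^ (m + 1))⁻¹ (a⁻¹ * b), ← Rβ, cj_mul8]
  have k3 : conjBy A (a⁻¹ * b * β⁻¹) = conjBy A (b ^ m) := k2.symm.trans k1
  have k4 : conjBy (conjBy A (a⁻¹ * b * β⁻¹)) a = conjBy (conjBy A (b ^ m)) a := by rw [k3]
  have e4 : a * (a⁻¹ * b * β⁻¹) = b * β⁻¹ := by group
  rw [cj_mul8, cj_mul8, e4] at k4
  exact k4

theorem keyL8 : ∀ (m : ℕ) {A B : Subgroup G}, IsSpecialRankOnePair A B →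
    HasAbelianUnipotents A B →
    ∀ a ∈ A, a ^ m ≠ 1 → ∀ β ∈ B, ∀ b ∈ B, conjBy A β⁻¹ = conjBy B (a ^ m)⁻¹ →
      conjBy A b⁻¹ = conjBy B a⁻¹ → β ^ m = b := by
  intro m
  induction m with
  | zero =>
    intro A B hs hab a ha ham
    exact absurd (pow_zero a) ham
  | succ m ih =>
    intro A B hs hab a ha ham β hβ b hb Rβ R
    have h := hs.1
    have ha1 : a ≠ 1 := by
      intro e; apply ham; rw [e, one_pow]
    have hs' : IsSpecialRankOnePair B A := special_symm8 hs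
    have hab' : HasAbelianUnipotents B A := And.intro hab.2 hab.1
    have key := keystep8 hs ha ha1 hb R m Rβ
    by_cases hbm : b ^ m = 1
    · rw [hbm, mul_one, cj_mem8 ha] at key
      have h1 := core8 h (B.mul_mem hb (B.inv_mem hβ)) key
      have hbβ : b = β := mul_inv_eq_one.mp h1
      rw [← hbβ, pow_succ, hbm, one_mul]
    · obtain ⟨hh, hhA, hh1, Rh⟩ := h.cond_right (b ^ m) (B.pow_mem hb m) hbm
      have hhm : hh ^ m = a := ih hs' hab' b hb hbm hh hhA a ha Rh R.symm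
      have Rh' : conjBy B hh = conjBy A (b ^ m) :=
        rel_inv8 hs' hab' (B.pow_mem hb m) hbm hhA Rh
      have k5 : conjBy A (a * b ^ m) = conjBy B (hh ^ (m + 1)) := by
        rw [← cj_mul8 A (b ^ m) a, ← Rh', cj_mul8, ← hhm, ← pow_succ]
      obtain ⟨e, hedef⟩ : ∃ e, e = hh ^ (m + 1) := ⟨_, rfl⟩
      have heA : e ∈ A := by rw [hedef]; exact A.pow_mem hhA _
      have hem : e ^ m = a ^ (m + 1) := by
        rw [hedef, ← hhm, ← pow_mul, ← pow_mul, mul_comm]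
      have hem1 : e ^ m ≠ 1 := by rw [hem]; exact ham
      have he1 : e ≠ 1 := by
        intro e0; apply hem1; rw [e0, one_pow]
      obtain ⟨ε, hε, hε1, Rε⟩ := h.cond_left e heA he1
      have Rε' : conjBy A ε = conjBy B e := rel_inv8 hs hab heA he1 hε Rε
      have k6 : conjBy A (b * β⁻¹) = conjBy A ε := by
        rw [key, k5, ← hedef, Rε']
      have hbe : b * β⁻¹ = ε := uniq8 h (B.mul_mem hb (B.inv_mem hβ)) hε k6
      have Rβ' : conjBy A β⁻¹ = conjBy B (e ^ m)⁻¹ := by rw [hem]; exact Rβ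
      have hβm : β ^ m = ε := ih hs hab e heA hem1 β hβ ε hε Rβ' Rε
      rw [pow_succ, hβm, ← hbe]
      exact inv_mul_cancel_right b β

theorem special_elem_or_div8 {A B : Subgroup G}
    (hs : IsSpecialRankOnePair A B) (hab : HasAbelianUnipotents A B) :
    (∃ p : ℕ, p.Prime ∧ IsElementaryAbelian p A) ∨
    ((∀ a ∈ A, a ≠ 1 → ¬ IsOfFinOrder a) ∧ ∀ a ∈ A, ∀ n : ℕ, 0 < n → ∃ c ∈ A, c ^ n = a) := by
  have h := hs.1
  have hs' : IsSpecialRankOnePair B A := special_symm8 hs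
  have hab' : HasAbelianUnipotents B A := And.intro hab.2 hab.1
  by_cases hfin : ∃ a ∈ A, a ≠ 1 ∧ IsOfFinOrder a
  · left
    obtain ⟨a, ha, ha1, hfo⟩ := hfin
    have hn1 : orderOf a ≠ 1 := by
      intro e; exact ha1 (orderOf_eq_one_iff.mp e)
    obtain ⟨p, hp, hpn⟩ := Nat.exists_prime_and_dvd hn1
    refine ⟨p, hp, And.intro hab.1 ?_⟩
    obtain ⟨k, hk⟩ := hpn
    have hk0 : 0 < k := by
      rcases Nat.eq_zero_or_pos k with e | e
      · rw [e, mul_zero] at hk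
        have := hfo.orderOf_pos
        omega
      · exact e
    have ha'p : (a ^ k) ^ p = 1 := by
      rw [← pow_mul, mul_comm, ← hk, pow_orderOf_eq_one]
    have ha'1 : a ^ k ≠ 1 := by
      intro e
      have h1 := orderOf_dvd_of_pow_eq_one e
      have hle := Nat.le_of_dvd hk0 h1
      have h2 : 2 * k ≤ p * k := Nat.mul_le_mul_right k hp.two_le
      rw [hk] at hle
      linarith
    intro c hc
    by_contra hcp
    have hc1 : c ≠ 1 := by intro e; apply hcp; rw [e, one_pow]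
    have hac : a ^ k * c ∈ A := A.mul_mem (A.pow_mem ha k) hc
    have hcomm : a ^ k * c = c * a ^ k :=
      congrArg Subtype.val (hab.1.is_comm.comm ⟨a ^ k, A.pow_mem ha k⟩ ⟨c, hc⟩)
    have hcomm' : Commute (a ^ k) c := hcomm
    have hacp : (a ^ k * c) ^ p = c ^ p := by
      rw [hcomm'.mul_pow p, ha'p, one_mul]
    have hacp1 : (a ^ k * c) ^ p ≠ 1 := by rw [hacp]; exact hcp
    have hac1 : a ^ k * c ≠ 1 := by intro e; apply hacp1; rw [e, one_pow]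
    obtain ⟨β, hβ, hβ1, Rβ⟩ := h.cond_left (c ^ p) (A.pow_mem hc p) hcp
    obtain ⟨b1, hb1, hb11, R1⟩ := h.cond_left c hc hc1
    obtain ⟨b2, hb2, hb21, R2⟩ := h.cond_left (a ^ k * c) hac hac1
    have e1 : β ^ p = b1 := keyL8 p hs hab c hc hcp β hβ b1 hb1 Rβ R1
    have Rβ2 : conjBy A β⁻¹ = conjBy B ((a ^ k * c) ^ p)⁻¹ := by rw [hacp]; exact Rβ
    have e2 : β ^ p = b2 := keyL8 p hs hab (a ^ k * c) hac hacp1 β hβ b2 hb2 Rβ2 R2
    have e3 : b1 = b2 := e1.symm.trans e2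
    rw [e3] at R1
    have e4 : conjBy B c⁻¹ = conjBy B (a ^ k * c)⁻¹ := R1.symm.trans R2
    have e5 := uniq8 (RankOnePair_symm h) (A.inv_mem hc) (A.inv_mem hac) e4
    have e6 : c = a ^ k * c := inv_injective e5
    apply ha'1
    exact mul_right_cancel (show a ^ k * c = 1 * c by rw [one_mul]; exact e6.symm)
  · right
    have htf : ∀ a ∈ A, a ≠ 1 → ¬ IsOfFinOrder a := by
      intro a ha ha1 hfo
      exact hfin ⟨a, ha, ha1, hfo⟩
    refine ⟨htf, ?_⟩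
    intro a ha n hn
    by_cases ha1 : a = 1
    · exact ⟨1, A.one_mem, by rw [ha1, one_pow]⟩
    obtain ⟨b, hb, hb1, R⟩ := h.cond_left a ha ha1
    have hbn : b ^ n ≠ 1 := by
      intro e
      have hn2 : 2 ≤ n := by
        by_contra hlt
        have hn1 : n = 1 := by omega
        rw [hn1, pow_one] at e
        exact hb1 e
      obtain ⟨j, rfl⟩ : ∃ j, n = j + 1 := ⟨n - 1, by omega⟩
      have ebj : b ^ j = b⁻¹ := by
        rw [pow_succ] at e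
        exact eq_inv_of_mul_eq_one_left e
      have hbj1 : b ^ j ≠ 1 := by rw [ebj]; exact inv_ne_one.mpr hb1
      have Rinv : conjBy A b = conjBy B a := rel_inv8 hs hab ha ha1 hb R
      have R3 : conjBy B (a⁻¹)⁻¹ = conjBy A (b ^ j)⁻¹ := by
        rw [ebj, inv_inv, inv_inv]; exact Rinv.symm
      have e1 : (a⁻¹) ^ j = a :=
        keyL8 j hs' hab' b hb hbj1 a⁻¹ (A.inv_mem ha) a ha R3 R.symm
      apply htf a ha ha1
      rw [isOfFinOrder_iff_pow_eq_one]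
      refine ⟨j + 1, by omega, ?_⟩
      calc a ^ (j + 1) = a ^ j * a := pow_succ a j
        _ = a ^ j * (a⁻¹) ^ j := by rw [e1]
        _ = 1 := by rw [inv_pow, mul_inv_cancel]
    obtain ⟨c, hc, hc1, Rc⟩ := h.cond_right (b ^ n) (B.pow_mem hb n) hbn
    exact ⟨c, hc, keyL8 n hs' hab' b hb hbn c hc a ha Rc R.symm⟩

end Cfsg.Agent.Lib.Helper8
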