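import Mathlib
import Cfsg.Prelude.Def_RootSubgroups
import Cfsg.Prelude.Def_Transfer

set_option autoImplicit false

namespace Cfsg.Agent.Lib.Helper8

open Cfsg

theorem rankone_quadratic8 {X : Type*} [Group X] {A B : Subgroup X} (h : IsRankOneGroup X A B)
    {V : Type*} [AddCommGroup V] [DistribMulAction X V]
    (hf : ∀ x : X, (∀ v : V, x • v = v) → x = 1)
    (hq : ∀ a ∈ A, ∀ a' ∈ A, ∀ v : V, a' • (a • v - v) = a • v - v) :
    (∀ a ∈ A, a ≠ 1 → ¬ IsOfFinOrder a) ∨ ∃ p : ℕ, p.Prime ∧ IsElementaryAbelian p A := by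
  obtain ⟨-, hpair⟩ := h
  obtain ⟨ρ, hρ⟩ : ∃ ρ : X →* AddMonoid.End V, ∀ x v, ρ x v = x • v :=
    ⟨DistribMulAction.toAddMonoidEnd X V, fun x v => rfl⟩
  have hρinj : ∀ x y : X, ρ x = ρ y → x = y := by
    intro x y hxy
    have h1 : x⁻¹ * y = 1 := by
      apply hf
      intro v
      rw [← hρ, map_mul, ← hxy, ← map_mul, inv_mul_cancel, map_one]
      rfl
    exact inv_mul_eq_one.mp h1
  have hquad : ∀ a ∈ A, ∀ a' ∈ A, (ρ a' - 1) * (ρ a - 1) = 0 := by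
    intro a ha a' ha'
    ext v
    show ρ a' (ρ a v - v) - (ρ a v - v) = 0
    rw [hρ, hρ, hq a ha a' ha' v, sub_self]
  have hcomm : ∀ a ∈ A, ∀ a' ∈ A, a * a' = a' * a := by
    intro a ha a' ha'
    apply hρinj
    rw [map_mul, map_mul]
    have h1 := hquad a ha a' ha'
    have h2 := hquad a' ha' a ha
    have e1 : ρ a * ρ a' = (ρ a - 1) * (ρ a' - 1) + ρ a + ρ a' - 1 := by noncomm_ring
    have e2 : ρ a' * ρ a = (ρ a' - 1) * (ρ a - 1) + ρ a + ρ a' - 1 := by noncomm_ring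
    rw [e1, e2, h1, h2]
  have hpow : ∀ a ∈ A, ∀ n : ℕ, ρ (a ^ n) = 1 + (n : AddMonoid.End V) * (ρ a - 1) := by
    intro a ha n
    induction n with
    | zero => rw [pow_zero, map_one, Nat.cast_zero, zero_mul, add_zero]
    | succ n ih =>
      have h1 := hquad a ha a ha
      rw [pow_succ, map_mul, ih, Nat.cast_succ]
      have e : (1 + (n : AddMonoid.End V) * (ρ a - 1)) * ρ a =
          1 + ((n : AddMonoid.End V) + 1) * (ρ a - 1) +
            (n : AddMonoid.End V) * ((ρ a - 1) * (ρ a - 1)) := by noncomm_ring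
      rw [e, h1, mul_zero, add_zero]
  by_cases htf : ∀ a ∈ A, a ≠ 1 → ¬ IsOfFinOrder a
  · exact Or.inl htf
  right
  have hex : ∃ a ∈ A, a ≠ 1 ∧ IsOfFinOrder a := by
    by_contra hc
    apply htf
    intro a ha ha1 hfin
    exact hc ⟨a, ha, ha1, hfin⟩
  obtain ⟨a, ha, ha1, hfin⟩ := hex
  have hord0 : orderOf a ≠ 0 := (orderOf_pos_iff.mpr hfin).ne'
  have hord1 : orderOf a ≠ 1 := fun h1 => ha1 (orderOf_eq_one_iff.mp h1)
  obtain ⟨p, hp, hpd⟩ := Nat.exists_prime_and_dvd hord1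
  have ha₀ord : orderOf (a ^ (orderOf a / p)) = p := orderOf_pow_orderOf_div hord0 hpd
  obtain ⟨a₀, ha₀def⟩ : ∃ a₀ : X, a₀ = a ^ (orderOf a / p) := ⟨_, rfl⟩
  rw [← ha₀def] at ha₀ord
  have ha₀ : a₀ ∈ A := by
    rw [ha₀def]
    exact A.pow_mem ha _
  have ha₀1 : a₀ ≠ 1 := by
    intro h1
    rw [h1, orderOf_one] at ha₀ord
    exact hp.one_lt.ne ha₀ord
  have ha₀p : a₀ ^ p = 1 := by
    rw [← ha₀ord]
    exact pow_orderOf_eq_one a₀
  refine ⟨p, hp, ⟨⟨fun x y => Subtype.ext (hcomm x x.2 y y.2)⟩⟩, ?_⟩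
  have hpα : p • (ρ a₀ - 1) = 0 := by
    have h1 := hpow a₀ ha₀ p
    rw [ha₀p, map_one] at h1
    have h2 : (1 : AddMonoid.End V) + 0 = 1 + (p : AddMonoid.End V) * (ρ a₀ - 1) := by
      rw [add_zero]
      exact h1
    rw [nsmul_eq_mul]
    exact (add_left_cancel h2).symm
  obtain ⟨b, hb, hb1, hconj⟩ := hpair.cond_left a₀ ha₀ ha₀1
  have m1 : ∀ x ∈ A, ∃ z ∈ B, b⁻¹ * x * b = a₀⁻¹ * z * a₀ := by
    intro x hx
    have h1 : b⁻¹ * x * b ∈ conjBy A b⁻¹ := ⟨x, hx, by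
      show b⁻¹ * x * b⁻¹⁻¹ = b⁻¹ * x * b
      rw [inv_inv]⟩
    rw [hconj] at h1
    obtain ⟨z, hz, hzeq⟩ := h1
    refine ⟨z, hz, ?_⟩
    rw [← hzeq]
    show a₀⁻¹ * z * a₀⁻¹⁻¹ = a₀⁻¹ * z * a₀
    rw [inv_inv]
  have m2 : ∀ z ∈ B, ∃ x ∈ A, b⁻¹ * x * b = a₀⁻¹ * z * a₀ := by
    intro z hz
    have h1 : a₀⁻¹ * z * a₀ ∈ conjBy B a₀⁻¹ := ⟨z, hz, by
      show a₀⁻¹ * z * a₀⁻¹⁻¹ = a₀⁻¹ * z * a₀
      rw [inv_inv]⟩
    rw [← hconj] at h1
    obtain ⟨x, hx, hxeq⟩ := h1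
    refine ⟨x, hx, ?_⟩
    rw [← hxeq]
    show b⁻¹ * x * b = b⁻¹ * x * b⁻¹⁻¹
    rw [inv_inv]
  obtain ⟨x₀, hx₀, hx₀eq⟩ := m2 b hb
  have hbeq : b = a₀ * b⁻¹ * x₀ * (b * a₀⁻¹) := by
    calc b = a₀ * (a₀⁻¹ * b * a₀) * a₀⁻¹ := by group
      _ = a₀ * (b⁻¹ * x₀ * b) * a₀⁻¹ := by rw [hx₀eq]
      _ = a₀ * b⁻¹ * x₀ * (b * a₀⁻¹) := by group
  -- the endomorphisms
  obtain ⟨α, hα⟩ : ∃ α : AddMonoid.End V, α = ρ a₀ - 1 := ⟨_, rfl⟩
  obtain ⟨β, hβ⟩ : ∃ β : AddMonoid.End V, β = ρ b - 1 := ⟨_, rfl⟩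
  obtain ⟨T, hT⟩ : ∃ T : AddMonoid.End V, T = ρ (a₀ * b⁻¹) := ⟨_, rfl⟩
  obtain ⟨T', hT'⟩ : ∃ T' : AddMonoid.End V, T' = ρ (b * a₀⁻¹) := ⟨_, rfl⟩
  have hTT' : T * T' = 1 := by
    rw [hT, hT', ← map_mul]
    have : a₀ * b⁻¹ * (b * a₀⁻¹) = 1 := by group
    rw [this, map_one]
  have hT'T : T' * T = 1 := by
    rw [hT, hT', ← map_mul]
    have : b * a₀⁻¹ * (a₀ * b⁻¹) = 1 := by group
    rw [this, map_one]
  have hρa : ρ a₀ = α + 1 := by rw [hα, sub_add_cancel]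
  have hρb : ρ b = β + 1 := by rw [hβ, sub_add_cancel]
  have hβT : β = T * (ρ x₀ - 1) * T' := by
    have h1 : ρ b = T * ρ x₀ * T' := by
      rw [hT, hT', ← map_mul, ← map_mul, ← hbeq]
    have e : T * (ρ x₀ - 1) * T' = T * ρ x₀ * T' - T * T' := by noncomm_ring
    rw [hβ, e, hTT', h1]
  have hαα : α * α = 0 := by
    rw [hα]
    exact hquad a₀ ha₀ a₀ ha₀
  have hββ : β * β = 0 := by
    have e : T * (ρ x₀ - 1) * T' * (T * (ρ x₀ - 1) * T') =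
        T * (ρ x₀ - 1) * (T' * T) * (ρ x₀ - 1) * T' := by noncomm_ring
    rw [hβT, e, hT'T, mul_one, mul_assoc T, hquad x₀ hx₀ x₀ hx₀, mul_zero, zero_mul]
  have hρb' : ρ b⁻¹ = 1 - β := by
    have e1 : (β + 1) * (1 - β) = 1 - β * β := by noncomm_ring
    have e2 : ρ b⁻¹ * ρ b = 1 := by rw [← map_mul, inv_mul_cancel, map_one]
    calc ρ b⁻¹ = ρ b⁻¹ * ((β + 1) * (1 - β)) := by rw [e1, hββ, sub_zero, mul_one]
      _ = (ρ b⁻¹ * ρ b) * (1 - β) := by rw [hρb, mul_assoc]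
      _ = 1 - β := by rw [e2, one_mul]
  have hρa' : ρ a₀⁻¹ = 1 - α := by
    have e1 : (α + 1) * (1 - α) = 1 - α * α := by noncomm_ring
    have e2 : ρ a₀⁻¹ * ρ a₀ = 1 := by rw [← map_mul, inv_mul_cancel, map_one]
    calc ρ a₀⁻¹ = ρ a₀⁻¹ * ((α + 1) * (1 - α)) := by rw [e1, hαα, sub_zero, mul_one]
      _ = (ρ a₀⁻¹ * ρ a₀) * (1 - α) := by rw [hρa, mul_assoc]
      _ = 1 - α := by rw [e2, one_mul]
  have hTeq : T = (α + 1) * (1 - β) := by rw [hT, map_mul, hρa, hρb']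
  have hT'eq : T' = (β + 1) * (1 - α) := by rw [hT', map_mul, hρb, hρa']
  -- every element of A has order dividing p
  have hcommb : ∀ y ∈ A, b * y ^ p = y ^ p * b := by
    intro y hy
    obtain ⟨η, hη⟩ : ∃ η : AddMonoid.End V, η = ρ y - 1 := ⟨_, rfl⟩
    have hαη : α * η = 0 := by
      rw [hα, hη]
      exact hquad y hy a₀ ha₀
    have hηα : η * α = 0 := by
      rw [hα, hη]
      exact hquad a₀ ha₀ y hy
    have R1 : β * T * η = 0 := by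
      have e : T * (ρ x₀ - 1) * T' * T * η = T * (ρ x₀ - 1) * (T' * T) * η := by noncomm_ring
      rw [hβT, e, hT'T, mul_one, mul_assoc T, hη, hquad y hy x₀ hx₀, mul_zero]
    have R2 : η * T' * β = 0 := by
      have e : η * T' * (T * (ρ x₀ - 1) * T') = η * (T' * T) * (ρ x₀ - 1) * T' := by noncomm_ring
      rw [hβT, e, hT'T, mul_one, hη, hquad x₀ hx₀ y hy, zero_mul]
    have key1 : β * η = β * α * β * η := by
      have e : β * ((α + 1) * (1 - β)) * η =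
          β * η - (β * β) * η + β * (α * η) - β * α * β * η := by noncomm_ring
      rw [hTeq, e, hββ, hαη, zero_mul, mul_zero, sub_zero, add_zero] at R1
      exact sub_eq_zero.mp R1
    have key2 : η * β = η * β * α * β := by
      have e : η * ((β + 1) * (1 - α)) * β =
          η * β - (η * α) * β + η * (β * β) - η * β * α * β := by noncomm_ring
      rw [hT'eq, e, hββ, hηα, zero_mul, mul_zero, sub_zero, add_zero] at R2
      exact sub_eq_zero.mp R2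
    have k1 : p • (β * η) = 0 := by
      rw [key1]
      have e : p • (β * α * β * η) = β * (p • α) * β * η := by
        simp only [mul_smul_comm, smul_mul_assoc]
      rw [e, hα, hpα, mul_zero, zero_mul, zero_mul]
    have k2 : p • (η * β) = 0 := by
      rw [key2]
      have e : p • (η * β * α * β) = η * β * (p • α) * β := by
        simp only [mul_smul_comm, smul_mul_assoc]
      rw [e, hα, hpα, mul_zero, zero_mul]
    have hθ : ρ (y ^ p) = p • η + 1 := by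
      rw [hpow y hy p, nsmul_eq_mul, hη, add_comm]
    apply hρinj
    rw [map_mul, map_mul, hθ, hρb]
    have e1 : (β + 1) * (p • η + 1) = p • (β * η) + β + p • η + 1 := by
      rw [add_mul, mul_add, mul_add, mul_smul_comm, mul_one, one_mul, mul_one]
      abel
    have e2 : (p • η + 1) * (β + 1) = p • (η * β) + β + p • η + 1 := by
      rw [add_mul, mul_add, mul_add, smul_mul_assoc, mul_one, one_mul, mul_one]
      abel
    rw [e1, e2, k1, k2]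
  intro y hy
  by_contra hy1
  have hy2 : y ^ p ∈ A := A.pow_mem hy p
  have hyb := hcommb y hy
  -- y ^ p lies in B
  obtain ⟨z, hz, hzeq⟩ := m1 (y ^ p) hy2
  have hzy : z = y ^ p := by
    have h1 : b⁻¹ * y ^ p * b = y ^ p := by
      rw [mul_assoc, ← hyb, inv_mul_cancel_left]
    rw [h1] at hzeq
    have h2 : z = a₀ * y ^ p * a₀⁻¹ := by
      rw [hzeq]
      group
    rw [h2, hcomm a₀ ha₀ (y ^ p) hy2, mul_assoc, mul_inv_cancel, mul_one]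
  have hyB : y ^ p ∈ B := by
    rw [← hzy]
    exact hz
  -- y ^ p centralizes B
  have hcentB : ∀ z' ∈ B, z' * y ^ p = y ^ p * z' := by
    intro z' hz'
    obtain ⟨x', hx', hx'eq⟩ := m2 z' hz'
    obtain ⟨x₂, hx₂, hx₂eq⟩ := m2 (y ^ p) hyB
    have h1 : (b⁻¹ * x' * b) * (b⁻¹ * x₂ * b) = (b⁻¹ * x₂ * b) * (b⁻¹ * x' * b) := by
      have e1 : (b⁻¹ * x' * b) * (b⁻¹ * x₂ * b) = b⁻¹ * (x' * x₂) * b := by group
      have e2 : (b⁻¹ * x₂ * b) * (b⁻¹ * x' * b) = b⁻¹ * (x₂ * x') * b := by group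
      rw [e1, e2, hcomm x' hx' x₂ hx₂]
    rw [hx'eq, hx₂eq] at h1
    have e3 : a₀⁻¹ * z' * a₀ * (a₀⁻¹ * y ^ p * a₀) = a₀⁻¹ * (z' * y ^ p) * a₀ := by group
    have e4 : a₀⁻¹ * y ^ p * a₀ * (a₀⁻¹ * z' * a₀) = a₀⁻¹ * (y ^ p * z') * a₀ := by group
    rw [e3, e4] at h1
    exact mul_left_cancel (mul_right_cancel h1)
  obtain ⟨b₂, hb₂, -, hconj₂⟩ := hpair.cond_left (y ^ p) hy2 hy1
  have hBB : conjBy B (y ^ p)⁻¹ = B := by
    ext w
    constructor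
    · rintro ⟨z', hz', rfl⟩
      have h1 : (MulAut.conj (y ^ p)⁻¹).toMonoidHom z' = z' := by
        show (y ^ p)⁻¹ * z' * (y ^ p)⁻¹⁻¹ = z'
        rw [inv_inv, mul_assoc, hcentB z' hz', inv_mul_cancel_left]
      rw [h1]
      exact hz'
    · intro hw
      refine ⟨w, hw, ?_⟩
      show (y ^ p)⁻¹ * w * (y ^ p)⁻¹⁻¹ = w
      rw [inv_inv, mul_assoc, hcentB w hw, inv_mul_cancel_left]
  rw [hBB] at hconj₂
  apply hpair.ne
  apply le_antisymm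
  · intro x hx
    have h1 : b₂⁻¹ * x * b₂ ∈ conjBy A b₂⁻¹ := ⟨x, hx, by
      show b₂⁻¹ * x * b₂⁻¹⁻¹ = b₂⁻¹ * x * b₂
      rw [inv_inv]⟩
    rw [hconj₂] at h1
    have h2 : b₂ * (b₂⁻¹ * x * b₂) * b₂⁻¹ ∈ B := B.mul_mem (B.mul_mem hb₂ h1) (B.inv_mem hb₂)
    have e : b₂ * (b₂⁻¹ * x * b₂) * b₂⁻¹ = x := by group
    rw [e] at h2
    exact h2
  · intro z' hz'
    have h1 : b₂⁻¹ * z' * b₂ ∈ B := B.mul_mem (B.mul_mem (B.inv_mem hb₂) hz') hb₂
    rw [← hconj₂] at h1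
    obtain ⟨x, hx, hxeq⟩ := h1
    have h2 : b₂⁻¹ * x * b₂⁻¹⁻¹ = b₂⁻¹ * z' * b₂ := hxeq
    rw [inv_inv] at h2
    have h3 : x = z' := mul_left_cancel (mul_right_cancel h2)
    rw [← h3]
    exact hx

end Cfsg.Agent.Lib.Helper8
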