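import Mathlib
import Cfsg.Prelude.Def_RootSubgroups
import Cfsg.Prelude.Def_Transfer

set_option autoImplicit false

namespace Cfsg.Agent.Lib.Helper8

open Cfsg

theorem rankone_special8 {X : Type*} [Group X] {A B : Subgroup X} (h : IsRankOneGroup X A B)
    (hab : HasAbelianUnipotents A B) {N : Type*} [AddCommGroup N] [DistribMulAction X N]
    (hq : ∀ a ∈ A, ∀ a' ∈ A, ∀ n : N, a' • (a • n - n) = a • n - n)
    (hX : ∃ x y : X, ∃ n : N, y • (x • n - n) ≠ x • n - n) : IsSpecialRankOnePair A B := by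
  obtain ⟨htop, hpair⟩ := h
  refine ⟨hpair, ?_⟩
  intro a₀ ha₀ ha₀1 b hb hb1 hconj
  obtain ⟨ρ, hρ⟩ : ∃ ρ : X →* AddMonoid.End N, ∀ x v, ρ x v = x • v :=
    ⟨DistribMulAction.toAddMonoidEnd X N, fun x v => rfl⟩
  have hquad : ∀ a ∈ A, ∀ a' ∈ A, (ρ a' - 1) * (ρ a - 1) = 0 := by
    intro a ha a' ha'
    ext v
    show ρ a' (ρ a v - v) - (ρ a v - v) = 0
    rw [hρ, hρ, hq a ha a' ha' v, sub_self]
  have hcommA : ∀ x ∈ A, ∀ y ∈ A, x * y = y * x := by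
    intro x hx y hy
    exact congrArg Subtype.val (hab.1.is_comm.comm (⟨x, hx⟩ : A) ⟨y, hy⟩)
  have hcommB : ∀ x ∈ B, ∀ y ∈ B, x * y = y * x := by
    intro x hx y hy
    exact congrArg Subtype.val (hab.2.is_comm.comm (⟨x, hx⟩ : B) ⟨y, hy⟩)
  have m1 : ∀ x ∈ A, ∃ z ∈ B, b⁻¹ * x * b = a₀⁻¹ * z * a₀ := by
    intro x hx
    have h1 : b⁻¹ * x * b ∈ conjBy A b⁻¹ := ⟨x, hx, by
      show b⁻¹ * x * b⁻¹⁻¹ = b⁻¹ * x * b
      rw [inv_inv]⟩
    rw [hconj] at h1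
    obtain ⟨z, hz, hzeq⟩ := h1
    refine ⟨z, hz, ?_⟩
    rw [← hzeq]
    show a₀⁻¹ * z * a₀⁻¹⁻¹ = a₀⁻¹ * z * a₀
    rw [inv_inv]
  have m2 : ∀ z ∈ B, ∃ x ∈ A, b⁻¹ * x * b = a₀⁻¹ * z * a₀ := by
    intro z hz
    have h1 : a₀⁻¹ * z * a₀ ∈ conjBy B a₀⁻¹ := ⟨z, hz, by
      show a₀⁻¹ * z * a₀⁻¹⁻¹ = a₀⁻¹ * z * a₀
      rw [inv_inv]⟩
    rw [← hconj] at h1
    obtain ⟨x, hx, hxeq⟩ := h1
    refine ⟨x, hx, ?_⟩
    rw [← hxeq]
    show b⁻¹ * x * b = b⁻¹ * x * b⁻¹⁻¹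
    rw [inv_inv]
  obtain ⟨x₀, hx₀, hx₀eq⟩ := m2 b hb
  have hbeq : b = a₀ * b⁻¹ * x₀ * (b * a₀⁻¹) := by
    calc b = a₀ * (a₀⁻¹ * b * a₀) * a₀⁻¹ := by group
      _ = a₀ * (b⁻¹ * x₀ * b) * a₀⁻¹ := by rw [hx₀eq]
      _ = a₀ * b⁻¹ * x₀ * (b * a₀⁻¹) := by group
  obtain ⟨z, hz, hzeq⟩ := m1 a₀ ha₀
  have hzeq' : z = a₀ * b⁻¹ * a₀ * (b * a₀⁻¹) := by
    calc z = a₀ * (a₀⁻¹ * z * a₀) * a₀⁻¹ := by group
      _ = a₀ * (b⁻¹ * a₀ * b) * a₀⁻¹ := by rw [hzeq]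
      _ = a₀ * b⁻¹ * a₀ * (b * a₀⁻¹) := by group
  -- it suffices to show z * b = 1
  suffices hc : z * b = 1 by
    rw [hzeq, eq_inv_of_mul_eq_one_left hc]
  -- the endomorphisms
  obtain ⟨α, hα⟩ : ∃ α : AddMonoid.End N, α = ρ a₀ - 1 := ⟨_, rfl⟩
  obtain ⟨β, hβ⟩ : ∃ β : AddMonoid.End N, β = ρ b - 1 := ⟨_, rfl⟩
  obtain ⟨T, hT⟩ : ∃ T : AddMonoid.End N, T = ρ (a₀ * b⁻¹) := ⟨_, rfl⟩
  obtain ⟨T', hT'⟩ : ∃ T' : AddMonoid.End N, T' = ρ (b * a₀⁻¹) := ⟨_, rfl⟩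
  have hTT' : T * T' = 1 := by
    rw [hT, hT', ← map_mul]
    have : a₀ * b⁻¹ * (b * a₀⁻¹) = 1 := by group
    rw [this, map_one]
  have hT'T : T' * T = 1 := by
    rw [hT, hT', ← map_mul]
    have : b * a₀⁻¹ * (a₀ * b⁻¹) = 1 := by group
    rw [this, map_one]
  have hρa : ρ a₀ = α + 1 := by rw [hα, sub_add_cancel]
  have hρb : ρ b = β + 1 := by rw [hβ, sub_add_cancel]
  have hβT : β = T * (ρ x₀ - 1) * T' := by
    have h1 : ρ b = T * ρ x₀ * T' := by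
      rw [hT, hT', ← map_mul, ← map_mul, ← hbeq]
    have e : T * (ρ x₀ - 1) * T' = T * ρ x₀ * T' - T * T' := by noncomm_ring
    rw [hβ, e, hTT', h1]
  have hαα : α * α = 0 := by
    rw [hα]
    exact hquad a₀ ha₀ a₀ ha₀
  have hββ : β * β = 0 := by
    have e : T * (ρ x₀ - 1) * T' * (T * (ρ x₀ - 1) * T') =
        T * (ρ x₀ - 1) * (T' * T) * (ρ x₀ - 1) * T' := by noncomm_ring
    rw [hβT, e, hT'T, mul_one, mul_assoc T, hquad x₀ hx₀ x₀ hx₀, mul_zero, zero_mul]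
  have hρb' : ρ b⁻¹ = 1 - β := by
    have e1 : (β + 1) * (1 - β) = 1 - β * β := by noncomm_ring
    have e2 : ρ b⁻¹ * ρ b = 1 := by rw [← map_mul, inv_mul_cancel, map_one]
    calc ρ b⁻¹ = ρ b⁻¹ * ((β + 1) * (1 - β)) := by rw [e1, hββ, sub_zero, mul_one]
      _ = (ρ b⁻¹ * ρ b) * (1 - β) := by rw [hρb, mul_assoc]
      _ = 1 - β := by rw [e2, one_mul]
  have hρa' : ρ a₀⁻¹ = 1 - α := by
    have e1 : (α + 1) * (1 - α) = 1 - α * α := by noncomm_ring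
    have e2 : ρ a₀⁻¹ * ρ a₀ = 1 := by rw [← map_mul, inv_mul_cancel, map_one]
    calc ρ a₀⁻¹ = ρ a₀⁻¹ * ((α + 1) * (1 - α)) := by rw [e1, hαα, sub_zero, mul_one]
      _ = (ρ a₀⁻¹ * ρ a₀) * (1 - α) := by rw [hρa, mul_assoc]
      _ = 1 - α := by rw [e2, one_mul]
  have hTeq : T = (α + 1) * (1 - β) := by rw [hT, map_mul, hρa, hρb']
  have hT'eq : T' = (β + 1) * (1 - α) := by rw [hT', map_mul, hρb, hρa']
  have R1 : β * T * α = 0 := by
    have e : T * (ρ x₀ - 1) * T' * T * α = T * (ρ x₀ - 1) * (T' * T) * α := by noncomm_ring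
    rw [hβT, e, hT'T, mul_one, mul_assoc T, hα, hquad a₀ ha₀ x₀ hx₀, mul_zero]
  have R2 : α * T' * β = 0 := by
    have e : α * T' * (T * (ρ x₀ - 1) * T') = α * (T' * T) * (ρ x₀ - 1) * T' := by noncomm_ring
    rw [hβT, e, hT'T, mul_one, hα, hquad x₀ hx₀ a₀ ha₀, zero_mul]
  have hk1 : β * α * β * α = β * α := by
    have e : β * ((α + 1) * (1 - β)) * α =
        β * α - (β * β) * α + β * (α * α) - β * α * β * α := by noncomm_ring
    rw [hTeq, e, hββ, hαα, zero_mul, mul_zero, sub_zero, add_zero] at R1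
    exact (sub_eq_zero.mp R1).symm
  have hk2 : α * β * α * β = α * β := by
    have e : α * ((β + 1) * (1 - α)) * β =
        α * β - (α * α) * β + α * (β * β) - α * β * α * β := by noncomm_ring
    rw [hT'eq, e, hββ, hαα, zero_mul, mul_zero, sub_zero, add_zero] at R2
    exact (sub_eq_zero.mp R2).symm
  -- ρ z
  have hρz : ρ z = 1 + (α - β * α * β - α * β * α) := by
    have h1 : ρ z = T * ρ a₀ * T' := by
      rw [hT, hT', ← map_mul, ← map_mul, ← hzeq']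
    have e : (α + 1) * (1 - β) * (α + 1) * ((β + 1) * (1 - α)) =
        1 + (α + α * α - β * α - α * β * α + α * β + (α * α) * β - β * α * β - (α * β * α * β)
          - α * α - (α * α) * α + β * (α * α) + α * β * (α * α) - α * β * α - (α * α) * β * α
          + (β * α * β * α) + (α * β * α * β) * α) +
        ((α + 1) * (1 - β) * ((β + 1) * (1 - α)) - 1) := by noncomm_ring
    have hTT'2 : (α + 1) * (1 - β) * ((β + 1) * (1 - α)) = 1 := by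
      rw [← hTeq, ← hT'eq]
      exact hTT'
    rw [h1, hTeq, hT'eq, hρa, e, hTT'2, hαα, hk1, hk2]
    simp only [zero_mul, mul_zero, add_zero, sub_zero, sub_self]
    abel
  obtain ⟨Z, hZ⟩ : ∃ Z : AddMonoid.End N, Z = α - β * α * β - α * β * α := ⟨_, rfl⟩
  have hZβ : Z * β = 0 := by
    have e : (α - β * α * β - α * β * α) * β = α * β - β * α * (β * β) - (α * β * α * β) := by
      noncomm_ring
    rw [hZ, e, hββ, hk2, mul_zero, sub_zero, sub_self]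
  have hW1 : (Z + β) * α = 0 := by
    have e : (α - β * α * β - α * β * α + β) * α =
        α * α - (β * α * β * α) - α * β * (α * α) + β * α := by noncomm_ring
    rw [hZ, e, hαα, hk1, mul_zero, sub_zero, zero_sub, neg_add_cancel]
  have hW2 : α * (Z + β) = 0 := by
    have e : α * (α - β * α * β - α * β * α + β) =
        α * α - (α * β * α * β) - (α * α) * β * α + α * β := by noncomm_ring
    rw [hZ, e, hαα, hk2, zero_mul, zero_mul, sub_zero, zero_sub, neg_add_cancel]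
  have hρc : ρ (z * b) = 1 + (Z + β) := by
    rw [map_mul, hρz, ← hZ, hρb]
    have e : (1 + Z) * (β + 1) = 1 + (Z + β) + Z * β := by noncomm_ring
    rw [e, hZβ, add_zero]
  have hcomm_ca : ρ (z * b) * ρ a₀ = ρ a₀ * ρ (z * b) := by
    rw [hρc, hρa]
    have e1 : (1 + (Z + β)) * (α + 1) = 1 + (Z + β) + α + (Z + β) * α := by noncomm_ring
    have e2 : (α + 1) * (1 + (Z + β)) = 1 + (Z + β) + α + α * (Z + β) := by noncomm_ring
    rw [e1, e2, hW1, hW2]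
  have hcB : z * b ∈ B := B.mul_mem hz hb
  by_contra hc1
  -- ρ (z * b) = ρ x for some x ∈ A
  obtain ⟨x, hx, hxeq⟩ := m2 (z * b) hcB
  have hρx : ρ x = ρ (z * b) := by
    have h1 : x = b * (a₀⁻¹ * (z * b) * a₀) * b⁻¹ := by
      rw [← hxeq]
      group
    have h2 : ρ (a₀⁻¹ * (z * b) * a₀) = ρ (z * b) := by
      rw [map_mul, map_mul, mul_assoc, hcomm_ca, ← mul_assoc, ← map_mul, inv_mul_cancel, map_one,
        one_mul]
    have h3 : b * (z * b) * b⁻¹ = z * b := by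
      rw [hcommB b hb (z * b) hcB, mul_assoc, mul_inv_cancel, mul_one]
    rw [h1, map_mul, map_mul, h2, ← map_mul, ← map_mul, h3]
  have hρxinv : ρ (z * b)⁻¹ = ρ x⁻¹ := by
    have e1 : ρ (z * b)⁻¹ * ρ (z * b) = 1 := by rw [← map_mul, inv_mul_cancel, map_one]
    have e2 : ρ x * ρ x⁻¹ = 1 := by rw [← map_mul, mul_inv_cancel, map_one]
    calc ρ (z * b)⁻¹ = ρ (z * b)⁻¹ * (ρ x * ρ x⁻¹) := by rw [e2, mul_one]
      _ = (ρ (z * b)⁻¹ * ρ (z * b)) * ρ x⁻¹ := by rw [hρx, mul_assoc]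
      _ = ρ x⁻¹ := by rw [e1, one_mul]
  obtain ⟨a', ha', -, hconj'⟩ := hpair.cond_right (z * b) hcB hc1
  -- every element of B acts like an element of A
  have hBA : ∀ z' ∈ B, ∃ x' ∈ A, ρ z' = ρ x' := by
    intro z' hz'
    have h1 : a'⁻¹ * z' * a' ∈ conjBy B a'⁻¹ := ⟨z', hz', by
      show a'⁻¹ * z' * a'⁻¹⁻¹ = a'⁻¹ * z' * a'
      rw [inv_inv]⟩
    rw [hconj'] at h1
    obtain ⟨x', hx', hx'eq⟩ := h1
    have h2 : (z * b)⁻¹ * x' * (z * b)⁻¹⁻¹ = a'⁻¹ * z' * a' := hx'eq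
    rw [inv_inv] at h2
    refine ⟨x', hx', ?_⟩
    have h3 : z' = a' * ((z * b)⁻¹ * x' * (z * b)) * a'⁻¹ := by
      rw [h2]
      group
    have h4 : ρ ((z * b)⁻¹ * x' * (z * b)) = ρ x' := by
      rw [map_mul, map_mul, hρxinv, ← hρx, ← map_mul, ← map_mul]
      have : x⁻¹ * x' * x = x' := by
        rw [mul_assoc, hcommA x' hx' x hx, inv_mul_cancel_left]
      rw [this]
    have h5 : a' * x' * a'⁻¹ = x' := by
      rw [hcommA a' ha' x' hx', mul_assoc, mul_inv_cancel, mul_one]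
    rw [h3, map_mul, map_mul, h4, ← map_mul, ← map_mul, h5]
  -- the whole group acts through A
  have hall : ∀ w : X, ∃ x' ∈ A, ρ w = ρ x' := by
    let S' : Subgroup X :=
      { carrier := {w | ∃ x' ∈ A, ρ w = ρ x'}
        mul_mem' := by
          rintro w w' ⟨x1, hx1, h1⟩ ⟨x2, hx2, h2⟩
          exact ⟨x1 * x2, A.mul_mem hx1 hx2, by rw [map_mul, map_mul, h1, h2]⟩
        one_mem' := ⟨1, A.one_mem, rfl⟩
        inv_mem' := by
          rintro w ⟨x1, hx1, h1⟩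
          refine ⟨x1⁻¹, A.inv_mem hx1, ?_⟩
          have e1 : ρ w⁻¹ * ρ w = 1 := by rw [← map_mul, inv_mul_cancel, map_one]
          have e2 : ρ x1 * ρ x1⁻¹ = 1 := by rw [← map_mul, mul_inv_cancel, map_one]
          calc ρ w⁻¹ = ρ w⁻¹ * (ρ x1 * ρ x1⁻¹) := by rw [e2, mul_one]
            _ = (ρ w⁻¹ * ρ w) * ρ x1⁻¹ := by rw [h1, mul_assoc]
            _ = ρ x1⁻¹ := by rw [e1, one_mul] }
    have hA : A ≤ S' := fun w hw => ⟨w, hw, rfl⟩
    have hB : B ≤ S' := fun w hw => hBA w hw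
    have htop' : (⊤ : Subgroup X) ≤ S' := by
      rw [← htop]
      exact sup_le hA hB
    intro w
    exact htop' (Subgroup.mem_top w)
  obtain ⟨x1, y1, n, hne⟩ := hX
  obtain ⟨x2, hx2, hx2eq⟩ := hall x1
  obtain ⟨y2, hy2, hy2eq⟩ := hall y1
  apply hne
  have h1 : x1 • n = x2 • n := by rw [← hρ, ← hρ, hx2eq]
  have h2 : ∀ v : N, y1 • v = y2 • v := fun v => by rw [← hρ, ← hρ, hy2eq]
  rw [h1, h2]
  exact hq x2 hx2 y2 hy2 n

end Cfsg.Agent.Lib.Helper8
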