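import Mathlib
import Cfsg.Prelude.Def_ClassicalGeometry

set_option autoImplicit false

namespace Cfsg.Agent.Lib.Helper8

open Cfsg Matrix

variable {ι : Type} [Fintype ι] [DecidableEq ι] {F : Type*} [Field F]

theorem polarVec_dotProduct (Q : QuadraticForm F (ι → F)) (u x : ι → F) :
    polarVec (⇑Q) u ⬝ᵥ x = QuadraticMap.polar (⇑Q) u x := by
  have hx : x = ∑ j, x j • (Pi.single j (1 : F) : ι → F) := by
    ext i
    simp [Finset.sum_apply, Pi.single_apply]
  conv_rhs => rw [hx]
  rw [← QuadraticMap.polarBilin_apply_apply, map_sum]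
  simp only [map_smul, QuadraticMap.polarBilin_apply_apply, smul_eq_mul]
  unfold polarVec dotProduct
  apply Finset.sum_congr rfl
  intro j _
  ring

theorem commute_one_sub_iff {R : Type*} [Ring R] (X Y : R) :
    Commute (1 - X) (1 - Y) ↔ Commute X Y := by
  have key : ∀ X Y : R, Commute X Y → Commute (1 - X) (1 - Y) := by
    intro X Y h
    exact ((Commute.one_left _).sub_left ((Commute.one_right X).sub_right h))
  constructor
  · intro h
    have := key _ _ h
    simpa using this
  · exact key X Y

theorem commute_smul_iff {a b : F} (ha : a ≠ 0) (hb : b ≠ 0) (A B : Matrix ι ι F) :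
    Commute (a • A) (b • B) ↔ Commute A B := by
  constructor
  · intro h
    have := (h.smul_left a⁻¹).smul_right b⁻¹
    rwa [smul_smul, smul_smul, inv_mul_cancel₀ ha, inv_mul_cancel₀ hb, one_smul, one_smul] at this
  · intro h
    exact (h.smul_left a).smul_right b

theorem reflection_commute_iff (Q : QuadraticForm F (ι → F))
    (hQ : (QuadraticMap.polarBilin Q).Nondegenerate) (u v : ι → F) (hu : Q u ≠ 0)
    (huv : Q u = Q v) (h1 : v ≠ u) (h2 : v ≠ -u) :
    Commute (reflectionMatrix (⇑Q) u) (reflectionMatrix (⇑Q) v) ↔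
      QuadraticMap.polar (⇑Q) u v = 0 := by
  have hv : Q v ≠ 0 := huv ▸ hu
  have hAB : vecMulVec u (polarVec (⇑Q) u) * vecMulVec v (polarVec (⇑Q) v) =
      QuadraticMap.polar (⇑Q) u v • vecMulVec u (polarVec (⇑Q) v) := by
    rw [vecMulVec_mul_vecMulVec, polarVec_dotProduct]
    ext i j
    simp [vecMulVec_apply]
    ring
  have hBA : vecMulVec v (polarVec (⇑Q) v) * vecMulVec u (polarVec (⇑Q) u) =
      QuadraticMap.polar (⇑Q) u v • vecMulVec v (polarVec (⇑Q) u) := by
    rw [vecMulVec_mul_vecMulVec, polarVec_dotProduct, QuadraticMap.polar_comm]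
    ext i j
    simp [vecMulVec_apply]
    ring
  have hcomm : Commute (reflectionMatrix (⇑Q) u) (reflectionMatrix (⇑Q) v) ↔
      vecMulVec u (polarVec (⇑Q) u) * vecMulVec v (polarVec (⇑Q) v) =
        vecMulVec v (polarVec (⇑Q) v) * vecMulVec u (polarVec (⇑Q) u) := by
    unfold reflectionMatrix
    rw [commute_one_sub_iff, commute_smul_iff (inv_ne_zero hu) (inv_ne_zero hv)]
    rfl
  rw [hcomm, hAB, hBA]
  constructor
  · intro h
    by_contra hf
    have h3 : vecMulVec u (polarVec (⇑Q) v) = vecMulVec v (polarVec (⇑Q) u) :=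
      smul_right_injective _ hf h
    have h4 : ∀ x, QuadraticMap.polar (⇑Q) v x • u = QuadraticMap.polar (⇑Q) u x • v := by
      intro x
      have := congrArg (fun M : Matrix ι ι F => M *ᵥ x) h3
      simp only [vecMulVec_mulVec, polarVec_dotProduct] at this
      simpa using this
    have hu0 : u ≠ 0 := by
      rintro rfl
      exact hu (QuadraticMap.map_zero Q)
    have hex : ∃ x, QuadraticMap.polar (⇑Q) u x ≠ 0 := by
      by_contra hcon
      apply hu0
      apply hQ.1 u
      intro y
      rw [QuadraticMap.polarBilin_apply_apply]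
      by_contra hy
      exact hcon ⟨y, hy⟩
    obtain ⟨x, hx⟩ := hex
    have hvu : v = (QuadraticMap.polar (⇑Q) v x / QuadraticMap.polar (⇑Q) u x) • u := by
      rw [div_eq_inv_mul, mul_smul, h4 x, smul_smul, inv_mul_cancel₀ hx, one_smul]
    obtain ⟨lam, hlam⟩ : ∃ lam : F, v = lam • u := ⟨_, hvu⟩
    have hQv : Q v = (lam * lam) * Q u := by
      rw [hlam, QuadraticMap.map_smul]
      rfl
    have hl : lam * lam = 1 := by
      rw [← huv] at hQv
      have h5 : (lam * lam - 1) * Q u = 0 := by linear_combination -hQv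
      rcases mul_eq_zero.1 h5 with h | h
      · exact sub_eq_zero.1 h
      · exact absurd h hu
    have h6 : (lam - 1) * (lam + 1) = 0 := by linear_combination hl
    rcases mul_eq_zero.1 h6 with h | h
    · apply h1
      rw [hlam, sub_eq_zero.1 h, one_smul]
    · apply h2
      rw [hlam, eq_neg_of_add_eq_zero_left h, neg_smul, one_smul]
  · intro h
    rw [h, zero_smul, zero_smul]

end Cfsg.Agent.Lib.Helper8
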