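import Mathlib
import Cfsg.Prelude.Def_ClassicalGeometry
import Cfsg.Prelude.Def_FischerSpaces
import Cfsg.Agent.Lib.Helper8.Reflection

set_option autoImplicit false

namespace Cfsg.Agent.Lib.Helper8

open Cfsg Matrix

section general

variable {ι : Type} [Fintype ι] [DecidableEq ι] {F : Type*} [Field F]

theorem mat_ext_mulVec8 {M N : Matrix ι ι F} (h : ∀ x : ι → F, M *ᵥ x = N *ᵥ x) : M = N :=
  Matrix.ext_of_mulVec_single (fun _ => h _)

theorem refl_mulVec8 (Q : QuadraticForm F (ι → F)) (v x : ι → F) :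
    reflectionMatrix (⇑Q) v *ᵥ x = x - ((Q v)⁻¹ * QuadraticMap.polar (⇑Q) v x) • v := by
  unfold reflectionMatrix
  rw [Matrix.sub_mulVec, Matrix.one_mulVec, Matrix.smul_mulVec, Matrix.vecMulVec_mulVec,
    polarVec_dotProduct, op_smul_eq_smul, smul_smul]

theorem refl_Q8 (Q : QuadraticForm F (ι → F)) (v x : ι → F) (hv : Q v ≠ 0) :
    Q (reflectionMatrix (⇑Q) v *ᵥ x) = Q x := by
  rw [refl_mulVec8, sub_eq_add_neg, ← neg_smul, QuadraticMap.map_add (⇑Q), QuadraticMap.map_smul,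
    QuadraticMap.polar_smul_right, QuadraticMap.polar_comm (⇑Q) x v]
  simp only [smul_eq_mul]
  field_simp
  ring

theorem polar_isom8 (Q : QuadraticForm F (ι → F)) (G : Matrix ι ι F)
    (hG : ∀ x, Q (G *ᵥ x) = Q x) (x y : ι → F) :
    QuadraticMap.polar (⇑Q) (G *ᵥ x) (G *ᵥ y) = QuadraticMap.polar (⇑Q) x y := by
  unfold QuadraticMap.polar
  rw [← Matrix.mulVec_add, hG, hG, hG]

theorem refl_conj8 (Q : QuadraticForm F (ι → F)) (G : Matrix ι ι F)
    (hG : ∀ x, Q (G *ᵥ x) = Q x) (u : ι → F) :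
    G * reflectionMatrix (⇑Q) u = reflectionMatrix (⇑Q) (G *ᵥ u) * G := by
  apply mat_ext_mulVec8
  intro x
  rw [← Matrix.mulVec_mulVec, ← Matrix.mulVec_mulVec, refl_mulVec8, refl_mulVec8, hG,
    polar_isom8 Q G hG, Matrix.mulVec_sub, Matrix.mulVec_smul]

theorem refl_sq8 (Q : QuadraticForm F (ι → F)) (u : ι → F) (hu : Q u ≠ 0) :
    reflectionMatrix (⇑Q) u * reflectionMatrix (⇑Q) u = 1 := by
  apply mat_ext_mulVec8
  intro x
  rw [← Matrix.mulVec_mulVec, refl_mulVec8, refl_mulVec8, Matrix.one_mulVec,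
    QuadraticMap.polar_sub_right, QuadraticMap.polar_smul_right, QuadraticMap.polar_self]
  have key : ∀ (a b : F), a + b = 0 → x - a • u - b • u = x := by
    intro a b h
    rw [sub_sub, ← add_smul, h, zero_smul, sub_zero]
  apply key
  simp only [smul_eq_mul, nsmul_eq_mul, Nat.cast_ofNat]
  field_simp
  ring

theorem refl_self8 (Q : QuadraticForm F (ι → F)) (u : ι → F) (hu : Q u ≠ 0) :
    reflectionMatrix (⇑Q) u *ᵥ u = -u := by
  rw [refl_mulVec8, QuadraticMap.polar_self]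
  have h2 : (Q u)⁻¹ * (2 • Q u) = 2 := by
    simp only [smul_eq_mul, nsmul_eq_mul, Nat.cast_ofNat]
    field_simp
  rw [h2, two_smul]
  abel

theorem refl_neg8 (Q : QuadraticForm F (ι → F)) (u : ι → F) :
    reflectionMatrix (⇑Q) (-u) = reflectionMatrix (⇑Q) u := by
  apply mat_ext_mulVec8
  intro x
  rw [refl_mulVec8, refl_mulVec8]
  simp only [QuadraticMap.map_neg, QuadraticMap.polar_neg_left, smul_neg, mul_neg, neg_smul,
    neg_neg]

theorem mem_isometry_iff8 (Q : (ι → F) → F) (g : Matrix.GeneralLinearGroup ι F) :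
    g ∈ isometryGroup F Q ↔ ∀ x : ι → F, Q ((g : Matrix ι ι F) *ᵥ x) = Q x := by
  constructor
  · intro h x
    exact h x x
  · intro h x y
    exact h x

theorem refl_elem8 (Q : QuadraticForm F (ι → F)) (u : ι → F) (hu : Q u ≠ 0) :
    ∃ g : isometryGroup F (⇑Q),
      ((g : Matrix.GeneralLinearGroup ι F) : Matrix ι ι F) = reflectionMatrix (⇑Q) u := by
  have h := refl_sq8 Q u hu
  refine ⟨⟨⟨reflectionMatrix (⇑Q) u, reflectionMatrix (⇑Q) u, h, h⟩, ?_⟩, rfl⟩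
  rw [mem_isometry_iff8]
  intro x
  exact refl_Q8 Q u x hu

theorem refl_comm8 (Q : QuadraticForm F (ι → F)) (u v : ι → F) (hv : Q v ≠ 0)
    (h : QuadraticMap.polar (⇑Q) u v = 0) :
    reflectionMatrix (⇑Q) u * reflectionMatrix (⇑Q) v =
      reflectionMatrix (⇑Q) v * reflectionMatrix (⇑Q) u := by
  have hc := refl_conj8 Q (reflectionMatrix (⇑Q) v) (fun x => refl_Q8 Q v x hv) u
  have e : reflectionMatrix (⇑Q) v *ᵥ u = u := by
    rw [refl_mulVec8, QuadraticMap.polar_comm, h, mul_zero, zero_smul, sub_zero]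
  rw [e] at hc
  exact hc.symm

end general

theorem z3a8 : ∀ z : ZMod 3, z ≠ 0 → z = 1 ∨ z = -1 := by decide
theorem z3b8 : ∀ a c : ZMod 3, a ≠ 0 → c ≠ 0 → a = c ∨ a = -c := by decide
theorem z3c8 : ∀ z : ZMod 3, z = -z → z = 0 := by decide
theorem z3d8 : ∀ c : ZMod 3, c ≠ 0 → (2 : ℕ) • c ≠ 0 := by decide
theorem z3e8 : ∀ c : ZMod 3, -c + -c + 0 = c := by decide
theorem z3f8 : ∀ c : ZMod 3, c + c + 0 + -c + (0 + 0) = c := by decide
theorem z3g8 : ∀ c : ZMod 3, c + c + 0 = -c := by decide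

theorem refl_braid8 {n : ℕ} (Q : QuadraticForm (ZMod 3) (Fin n → ZMod 3)) (u v : Fin n → ZMod 3)
    (hu : Q u ≠ 0) (huv : Q u = Q v) (h : QuadraticMap.polar (⇑Q) u v ≠ 0) :
    reflectionMatrix (⇑Q) u * reflectionMatrix (⇑Q) v * reflectionMatrix (⇑Q) u =
      reflectionMatrix (⇑Q) v * reflectionMatrix (⇑Q) u * reflectionMatrix (⇑Q) v := by
  have hv : Q v ≠ 0 := by rw [← huv]; exact hu
  have h1 := refl_conj8 Q (reflectionMatrix (⇑Q) u) (fun x => refl_Q8 Q u x hu) v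
  have h2 := refl_conj8 Q (reflectionMatrix (⇑Q) v) (fun x => refl_Q8 Q v x hv) u
  have e1 : reflectionMatrix (⇑Q) u * reflectionMatrix (⇑Q) v * reflectionMatrix (⇑Q) u =
      reflectionMatrix (⇑Q) (reflectionMatrix (⇑Q) u *ᵥ v) := by
    rw [h1, mul_assoc, refl_sq8 Q u hu, mul_one]
  have e2 : reflectionMatrix (⇑Q) v * reflectionMatrix (⇑Q) u * reflectionMatrix (⇑Q) v =
      reflectionMatrix (⇑Q) (reflectionMatrix (⇑Q) v *ᵥ u) := by
    rw [h2, mul_assoc, refl_sq8 Q v hv, mul_one]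
  rw [e1, e2, refl_mulVec8, refl_mulVec8, QuadraticMap.polar_comm (⇑Q) v u, ← huv]
  have hμ := z3a8 _ (mul_ne_zero (inv_ne_zero hu) h)
  rcases hμ with hμ | hμ
  · rw [hμ, one_smul, one_smul]
    have e3 : v - u = -(u - v) := (neg_sub u v).symm
    rw [e3, refl_neg8]
  · simp only [hμ, neg_smul, one_smul, sub_neg_eq_add]
    rw [add_comm]

theorem exists_aniso8 {n : ℕ} (hn : 4 ≤ n) (Q : QuadraticForm (ZMod 3) (Fin n → ZMod 3))
    (hQ : (QuadraticMap.polarBilin Q).Nondegenerate) (a₁ a₂ a₃ : Fin n → ZMod 3)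
    (h₁ : Q a₁ ≠ 0 ∨ a₁ = 0) (h₂ : Q a₂ ≠ 0 ∨ a₂ = 0) (h₃ : Q a₃ ≠ 0 ∨ a₃ = 0)
    (h₁₂ : QuadraticMap.polar (⇑Q) a₁ a₂ = 0) (h₁₃ : QuadraticMap.polar (⇑Q) a₁ a₃ = 0)
    (h₂₃ : QuadraticMap.polar (⇑Q) a₂ a₃ = 0) :
    ∃ t, Q t ≠ 0 ∧ QuadraticMap.polar (⇑Q) a₁ t = 0 ∧ QuadraticMap.polar (⇑Q) a₂ t = 0 ∧
      QuadraticMap.polar (⇑Q) a₃ t = 0 := by
  by_contra hcon
  have hW : ∀ t, QuadraticMap.polar (⇑Q) a₁ t = 0 → QuadraticMap.polar (⇑Q) a₂ t = 0 →
      QuadraticMap.polar (⇑Q) a₃ t = 0 → Q t = 0 := by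
    intro t h1 h2 h3
    by_contra hq
    exact hcon ⟨t, hq, h1, h2, h3⟩
  obtain ⟨f, hf⟩ : ∃ f : (Fin n → ZMod 3) →ₗ[ZMod 3] (Fin 3 → ZMod 3), ∀ x,
      f x = ![QuadraticMap.polar (⇑Q) a₁ x, QuadraticMap.polar (⇑Q) a₂ x,
        QuadraticMap.polar (⇑Q) a₃ x] := by
    refine ⟨LinearMap.pi ![QuadraticMap.polarBilin Q a₁, QuadraticMap.polarBilin Q a₂,
      QuadraticMap.polarBilin Q a₃], fun x => ?_⟩
    funext i
    fin_cases i <;> simp [LinearMap.pi_apply]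
  have hker : LinearMap.ker f ≠ ⊥ := by
    apply LinearMap.ker_ne_bot_of_finrank_lt
    rw [Module.finrank_fin_fun, Module.finrank_fin_fun]
    omega
  obtain ⟨t, ht, ht0⟩ := Submodule.exists_mem_ne_zero_of_ne_bot hker
  rw [LinearMap.mem_ker, hf] at ht
  have ht1 : QuadraticMap.polar (⇑Q) a₁ t = 0 := by
    have h := congrFun ht 0
    simpa using h
  have ht2 : QuadraticMap.polar (⇑Q) a₂ t = 0 := by
    have h := congrFun ht 1
    simpa using h
  have ht3 : QuadraticMap.polar (⇑Q) a₃ t = 0 := by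
    have h := congrFun ht 2
    simpa using h
  apply ht0
  apply hQ.1 t
  intro x
  rw [QuadraticMap.polarBilin_apply_apply]
  have hcancel : ∀ a y : Fin n → ZMod 3, (Q a ≠ 0 ∨ a = 0) →
      QuadraticMap.polar (⇑Q) a y -
        (QuadraticMap.polar (⇑Q) a y * (QuadraticMap.polar (⇑Q) a a)⁻¹) *
          QuadraticMap.polar (⇑Q) a a = 0 := by
    intro a y ha
    rcases ha with ha | ha
    · have hne : QuadraticMap.polar (⇑Q) a a ≠ 0 := by
        rw [QuadraticMap.polar_self]; exact z3d8 _ ha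
      rw [mul_assoc, inv_mul_cancel₀ hne, mul_one, sub_self]
    · rw [ha, QuadraticMap.polar_zero_left, zero_mul, zero_mul, sub_zero]
  obtain ⟨l₁, hl₁⟩ : ∃ l : ZMod 3, l = QuadraticMap.polar (⇑Q) a₁ x *
      (QuadraticMap.polar (⇑Q) a₁ a₁)⁻¹ := ⟨_, rfl⟩
  obtain ⟨l₂, hl₂⟩ : ∃ l : ZMod 3, l = QuadraticMap.polar (⇑Q) a₂ x *
      (QuadraticMap.polar (⇑Q) a₂ a₂)⁻¹ := ⟨_, rfl⟩
  obtain ⟨l₃, hl₃⟩ : ∃ l : ZMod 3, l = QuadraticMap.polar (⇑Q) a₃ x *
      (QuadraticMap.polar (⇑Q) a₃ a₃)⁻¹ := ⟨_, rfl⟩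
  obtain ⟨w, hw⟩ : ∃ w : Fin n → ZMod 3, w = x - l₁ • a₁ - l₂ • a₂ - l₃ • a₃ := ⟨_, rfl⟩
  have hw1 : QuadraticMap.polar (⇑Q) a₁ w = 0 := by
    rw [hw, QuadraticMap.polar_sub_right, QuadraticMap.polar_sub_right,
      QuadraticMap.polar_sub_right, QuadraticMap.polar_smul_right, QuadraticMap.polar_smul_right,
      QuadraticMap.polar_smul_right, h₁₂, h₁₃, smul_zero, smul_zero, sub_zero, sub_zero, hl₁,
      smul_eq_mul]
    exact hcancel a₁ x h₁
  have hw2 : QuadraticMap.polar (⇑Q) a₂ w = 0 := by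
    rw [hw, QuadraticMap.polar_sub_right, QuadraticMap.polar_sub_right,
      QuadraticMap.polar_sub_right, QuadraticMap.polar_smul_right, QuadraticMap.polar_smul_right,
      QuadraticMap.polar_smul_right, QuadraticMap.polar_comm (⇑Q) a₂ a₁, h₁₂, h₂₃, smul_zero,
      smul_zero, sub_zero, sub_zero, hl₂, smul_eq_mul]
    exact hcancel a₂ x h₂
  have hw3 : QuadraticMap.polar (⇑Q) a₃ w = 0 := by
    rw [hw, QuadraticMap.polar_sub_right, QuadraticMap.polar_sub_right,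
      QuadraticMap.polar_sub_right, QuadraticMap.polar_smul_right, QuadraticMap.polar_smul_right,
      QuadraticMap.polar_smul_right, QuadraticMap.polar_comm (⇑Q) a₃ a₁, h₁₃,
      QuadraticMap.polar_comm (⇑Q) a₃ a₂, h₂₃, smul_zero, smul_zero, sub_zero, sub_zero, hl₃,
      smul_eq_mul]
    exact hcancel a₃ x h₃
  have htw : QuadraticMap.polar (⇑Q) t w = 0 := by
    have hs : Q (t + w) = 0 := by
      apply hW
      · rw [QuadraticMap.polar_add_right, ht1, hw1, add_zero]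
      · rw [QuadraticMap.polar_add_right, ht2, hw2, add_zero]
      · rw [QuadraticMap.polar_add_right, ht3, hw3, add_zero]
    unfold QuadraticMap.polar
    rw [hs, hW t ht1 ht2 ht3, hW w hw1 hw2 hw3, sub_zero, sub_zero]
  have hx : x = w + l₁ • a₁ + l₂ • a₂ + l₃ • a₃ := by rw [hw]; abel
  rw [hx, QuadraticMap.polar_add_right, QuadraticMap.polar_add_right, QuadraticMap.polar_add_right,
    QuadraticMap.polar_smul_right, QuadraticMap.polar_smul_right, QuadraticMap.polar_smul_right,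
    QuadraticMap.polar_comm (⇑Q) t a₁, ht1, QuadraticMap.polar_comm (⇑Q) t a₂, ht2,
    QuadraticMap.polar_comm (⇑Q) t a₃, ht3, htw, smul_zero, smul_zero, smul_zero, add_zero,
    add_zero, add_zero]

theorem exists_norm8 {n : ℕ} (hn : 4 ≤ n) (Q : QuadraticForm (ZMod 3) (Fin n → ZMod 3))
    (hQ : (QuadraticMap.polarBilin Q).Nondegenerate) (c : ZMod 3) (hc : c ≠ 0) :
    ∃ v, Q v = c := by
  obtain ⟨t₀, ht₀, -⟩ := exists_aniso8 hn Q hQ 0 0 0 (Or.inr rfl) (Or.inr rfl) (Or.inr rfl)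
    (QuadraticMap.polar_zero_left _ _) (QuadraticMap.polar_zero_left _ _)
    (QuadraticMap.polar_zero_left _ _)
  rcases z3b8 _ c ht₀ hc with h | h
  · exact ⟨t₀, h⟩
  · obtain ⟨t₁, ht₁, h01, -⟩ := exists_aniso8 hn Q hQ t₀ 0 0 (Or.inl ht₀) (Or.inr rfl)
      (Or.inr rfl) (QuadraticMap.polar_zero_right _ _) (QuadraticMap.polar_zero_right _ _)
      (QuadraticMap.polar_zero_left _ _)
    rcases z3b8 _ c ht₁ hc with h' | h'
    · exact ⟨t₁, h'⟩
    · refine ⟨t₀ + t₁, ?_⟩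
      rw [QuadraticMap.map_add (⇑Q), h, h', h01]
      exact z3e8 c

theorem exists_w8 {n : ℕ} (hn : 5 ≤ n) (Q : QuadraticForm (ZMod 3) (Fin n → ZMod 3))
    (hQ : (QuadraticMap.polarBilin Q).Nondegenerate) (c : ZMod 3) (hc : c ≠ 0)
    (u v : Fin n → ZMod 3) (hu : Q u = c) (hv : Q v = c)
    (huv : QuadraticMap.polar (⇑Q) u v = 0) :
    ∃ w, Q w = c ∧ QuadraticMap.polar (⇑Q) u w ≠ 0 ∧ QuadraticMap.polar (⇑Q) v w ≠ 0 := by
  have key : ∀ t, Q t = -c → QuadraticMap.polar (⇑Q) u t = 0 →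
      QuadraticMap.polar (⇑Q) v t = 0 →
      ∃ w, Q w = c ∧ QuadraticMap.polar (⇑Q) u w ≠ 0 ∧ QuadraticMap.polar (⇑Q) v w ≠ 0 := by
    intro t ht h1 h2
    refine ⟨u + v + t, ?_, ?_, ?_⟩
    · rw [QuadraticMap.map_add (⇑Q), QuadraticMap.map_add (⇑Q), hu, hv, ht, huv,
        QuadraticMap.polar_add_left, h1, h2]
      exact z3f8 c
    · rw [QuadraticMap.polar_add_right, QuadraticMap.polar_add_right, QuadraticMap.polar_self,
        huv, h1, hu, add_zero, add_zero]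
      exact z3d8 c hc
    · rw [QuadraticMap.polar_add_right, QuadraticMap.polar_add_right, QuadraticMap.polar_self,
        QuadraticMap.polar_comm (⇑Q) v u, huv, h2, hv, zero_add, add_zero]
      exact z3d8 c hc
  have hu0 : Q u ≠ 0 := by rw [hu]; exact hc
  have hv0 : Q v ≠ 0 := by rw [hv]; exact hc
  obtain ⟨t₁, ht₁, h1u, h1v, -⟩ := exists_aniso8 (by omega) Q hQ u v 0 (Or.inl hu0) (Or.inl hv0)
    (Or.inr rfl) huv (QuadraticMap.polar_zero_right _ _) (QuadraticMap.polar_zero_right _ _)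
  rcases z3b8 _ c ht₁ hc with h | h
  · obtain ⟨t₂, ht₂, h2u, h2v, h2t⟩ := exists_aniso8 (by omega) Q hQ u v t₁ (Or.inl hu0)
      (Or.inl hv0) (Or.inl ht₁) huv h1u h1v
    rcases z3b8 _ c ht₂ hc with h' | h'
    · apply key (t₁ + t₂)
      · rw [QuadraticMap.map_add (⇑Q), h, h', h2t]; exact z3g8 c
      · rw [QuadraticMap.polar_add_right, h1u, h2u, add_zero]
      · rw [QuadraticMap.polar_add_right, h1v, h2v, add_zero]
    · exact key t₂ h' h2u h2v
  · exact key t₁ h h1u h1v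

end Cfsg.Agent.Lib.Helper8
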