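import Mathlib
import Cfsg.Prelude.Def_ClassicalGeometry
import Cfsg.Prelude.Def_FischerSpaces
import Cfsg.Agent.Lib.Helper8.ReflClass1

set_option autoImplicit false

namespace Cfsg.Agent.Lib.Helper8

open Cfsg Matrix

theorem inv_sq_one8 {Γ : Type*} [Group Γ] {d e : Γ} (hd : d * d = 1) (he : e * e = 1)
    (h : d * e = e * d) : (d * e) ^ 2 = 1 := by
  calc (d * e) ^ 2 = d * (e * d) * e := by simp only [pow_succ, pow_zero, one_mul, mul_assoc]
    _ = d * (d * e) * e := by rw [h]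
    _ = (d * d) * (e * e) := by simp only [mul_assoc]
    _ = 1 := by rw [hd, he, one_mul]

theorem braid_cube8 {Γ : Type*} [Group Γ] {d e : Γ} (hd : d * d = 1) (he : e * e = 1)
    (h : d * e * d = e * d * e) : (d * e) ^ 3 = 1 := by
  calc (d * e) ^ 3 = (d * e * d) * (e * d * e) := by
        simp only [pow_succ, pow_zero, one_mul, mul_assoc]
    _ = (e * d * e) * (e * d * e) := by rw [h]
    _ = e * d * (e * e) * d * e := by simp only [mul_assoc]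
    _ = 1 := by rw [he, mul_one, mul_assoc e, hd, mul_one, he]

theorem braid_conj8 {Γ : Type*} [Group Γ] {d e : Γ} (hd : d * d = 1) (he : e * e = 1)
    (h : d * e * d = e * d * e) : (d * e) * d * (d * e)⁻¹ = e := by
  have hdi : d⁻¹ = d := inv_eq_of_mul_eq_one_right hd
  have hei : e⁻¹ = e := inv_eq_of_mul_eq_one_right he
  rw [_root_.mul_inv_rev, hdi, hei]
  calc d * e * d * (e * d) = (d * e * d) * e * d := by simp only [mul_assoc]
    _ = (e * d * e) * e * d := by rw [h]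
    _ = e * d * (e * e) * d := by simp only [mul_assoc]
    _ = e := by rw [he, mul_one, mul_assoc, hd, mul_one]

/-- matrix of an element of the reflection subgroup -/
def rmat8 {n : ℕ} (Q : (Fin n → ZMod 3) → ZMod 3) (c : ZMod 3)
    (g : ↥(reflectionSubgroup Q c)) : Matrix (Fin n) (Fin n) (ZMod 3) :=
  (((g : isometryGroup (ZMod 3) Q) : Matrix.GeneralLinearGroup (Fin n) (ZMod 3)) :
    Matrix (Fin n) (Fin n) (ZMod 3))

theorem rmat_mul8 {n : ℕ} (Q : (Fin n → ZMod 3) → ZMod 3) (c : ZMod 3)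
    (g h : ↥(reflectionSubgroup Q c)) : rmat8 Q c (g * h) = rmat8 Q c g * rmat8 Q c h := rfl

theorem rmat_one8 {n : ℕ} (Q : (Fin n → ZMod 3) → ZMod 3) (c : ZMod 3) :
    rmat8 Q c 1 = 1 := rfl

theorem rmat_inj8 {n : ℕ} (Q : (Fin n → ZMod 3) → ZMod 3) (c : ZMod 3)
    {g h : ↥(reflectionSubgroup Q c)} (e : rmat8 Q c g = rmat8 Q c h) : g = h :=
  Subtype.ext (Subtype.ext (Units.ext e))

theorem rmat_isom8 {n : ℕ} (Q : (Fin n → ZMod 3) → ZMod 3) (c : ZMod 3)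
    (g : ↥(reflectionSubgroup Q c)) (x : Fin n → ZMod 3) : Q (rmat8 Q c g *ᵥ x) = Q x :=
  (mem_isometry_iff8 Q _).mp g.1.2 x

theorem refl_class8 (n : ℕ) (hn : 5 ≤ n) (Q : QuadraticForm (ZMod 3) (Fin n → ZMod 3))
    (hQ : (QuadraticMap.polarBilin Q).Nondegenerate) (c : ZMod 3) (hc : c ≠ 0) :
    IsThreeTranspositionClass {g : ↥(reflectionSubgroup (⇑Q) c) |
      (g : ↥(isometryGroup (ZMod 3) (⇑Q))) ∈ reflectionsOfNorm (⇑Q) c} := by
  obtain ⟨D, hDdef⟩ : ∃ D : Set ↥(reflectionSubgroup (⇑Q) c),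
      D = {g : ↥(reflectionSubgroup (⇑Q) c) |
      (g : ↥(isometryGroup (ZMod 3) (⇑Q))) ∈ reflectionsOfNorm (⇑Q) c} := ⟨_, rfl⟩
  rw [← hDdef]
  have hmem : ∀ g : ↥(reflectionSubgroup (⇑Q) c), g ∈ D ↔
      ∃ v, Q v = c ∧ rmat8 (⇑Q) c g = reflectionMatrix (⇑Q) v := by
    intro g; rw [hDdef]; exact Iff.rfl
  have hsq : ∀ d ∈ D, d * d = 1 := by
    intro d hd
    obtain ⟨v, hv, hm⟩ := (hmem d).mp hd
    apply rmat_inj8
    rw [rmat_mul8, rmat_one8, hm]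
    exact refl_sq8 Q v (by rw [hv]; exact hc)
  have hne1 : ∀ d ∈ D, d ≠ 1 := by
    intro d hd h1
    obtain ⟨v, hv, hm⟩ := (hmem d).mp hd
    rw [h1, rmat_one8] at hm
    have hv0 : Q v ≠ 0 := by rw [hv]; exact hc
    have h2 := refl_self8 Q v hv0
    rw [← hm, Matrix.one_mulVec] at h2
    have h3 : v = 0 := by
      funext i
      exact z3c8 (v i) (congrFun h2 i)
    rw [h3, QuadraticMap.map_zero] at hv
    exact hc hv.symm
  have hrel : ∀ d e : ↥(reflectionSubgroup (⇑Q) c), ∀ u v : Fin n → ZMod 3, Q u = c → Q v = c →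
      rmat8 (⇑Q) c d = reflectionMatrix (⇑Q) u → rmat8 (⇑Q) c e = reflectionMatrix (⇑Q) v →
      (QuadraticMap.polar (⇑Q) u v = 0 → d * e = e * d) ∧
      (QuadraticMap.polar (⇑Q) u v ≠ 0 → d * e * d = e * d * e) := by
    intro d e u v hu hv hmd hme
    have hu0 : Q u ≠ 0 := by rw [hu]; exact hc
    have hv0 : Q v ≠ 0 := by rw [hv]; exact hc
    constructor
    · intro h
      apply rmat_inj8
      rw [rmat_mul8, rmat_mul8, hmd, hme]
      exact refl_comm8 Q u v hv0 h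
    · intro h
      apply rmat_inj8
      rw [rmat_mul8, rmat_mul8, rmat_mul8, rmat_mul8, hmd, hme]
      exact refl_braid8 Q u v hu0 (hu.trans hv.symm) h
  have helem : ∀ w : Fin n → ZMod 3, Q w = c →
      ∃ d ∈ D, rmat8 (⇑Q) c d = reflectionMatrix (⇑Q) w := by
    intro w hw
    have hw0 : Q w ≠ 0 := by rw [hw]; exact hc
    obtain ⟨g, hg⟩ := refl_elem8 Q w hw0
    have hgm : g ∈ reflectionsOfNorm (⇑Q) c := ⟨w, hw, hg⟩
    exact ⟨⟨g, Subgroup.subset_closure hgm⟩, (hmem _).mpr ⟨w, hw, hg⟩, hg⟩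
  have hconjD : ∀ g : ↥(reflectionSubgroup (⇑Q) c), ∀ d ∈ D, g * d * g⁻¹ ∈ D := by
    intro g d hd
    obtain ⟨u, hu, hm⟩ := (hmem d).mp hd
    rw [hmem]
    refine ⟨rmat8 (⇑Q) c g *ᵥ u, ?_, ?_⟩
    · exact (rmat_isom8 (⇑Q) c g u).trans hu
    · have h1 := refl_conj8 Q (rmat8 (⇑Q) c g) (fun x => rmat_isom8 (⇑Q) c g x) u
      have h2 : rmat8 (⇑Q) c (g * d * g⁻¹) * rmat8 (⇑Q) c g =
          reflectionMatrix (⇑Q) (rmat8 (⇑Q) c g *ᵥ u) * rmat8 (⇑Q) c g := by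
        rw [← rmat_mul8, inv_mul_cancel_right, rmat_mul8, hm]
        exact h1
      have h3 : rmat8 (⇑Q) c g * rmat8 (⇑Q) c g⁻¹ = 1 := by
        rw [← rmat_mul8, mul_inv_cancel, rmat_one8]
      calc rmat8 (⇑Q) c (g * d * g⁻¹)
          = rmat8 (⇑Q) c (g * d * g⁻¹) * (rmat8 (⇑Q) c g * rmat8 (⇑Q) c g⁻¹) := by
            rw [h3, mul_one]
        _ = (rmat8 (⇑Q) c (g * d * g⁻¹) * rmat8 (⇑Q) c g) * rmat8 (⇑Q) c g⁻¹ :=
            (mul_assoc _ _ _).symm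
        _ = (reflectionMatrix (⇑Q) (rmat8 (⇑Q) c g *ᵥ u) * rmat8 (⇑Q) c g) *
              rmat8 (⇑Q) c g⁻¹ := by rw [h2]
        _ = reflectionMatrix (⇑Q) (rmat8 (⇑Q) c g *ᵥ u) *
              (rmat8 (⇑Q) c g * rmat8 (⇑Q) c g⁻¹) := mul_assoc _ _ _
        _ = reflectionMatrix (⇑Q) (rmat8 (⇑Q) c g *ᵥ u) := by rw [h3, mul_one]
  have hT1 : ∀ d ∈ D, ∀ e ∈ D, ∀ u v : Fin n → ZMod 3, Q u = c → Q v = c →
      rmat8 (⇑Q) c d = reflectionMatrix (⇑Q) u → rmat8 (⇑Q) c e = reflectionMatrix (⇑Q) v →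
      QuadraticMap.polar (⇑Q) u v ≠ 0 → IsConj d e := by
    intro d hd e he u v hu hv hmd hme h
    have hb := (hrel d e u v hu hv hmd hme).2 h
    exact isConj_iff.mpr ⟨d * e, braid_conj8 (hsq d hd) (hsq e he) hb⟩
  have hT : ∀ d ∈ D, ∀ e ∈ D, IsConj d e := by
    intro d hd e he
    obtain ⟨u, hu, hmd⟩ := (hmem d).mp hd
    obtain ⟨v, hv, hme⟩ := (hmem e).mp he
    by_cases h : QuadraticMap.polar (⇑Q) u v = 0
    · obtain ⟨w, hw, huw, hvw⟩ := exists_w8 hn Q hQ c hc u v hu hv h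
      obtain ⟨f, hf, hmf⟩ := helem w hw
      have h1 := hT1 d hd f hf u w hu hw hmd hmf huw
      have h2 := hT1 e he f hf v w hv hw hme hmf hvw
      exact h1.trans h2.symm
    · exact hT1 d hd e he u v hu hv hmd hme h
  refine ⟨⟨?_, ?_⟩, ?_, ?_⟩
  · intro d hd
    exact orderOf_eq_prime (by rw [sq]; exact hsq d hd) (hne1 d hd)
  · intro d hd e he
    obtain ⟨u, hu, hmd⟩ := (hmem d).mp hd
    obtain ⟨v, hv, hme⟩ := (hmem e).mp he
    by_cases h : QuadraticMap.polar (⇑Q) u v = 0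
    · left
      exact inv_sq_one8 (hsq d hd) (hsq e he) ((hrel d e u v hu hv hmd hme).1 h)
    · right
      exact braid_cube8 (hsq d hd) (hsq e he) ((hrel d e u v hu hv hmd hme).2 h)
  · obtain ⟨v₀, hv₀⟩ := exists_norm8 (by omega) Q hQ c hc
    obtain ⟨d₀, hd₀, -⟩ := helem v₀ hv₀
    refine ⟨d₀, hd₀, ?_⟩
    ext e
    constructor
    · intro he
      exact hT d₀ hd₀ e he
    · intro he
      obtain ⟨g, hg⟩ := isConj_iff.mp he
      rw [← hg]
      exact hconjD g d₀ hd₀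
  · rw [hDdef]
    exact Subgroup.closure_closure_coe_preimage

end Cfsg.Agent.Lib.Helper8
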