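import Mathlib
import Cfsg.Prelude.Def_RootSubgroups
import Cfsg.Agent.Lib.Helper8.GroupFusion
import Cfsg.Agent.Lib.Helper8.GroupFusion2
import Cfsg.Agent.Lib.Helper8.Thompson
import Cfsg.Agent.Lib.Helper8.RankOne
import Cfsg.Agent.Lib.Helper8.RankOne2
import Cfsg.Agent.Lib.Helper8.RankOne4

set_option autoImplicit false

namespace Cfsg.Agent.Lib.Helper8

open Cfsg
open scoped commutatorElement

variable {G : Type*} [Group G]

theorem conjSub_eq_of_centralizes {K : Subgroup G} {w : G} (hw : ∀ x ∈ K, w * x = x * w) :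
    conjSub w K = K := by
  apply conjSub_eq_of_mem_normalizer
  apply Subgroup.centralizer_le_normalizer
  rw [Subgroup.mem_centralizer_iff]
  intro x hx
  exact (hw x hx).symm

theorem mem_normalizer_of_centralizes {K : Subgroup G} {w : G} (hw : ∀ x ∈ K, w * x = x * w) :
    w ∈ Subgroup.normalizer (K : Set G) := by
  apply Subgroup.centralizer_le_normalizer
  rw [Subgroup.mem_centralizer_iff]
  intro x hx
  exact (hw x hx).symm

/-- Lemma L: the commutator of `a` with its partner `b₀` does not normalise `B`. -/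
theorem rankOne_commutator_not_mem {A B : Subgroup G} (h : IsRankOnePair A B) {a b₀ : G}
    (ha : a ∈ A) (hb₀ : b₀ ∈ B) (hconj : conjSub b₀⁻¹ A = conjSub a⁻¹ B)
    (hw : a * b₀ * a⁻¹ * b₀⁻¹ ∈ Subgroup.normalizer (B : Set G)) : False := by
  have h1 : B = conjSub (a * b₀⁻¹) A := by
    rw [← conjSub_mul, hconj, conjSub_conjSub_inv]
  have e : a * b₀⁻¹ = (b₀⁻¹ * (a * b₀ * a⁻¹ * b₀⁻¹)⁻¹) * a := by group
  rw [e, ← conjSub_mul, conjSub_eq_of_mem ha] at h1
  have h2 := congrArg (conjSub ((a * b₀ * a⁻¹ * b₀⁻¹) * b₀)) h1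
  rw [conjSub_mul] at h2
  have e2 : a * b₀ * a⁻¹ * b₀⁻¹ * b₀ * (b₀⁻¹ * (a * b₀ * a⁻¹ * b₀⁻¹)⁻¹) = 1 := by group
  rw [e2, conjSub_one, ← conjSub_mul, conjSub_eq_of_mem hb₀, conjSub_eq_of_mem_normalizer hw] at h2
  exact h.ne h2.symm

/-- Lemma K -/
theorem rankOne_key {A B : Subgroup G} (h : IsRankOnePair A B)
    (hA : ∀ x ∈ A, ∀ y ∈ A, x * y = y * x)
    {z f a a₁ : G} (hzA : ∀ x ∈ A, z * x = x * z) (hzB : ∀ x ∈ B, z * x = x * z)
    (hf : f ∈ B) (ha : a ∈ A) (ha₁ : a₁ ∈ A) (heq : f * a * f⁻¹ = z * a₁) : f = 1 ∨ a = 1 := by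
  by_contra hcon
  obtain ⟨hf1, ha1⟩ := not_or.1 hcon
  have hf1' : f⁻¹ ≠ 1 := fun hh => hf1 (inv_eq_one.1 hh)
  obtain ⟨a₃, ha₃, -, hconj⟩ := h.cond_right f⁻¹ (B.inv_mem hf) hf1'
  rw [inv_inv] at hconj
  have hconj' : conjSub a₃⁻¹ B = conjSub f A := hconj
  have h1 : z * a₁ ∈ conjSub a₃⁻¹ B := by
    rw [hconj', ← heq]
    exact conj_mem_conjSub ha
  rw [mem_conjSub, inv_inv] at h1
  have e : a₃ * (z * a₁) * a₃⁻¹ = z * a₁ := by
    have e1 : a₃ * z = z * a₃ := (hzA a₃ ha₃).symm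
    have e2 : a₃ * a₁ = a₁ * a₃ := hA a₃ ha₃ a₁ ha₁
    calc a₃ * (z * a₁) * a₃⁻¹ = (a₃ * z) * a₁ * a₃⁻¹ := by group
      _ = z * (a₃ * a₁) * a₃⁻¹ := by rw [e1]; group
      _ = z * a₁ := by rw [e2]; group
  rw [e] at h1
  have hzN : z ∈ Subgroup.normalizer (B : Set G) := mem_normalizer_of_centralizes hzB
  have h2 : a₁ ∈ A ⊓ Subgroup.normalizer (B : Set G) := by
    refine Subgroup.mem_inf.2 ⟨ha₁, ?_⟩
    have e3 : a₁ = z⁻¹ * (z * a₁) := by group
    rw [e3]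
    exact Subgroup.mul_mem _ (Subgroup.inv_mem _ hzN) (Subgroup.le_normalizer h1)
  rw [rankOne_inf_normalizer h, Subgroup.mem_bot] at h2
  rw [h2, mul_one] at heq
  have h3 : a = z := by
    have e4 : a = f⁻¹ * (f * a * f⁻¹) * f := by group
    rw [e4, heq, mul_assoc, hzB f hf]
    group
  have h4 : a ∈ A ⊓ Subgroup.normalizer (B : Set G) := Subgroup.mem_inf.2 ⟨ha, h3 ▸ hzN⟩
  rw [rankOne_inf_normalizer h, Subgroup.mem_bot] at h4
  exact ha1 h4

theorem root_commutes_of_bot {A B : Subgroup G} (h : ⁅A, B⁆ = ⊥) {a b : G} (ha : a ∈ A)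
    (hb : b ∈ B) : a * b = b * a := by
  have h1 : ⁅a, b⁆ ∈ ⁅A, B⁆ := Subgroup.commutator_mem_commutator ha hb
  rw [h, Subgroup.mem_bot] at h1
  have e : a * b = ⁅a, b⁆ * (b * a) := by
    rw [commutatorElement_def]; group
  rw [e, h1, one_mul]

/-- Lemma M: a central translate of a non-identity element of `A` is not a root element. -/
theorem root_central_translate {S : Set (Subgroup G)} (hS : IsRootSubgroupSet S)
    {A B E : Subgroup G} (hA : A ∈ S) (hB : B ∈ S) (hE : E ∈ S) (hAB : IsRankOnePair A B)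
    {z a : G} (hzA : ∀ x ∈ A, z * x = x * z) (hzB : ∀ x ∈ B, z * x = x * z) (ha : a ∈ A)
    (ha1 : a ≠ 1) (hzE : z * a ∈ E) : z = 1 := by
  have hAcomm : ∀ x ∈ A, ∀ y ∈ A, x * y = y * x := by
    intro x hx y hy
    have hc := hS.commutative A hA
    have h1 := hc.is_comm.comm (⟨x, hx⟩ : A) ⟨y, hy⟩
    exact congrArg Subtype.val h1
  have hzN : z ∈ Subgroup.normalizer (B : Set G) := mem_normalizer_of_centralizes hzB
  have hbot := rankOne_inf_normalizer hAB
  have hzAfin : z ∈ A → z = 1 := by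
    intro hzA'
    have : z ∈ A ⊓ Subgroup.normalizer (B : Set G) := Subgroup.mem_inf.2 ⟨hzA', hzN⟩
    rw [hbot, Subgroup.mem_bot] at this
    exact this
  by_cases hza1 : z * a = 1
  · apply hzAfin
    have : z = a⁻¹ := eq_inv_of_mul_eq_one_left hza1
    rw [this]
    exact A.inv_mem ha
  obtain ⟨b₀, hb₀, hb₀1, hconj⟩ := hAB.cond_left a ha ha1
  have hconj' : conjSub b₀⁻¹ A = conjSub a⁻¹ B := hconj
  rcases hS.pair E hE B hB with h1 | h1 | h1
  · -- commuting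
    exfalso
    have h2 : a ∈ A ⊓ Subgroup.normalizer (B : Set G) := by
      refine Subgroup.mem_inf.2 ⟨ha, ?_⟩
      have e : a = z⁻¹ * (z * a) := by group
      rw [e]
      refine Subgroup.mul_mem _ (Subgroup.inv_mem _ hzN) ?_
      apply mem_normalizer_of_centralizes
      intro x hx
      exact root_commutes_of_bot h1 hzE hx
    rw [hbot, Subgroup.mem_bot] at h2
    exact ha1 h2
  · -- rank one pair
    obtain ⟨b', hb', hb'1, hconj2⟩ := h1.cond_left (z * a) hzE hza1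
    have hconj2' : conjSub b'⁻¹ E = conjSub (z * a)⁻¹ B := hconj2
    have e1 : conjSub (z * a)⁻¹ B = conjSub a⁻¹ B := by
      have e : (z * a)⁻¹ = a⁻¹ * z⁻¹ := by group
      rw [e, ← conjSub_mul, conjSub_eq_of_mem_normalizer (Subgroup.inv_mem _ hzN)]
    rw [e1, ← hconj'] at hconj2'
    have hE' : E = conjSub (b' * b₀⁻¹) A := by
      rw [← conjSub_mul, ← hconj2', conjSub_mul, mul_inv_cancel, conjSub_one]
    have hd : b' * b₀⁻¹ ∈ B := B.mul_mem hb' (B.inv_mem hb₀)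
    have h2 : z * a ∈ conjSub (b' * b₀⁻¹) A := hE' ▸ hzE
    rw [mem_conjSub] at h2
    have e2 : (b' * b₀⁻¹)⁻¹ * a * ((b' * b₀⁻¹)⁻¹)⁻¹ =
        z⁻¹ * ((b' * b₀⁻¹)⁻¹ * (z * a) * (b' * b₀⁻¹)) := by
      have e3 : (b' * b₀⁻¹)⁻¹ * z = z * (b' * b₀⁻¹)⁻¹ := (hzB _ (B.inv_mem hd)).symm
      calc (b' * b₀⁻¹)⁻¹ * a * ((b' * b₀⁻¹)⁻¹)⁻¹
          = z⁻¹ * (z * (b' * b₀⁻¹)⁻¹) * a * (b' * b₀⁻¹) := by group
        _ = z⁻¹ * ((b' * b₀⁻¹)⁻¹ * z) * a * (b' * b₀⁻¹) := by rw [e3]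
        _ = z⁻¹ * ((b' * b₀⁻¹)⁻¹ * (z * a) * (b' * b₀⁻¹)) := by group
    have hzA' : ∀ x ∈ A, z⁻¹ * x = x * z⁻¹ := by
      intro x hx
      have := hzA x hx
      calc z⁻¹ * x = z⁻¹ * (x * z) * z⁻¹ := by group
        _ = z⁻¹ * (z * x) * z⁻¹ := by rw [this]
        _ = x * z⁻¹ := by group
    have hzB' : ∀ x ∈ B, z⁻¹ * x = x * z⁻¹ := by
      intro x hx
      have := hzB x hx
      calc z⁻¹ * x = z⁻¹ * (x * z) * z⁻¹ := by group
        _ = z⁻¹ * (z * x) * z⁻¹ := by rw [this]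
        _ = x * z⁻¹ := by group
    rcases rankOne_key hAB hAcomm hzA' hzB' (B.inv_mem hd) ha h2 e2 with h3 | h3
    · have h4 : b' * b₀⁻¹ = 1 := inv_eq_one.1 h3
      rw [h4, conjSub_one] at hE'
      apply hzAfin
      have e : z = (z * a) * a⁻¹ := by group
      rw [e]
      exact A.mul_mem (hE' ▸ hzE) (A.inv_mem ha)
    · exact absurd h3 ha1
  · -- commutator case
    exfalso
    obtain ⟨-, hcent, -, -⟩ := h1
    apply rankOne_commutator_not_mem hAB ha hb₀ hconj'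
    apply mem_normalizer_of_centralizes
    intro x hx
    have h2 : ⁅z * a, b₀⁆ ∈ ⁅E, B⁆ := Subgroup.commutator_mem_commutator hzE hb₀
    have e : ⁅z * a, b₀⁆ = a * b₀ * a⁻¹ * b₀⁻¹ := by
      rw [commutatorElement_def]
      have e3 : z * b₀ = b₀ * z := hzB b₀ hb₀
      calc z * a * b₀ * (z * a)⁻¹ * b₀⁻¹ = z * a * b₀ * a⁻¹ * (b₀ * z)⁻¹ := by group
        _ = z * a * b₀ * a⁻¹ * (z * b₀)⁻¹ := by rw [e3]
        _ = z * (a * b₀ * a⁻¹ * b₀⁻¹) * z⁻¹ := by group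
        _ = a * b₀ * a⁻¹ * b₀⁻¹ := by
          have hz' : ∀ x ∈ A ⊔ B, z * x = x * z := by
            apply sup_mul_induction hzA hzB (by simp)
            intro x y hx hy
            rw [← mul_assoc, hx, mul_assoc, hy, mul_assoc]
          have hm : a * b₀ * a⁻¹ * b₀⁻¹ ∈ A ⊔ B :=
            Subgroup.mul_mem _ (Subgroup.mul_mem _ (Subgroup.mul_mem _ (Subgroup.mem_sup_left ha)
              (Subgroup.mem_sup_right hb₀)) (Subgroup.inv_mem _ (Subgroup.mem_sup_left ha)))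
              (Subgroup.inv_mem _ (Subgroup.mem_sup_right hb₀))
          rw [hz' _ hm]
          group
    rw [e] at h2
    exact hcent _ h2 x (Subgroup.mem_sup_right hx)

theorem root_exists_partner {S : Set (Subgroup G)} {A : Subgroup G}
    (hA : ¬ IsIsolatedIn (FAdj S) S A) (hAS : A ∈ S) : ∃ C ∈ S, IsRankOnePair A C := by
  by_contra hcon
  apply hA
  refine ⟨hAS, fun B => ⟨?_, ?_⟩⟩
  · rintro ⟨-, hB, hp⟩
    exact hcon ⟨B, hB, hp⟩
  · rintro ⟨hB, -, hp⟩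
    exact hcon ⟨B, hB, RankOnePair_symm hp⟩

/-- S5028 -/
theorem root_inf_eq_bot_or_eq {S : Set (Subgroup G)} (hS : IsRootSubgroupSet S)
    {A C : Subgroup G} (hAS : A ∈ S) (hCS : C ∈ S) (hAC : IsRankOnePair A C) :
    ∀ B ∈ S, A ⊓ B = ⊥ ∨ A = B := by
  intro B hB
  by_contra hcon
  obtain ⟨hne, hAB⟩ := not_or.1 hcon
  obtain ⟨⟨x, hx⟩, hx1⟩ := (Subgroup.ne_bot_iff_exists_ne_one).1 hne
  have hx1' : x ≠ 1 := fun hh => hx1 (Subtype.ext hh)
  obtain ⟨hxA, hxB⟩ := Subgroup.mem_inf.1 hx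
  have hbot := rankOne_inf_normalizer hAC
  obtain ⟨c₀, hc₀, hc₀1, hconj⟩ := hAC.cond_left x hxA hx1'
  have hconj' : conjSub c₀⁻¹ A = conjSub x⁻¹ C := hconj
  rcases hS.pair B hB C hCS with h1 | h1 | h1
  · have h2 : x ∈ A ⊓ Subgroup.normalizer (C : Set G) := by
      refine Subgroup.mem_inf.2 ⟨hxA, ?_⟩
      apply mem_normalizer_of_centralizes
      intro y hy
      exact root_commutes_of_bot h1 hxB hy
    rw [hbot, Subgroup.mem_bot] at h2
    exact hx1' h2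
  · obtain ⟨c₂, hc₂, hc₂1, hconj2⟩ := h1.cond_left x hxB hx1'
    have hconj2' : conjSub c₂⁻¹ B = conjSub x⁻¹ C := hconj2
    rw [← hconj'] at hconj2'
    have hB' : B = conjSub (c₂ * c₀⁻¹) A := by
      rw [← conjSub_mul, ← hconj2', conjSub_mul, mul_inv_cancel, conjSub_one]
    have hd : c₂ * c₀⁻¹ ∈ C := C.mul_mem hc₂ (C.inv_mem hc₀)
    by_cases hd1 : c₂ * c₀⁻¹ = 1
    · rw [hd1, conjSub_one] at hB'
      exact hAB hB'.symm
    · have hd1' : (c₂ * c₀⁻¹)⁻¹ ≠ 1 := fun hh => hd1 (inv_eq_one.1 hh)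
      obtain ⟨a, ha, -, hconj3⟩ := hAC.cond_right _ (C.inv_mem hd) hd1'
      rw [inv_inv] at hconj3
      have hconj3' : conjSub a⁻¹ C = conjSub (c₂ * c₀⁻¹) A := hconj3
      rw [← hB'] at hconj3'
      have h2 : x ∈ conjSub a⁻¹ C := hconj3' ▸ hxB
      rw [mem_conjSub, inv_inv] at h2
      have h3 : a * x * a⁻¹ ∈ A ⊓ Subgroup.normalizer (C : Set G) :=
        Subgroup.mem_inf.2 ⟨A.mul_mem (A.mul_mem ha hxA) (A.inv_mem ha), Subgroup.le_normalizer h2⟩
      rw [hbot, Subgroup.mem_bot] at h3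
      apply hx1'
      have e : x = a⁻¹ * (a * x * a⁻¹) * a := by group
      rw [e, h3]
      group
  · obtain ⟨-, hcent, -, -⟩ := h1
    apply rankOne_commutator_not_mem hAC hxA hc₀ hconj'
    apply mem_normalizer_of_centralizes
    intro y hy
    have h2 : ⁅x, c₀⁆ ∈ ⁅B, C⁆ := Subgroup.commutator_mem_commutator hxB hc₀
    exact hcent _ h2 y (Subgroup.mem_sup_right hy)

/-- S5027 -/
theorem root_upperCentralSeries_two {S : Set (Subgroup G)} (hS : IsRootSubgroupSet S)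
    (hF : ∀ A ∈ S, ¬ IsIsolatedIn (FAdj S) S A) :
    Subgroup.upperCentralSeries G 2 = Subgroup.center G := by
  apply le_antisymm
  · intro z hz
    have hz' : ∀ y : G, ⁅z, y⁆ ∈ Subgroup.center G := by
      intro y
      have := Subgroup.mem_upperCentralSeries_succ_iff.1 hz y
      rwa [Subgroup.upperCentralSeries_one] at this
    have key : ∀ A ∈ S, ∀ a ∈ A, z * a = a * z := by
      intro A hA a ha
      by_cases ha1 : a = 1
      · rw [ha1]; simp
      obtain ⟨C, hC, hAC⟩ := root_exists_partner (hF A hA) hA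
      have hζ := hz' a
      rw [Subgroup.mem_center_iff] at hζ
      have h1 : ⁅z, a⁆ * a ∈ conjBy A z := by
        have e : ⁅z, a⁆ * a = z * a * z⁻¹ := by
          rw [commutatorElement_def]; group
        rw [e]
        exact conj_mem_conjSub ha
      have h2 := root_central_translate hS hA hC (hS.conj_mem A hA z) hAC
        (fun x _ => (hζ x).symm) (fun x _ => (hζ x).symm) ha ha1 h1
      have e : z * a = ⁅z, a⁆ * (a * z) := by
        rw [commutatorElement_def]; group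
      rw [e, h2, one_mul]
    rw [Subgroup.mem_center_iff]
    have hle : (⨆ A ∈ S, A) ≤ Subgroup.centralizer ({z} : Set G) := by
      apply iSup₂_le
      intro A hA a ha
      rw [Subgroup.mem_centralizer_iff]
      intro h hh
      rw [Set.mem_singleton_iff] at hh
      rw [hh]
      exact key A hA a ha
    intro g
    have hg : g ∈ Subgroup.centralizer ({z} : Set G) := by
      apply hle
      rw [hS.generates]
      exact Subgroup.mem_top g
    rw [Subgroup.mem_centralizer_iff] at hg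
    exact (hg z rfl).symm
  · rw [← Subgroup.upperCentralSeries_one]
    exact Subgroup.upperCentralSeries_mono G one_le_two

end Cfsg.Agent.Lib.Helper8
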