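import Mathlib
import Cfsg.Prelude.Def_RootSubgroups
import Cfsg.Agent.Lib.Helper8.GroupFusion
import Cfsg.Agent.Lib.Helper8.GroupFusion2
import Cfsg.Agent.Lib.Helper8.Thompson
import Cfsg.Agent.Lib.Helper8.RankOne
import Cfsg.Agent.Lib.Helper8.RankOne2
import Cfsg.Agent.Lib.Helper8.RankOne4
import Cfsg.Agent.Lib.Helper8.Root1

set_option autoImplicit false

namespace Cfsg.Agent.Lib.Helper8

open Cfsg
open scoped commutatorElement

variable {G : Type*} [Group G]

theorem le_centralizer_zpowers_iff {E : Subgroup G} {x : G} :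
    E ≤ Subgroup.centralizer (Subgroup.zpowers x : Set G) ↔ ∀ e ∈ E, e * x = x * e := by
  rw [Subgroup.le_centralizer_iff, Subgroup.zpowers_le, Subgroup.mem_centralizer_iff]
  rfl

theorem commutator_eq_bot_of_commute {A B : Subgroup G} (h : ∀ a ∈ A, ∀ b ∈ B, a * b = b * a) :
    ⁅A, B⁆ = ⊥ := by
  rw [Subgroup.commutator_eq_bot_iff_le_centralizer]
  intro a ha
  rw [Subgroup.mem_centralizer_iff]
  intro b hb
  exact (h a ha b hb).symm

/-- core of S5026 -/
theorem root_degenerate_centralizer {S : Set (Subgroup G)} (hS : IsRootSubgroupSet S)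
    (hdeg : IsDegenerateRootSet S) {A B E : Subgroup G} (hA : A ∈ S) (hB : B ∈ S) (hE : E ∈ S)
    {a b : G} (ha : a ∈ A) (hb : b ∈ B) (ha1 : a ≠ 1) (hb1 : b ≠ 1)
    (hab : a * b = b * a) (hab1 : a * b ≠ 1) (hEt : ∀ e ∈ E, e * (a * b) = (a * b) * e) :
    ∀ e ∈ E, e * a = a * e := by
  by_contra hcon
  have hEA : ⁅E, A⁆ ≠ ⊥ := by
    intro hbot
    apply hcon
    intro e he
    exact root_commutes_of_bot hbot he ha
  have hEB : ⁅E, B⁆ ≠ ⊥ := by
    intro hbot
    apply hcon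
    intro e he
    have h1 := root_commutes_of_bot hbot he hb
    have h2 := hEt e he
    calc e * a = e * (a * b) * b⁻¹ := by group
      _ = a * b * e * b⁻¹ := by rw [h2]
      _ = a * (b * e) * b⁻¹ := by group
      _ = a * (e * b) * b⁻¹ := by rw [h1]
      _ = a * e := by group
  have hAE : IsRankOnePair A E := by
    rcases hS.pair E hE A hA with h1 | h1 | h1
    · exact absurd h1 hEA
    · exact RankOnePair_symm h1
    · exact absurd h1 (hdeg E hE A hA)
  have hBE : IsRankOnePair B E := by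
    rcases hS.pair E hE B hB with h1 | h1 | h1
    · exact absurd h1 hEB
    · exact RankOnePair_symm h1
    · exact absurd h1 (hdeg E hE B hB)
  have htE : ∀ e ∈ E, (a * b) * e = e * (a * b) := fun e he => (hEt e he).symm
  have htE' : ∀ e ∈ E, (a * b)⁻¹ * e = e * (a * b)⁻¹ := by
    intro e he
    have := hEt e he
    calc (a * b)⁻¹ * e = (a * b)⁻¹ * (e * (a * b)) * (a * b)⁻¹ := by group
      _ = (a * b)⁻¹ * ((a * b) * e) * (a * b)⁻¹ := by rw [this]
      _ = e * (a * b)⁻¹ := by group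
  have hta : (a * b) * a⁻¹ = a⁻¹ * (a * b) := by
    calc (a * b) * a⁻¹ = a * b * a⁻¹ := rfl
      _ = b * a * a⁻¹ := by rw [hab]
      _ = a⁻¹ * (a * b) := by group
  -- `t = a * b` normalises `A`
  have htA : conjSub (a * b) A = A := by
    obtain ⟨e₀, he₀, -, hconj⟩ := hAE.cond_left a ha ha1
    have hconj' : conjSub e₀⁻¹ A = conjSub a⁻¹ E := hconj
    have hL : conjSub (a * b) (conjSub e₀⁻¹ A) = conjSub e₀⁻¹ (conjSub (a * b) A) := by
      rw [conjSub_mul, conjSub_mul, htE _ (E.inv_mem he₀)]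
    have hR : conjSub (a * b) (conjSub a⁻¹ E) = conjSub a⁻¹ E := by
      rw [conjSub_mul, hta, ← conjSub_mul, conjSub_eq_of_centralizes htE]
    have h1 : conjSub e₀⁻¹ (conjSub (a * b) A) = conjSub e₀⁻¹ A :=
      hL.symm.trans ((congrArg (conjSub (a * b)) hconj').trans (hR.trans hconj'.symm))
    exact conjSub_injective _ h1
  have hbN : b ∈ Subgroup.normalizer (A : Set G) := by
    have e : b = a⁻¹ * (a * b) := by group
    rw [e]
    exact Subgroup.mul_mem _ (Subgroup.le_normalizer (A.inv_mem ha))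
      (mem_normalizer_of_conjSub_eq htA)
  have hABbot : ⁅A, B⁆ = ⊥ := by
    rcases hS.pair A hA B hB with h1 | h1 | h1
    · exact h1
    · exfalso
      have h2 : b ∈ B ⊓ Subgroup.normalizer (A : Set G) := Subgroup.mem_inf.2 ⟨hb, hbN⟩
      rw [rankOne_inf_normalizer (RankOnePair_symm h1), Subgroup.mem_bot] at h2
      exact hb1 h2
    · exact absurd h1 (hdeg A hA B hB)
  have hab' : a * b⁻¹ = b⁻¹ * a := by
    calc a * b⁻¹ = b⁻¹ * (b * a) * b⁻¹ := by group
      _ = b⁻¹ * (a * b) * b⁻¹ := by rw [hab]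
      _ = b⁻¹ * a := by group
  have hbE : conjSub b⁻¹ E = conjSub a E := by
    have e : b⁻¹ = a * (a * b)⁻¹ := by
      calc b⁻¹ = b⁻¹ * a * a⁻¹ := by group
        _ = a * b⁻¹ * a⁻¹ := by rw [hab']
        _ = a * (a * b)⁻¹ := by group
    rw [e, ← conjSub_mul, conjSub_eq_of_centralizes htE']
  obtain ⟨e₃, he₃, -, hconj3⟩ := hBE.cond_left b hb hb1
  have hconj3' : conjSub e₃⁻¹ B = conjSub b⁻¹ E := hconj3
  have ha1' : a⁻¹ ≠ 1 := fun hh => ha1 (inv_eq_one.1 hh)
  obtain ⟨e₂, he₂, -, hconj2⟩ := hAE.cond_left a⁻¹ (A.inv_mem ha) ha1'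
  rw [inv_inv] at hconj2
  have hconj2' : conjSub e₂⁻¹ A = conjSub a E := hconj2
  rw [hbE, ← hconj2'] at hconj3'
  have hB' : B = conjSub (e₃ * e₂⁻¹) A := by
    rw [← conjSub_mul, ← hconj3', conjSub_mul, mul_inv_cancel, conjSub_one]
  have hd : e₃ * e₂⁻¹ ∈ E := E.mul_mem he₃ (E.inv_mem he₂)
  by_cases hd1 : e₃ * e₂⁻¹ = 1
  · rw [hd1, conjSub_one] at hB'
    have h2 : a * b ∈ A ⊓ Subgroup.normalizer (E : Set G) :=
      Subgroup.mem_inf.2 ⟨A.mul_mem ha (hB' ▸ hb), mem_normalizer_of_centralizes htE⟩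
    rw [rankOne_inf_normalizer hAE, Subgroup.mem_bot] at h2
    exact hab1 h2
  · have hd1' : (e₃ * e₂⁻¹)⁻¹ ≠ 1 := fun hh => hd1 (inv_eq_one.1 hh)
    obtain ⟨a₅, ha₅, -, hconj5⟩ := hAE.cond_right _ (E.inv_mem hd) hd1'
    rw [inv_inv] at hconj5
    have hconj5' : conjSub a₅⁻¹ E = conjSub (e₃ * e₂⁻¹) A := hconj5
    rw [← hB'] at hconj5'
    apply hcon
    intro e he
    have h3 : a₅⁻¹ * e * a₅⁻¹⁻¹ ∈ B := hconj5' ▸ conj_mem_conjSub he
    have h4 : a₅⁻¹ * a * a₅ ∈ A := A.mul_mem (A.mul_mem (A.inv_mem ha₅) ha) ha₅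
    have h5 := root_commutes_of_bot hABbot h4 h3
    rw [inv_inv] at h5
    calc e * a = a₅ * ((a₅⁻¹ * e * a₅) * (a₅⁻¹ * a * a₅)) * a₅⁻¹ := by group
      _ = a₅ * ((a₅⁻¹ * a * a₅) * (a₅⁻¹ * e * a₅)) * a₅⁻¹ := by rw [h5]
      _ = a * e := by group

/-- S5026 -/
theorem root_degenerate_centralizingMembers {S : Set (Subgroup G)} (hS : IsRootSubgroupSet S)
    (hdeg : IsDegenerateRootSet S) {a b : G} (ha : a ∈ rootElements S) (hb : b ∈ rootElements S)
    (hab : a * b = b * a) (hab1 : a * b ≠ 1) :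
    centralizingMembers S (Subgroup.zpowers (a * b)) =
      centralizingMembers S (Subgroup.zpowers a) ∩ centralizingMembers S (Subgroup.zpowers b) := by
  obtain ⟨ha1, A, hA, haA⟩ := ha
  obtain ⟨hb1, B, hB, hbB⟩ := hb
  ext E
  constructor
  · rintro ⟨hE, hEc⟩
    rw [le_centralizer_zpowers_iff] at hEc
    refine ⟨⟨hE, ?_⟩, ⟨hE, ?_⟩⟩
    · rw [le_centralizer_zpowers_iff]
      exact root_degenerate_centralizer hS hdeg hA hB hE haA hbB ha1 hb1 hab hab1 hEc
    · rw [le_centralizer_zpowers_iff]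
      have hba1 : b * a ≠ 1 := hab ▸ hab1
      have hEc' : ∀ e ∈ E, e * (b * a) = (b * a) * e := by
        intro e he
        rw [← hab]
        exact hEc e he
      exact root_degenerate_centralizer hS hdeg hB hA hE hbB haA hb1 ha1 hab.symm hba1 hEc'
  · rintro ⟨⟨hE, hEa⟩, ⟨-, hEb⟩⟩
    rw [le_centralizer_zpowers_iff] at hEa hEb
    refine ⟨hE, ?_⟩
    rw [le_centralizer_zpowers_iff]
    intro e he
    rw [← mul_assoc, hEa e he, mul_assoc, hEb e he, mul_assoc]

end Cfsg.Agent.Lib.Helper8
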