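import Mathlib
import Cfsg.Prelude.Def_RootSubgroups
import Cfsg.Agent.Lib.Helper8.GroupFusion
import Cfsg.Agent.Lib.Helper8.GroupFusion2
import Cfsg.Agent.Lib.Helper8.Thompson
import Cfsg.Agent.Lib.Helper8.RankOne
import Cfsg.Agent.Lib.Helper8.RankOne2
import Cfsg.Agent.Lib.Helper8.RankOne4
import Cfsg.Agent.Lib.Helper8.Root1
import Cfsg.Agent.Lib.Helper8.Root2

set_option autoImplicit false

namespace Cfsg.Agent.Lib.Helper8

open Cfsg
open scoped commutatorElement

variable {G : Type*} [Group G]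

theorem rankOneCondition_conj {A B : Subgroup G} (hc : RankOneCondition A B) (x : G) :
    RankOneCondition (conjSub x A) (conjSub x B) := by
  intro a' ha' ha'1
  rw [mem_conjSub] at ha'
  have h1 : x⁻¹ * a' * x ≠ 1 := by
    intro hh
    apply ha'1
    have e : a' = x * (x⁻¹ * a' * x) * x⁻¹ := by group
    rw [e, hh]; group
  obtain ⟨b, hb, hb1, hconj⟩ := hc _ ha' h1
  have hconj' : conjSub b⁻¹ A = conjSub (x⁻¹ * a' * x)⁻¹ B := hconj
  refine ⟨x * b * x⁻¹, conj_mem_conjSub hb, ?_, ?_⟩
  · intro hh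
    apply hb1
    have e : b = x⁻¹ * (x * b * x⁻¹) * x := by group
    rw [e, hh]; group
  · show conjSub (x * b * x⁻¹)⁻¹ (conjSub x A) = conjSub a'⁻¹ (conjSub x B)
    rw [conjSub_mul, conjSub_mul]
    have e1 : (x * b * x⁻¹)⁻¹ * x = x * b⁻¹ := by group
    have e2 : a'⁻¹ * x = x * (x⁻¹ * a' * x)⁻¹ := by group
    rw [e1, e2, ← conjSub_mul, ← conjSub_mul, hconj']

theorem rankOne_conj {A B : Subgroup G} (h : IsRankOnePair A B) (x : G) :
    IsRankOnePair (conjSub x A) (conjSub x B) := by
  refine ⟨fun hh => h.ne (conjSub_injective x hh), ?_, ?_, rankOneCondition_conj h.cond_left x,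
    rankOneCondition_conj h.cond_right x⟩
  · have := h.nilpotent_left
    exact Group.nilpotent_of_mulEquiv
      (Subgroup.equivMapOfInjective A (MulAut.conj x).toMonoidHom (MulAut.conj x).injective)
  · have := h.nilpotent_right
    exact Group.nilpotent_of_mulEquiv
      (Subgroup.equivMapOfInjective B (MulAut.conj x).toMonoidHom (MulAut.conj x).injective)

theorem unipotent_le {A B E : Subgroup G} (hE : E ∈ unipotentSubgroups A B) : E ≤ A ⊔ B := by
  obtain ⟨x, hx, rfl⟩ := hE
  intro y hy
  have hy' : x⁻¹ * y * x ∈ A := mem_conjSub.1 hy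
  have e : y = x * (x⁻¹ * y * x) * x⁻¹ := by group
  rw [e]
  exact Subgroup.mul_mem _ (Subgroup.mul_mem _ hx (Subgroup.mem_sup_left hy')) (Subgroup.inv_mem _ hx)

theorem unipotent_mem_self {A B : Subgroup G} : A ∈ unipotentSubgroups A B :=
  ⟨1, Subgroup.one_mem _, (conjSub_one A).symm⟩

theorem unipotent_mem_right {A B : Subgroup G} (h : IsRankOnePair A B) :
    B ∈ unipotentSubgroups A B :=
  (rankOne_orbit h B).2 (Or.inr ⟨1, Subgroup.one_mem _, (conjSub_one B).symm⟩)

theorem unipotent_pair {A B E E' : Subgroup G} (h : IsRankOnePair A B)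
    (hE : E ∈ unipotentSubgroups A B) (hE' : E' ∈ unipotentSubgroups A B) (hne : E ≠ E') :
    IsRankOnePair E E' := by
  obtain ⟨x, -, h1, h2⟩ := rankOne_two_transitive h A unipotent_mem_self B (unipotent_mem_right h)
    E hE E' hE' h.ne hne
  have h1' : conjSub x A = E := h1
  have h2' : conjSub x B = E' := h2
  rw [← h1', ← h2']
  exact rankOne_conj h x

theorem unipotent_mem_S {S : Set (Subgroup G)} (hS : IsRootSubgroupSet S) {A B E : Subgroup G}
    (hA : A ∈ S) (hE : E ∈ unipotentSubgroups A B) : E ∈ S := by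
  obtain ⟨x, -, rfl⟩ := hE
  exact hS.conj_mem A hA x

theorem unipotent_exists_partner {A B E : Subgroup G} (h : IsRankOnePair A B)
    (hE : E ∈ unipotentSubgroups A B) :
    ∃ E' ∈ unipotentSubgroups A B, IsRankOnePair E E' := by
  by_cases hEA : E = A
  · exact ⟨B, unipotent_mem_right h, hEA ▸ h⟩
  · exact ⟨A, unipotent_mem_self, unipotent_pair h hE unipotent_mem_self hEA⟩

/-- a member of `S` inside a rank one group `⟨C, D⟩` acting non-trivially is a unipotent subgroup -/
theorem root_mem_unipotent {S : Set (Subgroup G)} (hS : IsRootSubgroupSet S) {C D : Subgroup G}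
    (hC : C ∈ S) (hCD : IsRankOnePair C D) {A B : Subgroup G} (hA : A ∈ S)
    (hAY : A ≤ C ⊔ D) (hBY : B ≤ C ⊔ D) (hAB : A ⊓ Subgroup.normalizer (B : Set G) = ⊥) :
    A ∈ unipotentSubgroups C D := by
  by_contra hAΛ
  have hAne := hS.ne_bot A hA
  -- every member of Λ commutes with A
  have key : ∀ E ∈ unipotentSubgroups C D, ⁅A, E⁆ = ⊥ := by
    intro E hE
    have hES : E ∈ S := unipotent_mem_S hS hC hE
    rcases hS.pair A hA E hES with h1 | h1 | h1
    · exact h1
    · exfalso
      obtain ⟨a, ha, ha1⟩ := rankOne_exists_ne_one h1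
      obtain ⟨e, he, -, hconj⟩ := h1.cond_left a ha ha1
      have hconj' : conjSub e⁻¹ A = conjSub a⁻¹ E := hconj
      apply hAΛ
      have h2 : conjSub a⁻¹ E ∈ unipotentSubgroups C D :=
        rankOne_orbit_conj hE (Subgroup.inv_mem _ (hAY ha))
      rw [← hconj'] at h2
      have h3 := rankOne_orbit_conj h2 (unipotent_le hE he)
      rwa [conjSub_conjSub_inv'] at h3
    · exfalso
      obtain ⟨hF, hcent, -, -⟩ := h1
      have hEcomm : ∀ x ∈ E, ∀ y ∈ E, x * y = y * x := by
        intro x hx y hy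
        have hc := hS.commutative E hES
        have h1 := hc.is_comm.comm (⟨x, hx⟩ : E) ⟨y, hy⟩
        exact congrArg Subtype.val h1
      -- every `a ∈ A` normalises `E`
      have hAN : ∀ a ∈ A, conjSub a E = E := by
        intro a ha
        by_contra hne
        have hE' : conjSub a E ∈ unipotentSubgroups C D := rankOne_orbit_conj hE (hAY ha)
        have hp := unipotent_pair hCD hE' hE hne
        have hle : conjSub a E ≤ Subgroup.normalizer (E : Set G) := by
          intro y hy
          rw [mem_conjSub] at hy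
          apply mem_normalizer_of_centralizes
          intro x hx
          have e : y = ⁅a, a⁻¹ * y * a⁆ * (a⁻¹ * y * a) := by
            rw [commutatorElement_def]; group
          have h4 : ⁅a, a⁻¹ * y * a⁆ ∈ ⁅A, E⁆ := Subgroup.commutator_mem_commutator ha hy
          have h5 := hcent _ h4 x (Subgroup.mem_sup_right hx)
          rw [e, mul_assoc, hEcomm _ hy x hx, ← mul_assoc, h5, mul_assoc]
        have hbot := rankOne_inf_normalizer hp
        rw [inf_eq_left.2 hle] at hbot
        exact hS.ne_bot _ (unipotent_mem_S hS hC hE') hbot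
      have hFE : ⁅A, E⁆ ≤ E := by
        rw [Subgroup.commutator_le]
        intro a ha e he
        have h2 : a * e * a⁻¹ ∈ conjSub a E := conj_mem_conjSub he
        rw [hAN a ha] at h2
        rw [commutatorElement_def]
        exact E.mul_mem h2 (E.inv_mem he)
      obtain ⟨E', hE', hp⟩ := unipotent_exists_partner hCD hE
      rcases root_inf_eq_bot_or_eq hS hES (unipotent_mem_S hS hC hE') hp _ hF with h2 | h2
      · rw [inf_eq_right.2 hFE] at h2
        exact hS.ne_bot _ hF h2
      · -- `E = ⁅A, E⁆` is central in `⟨A, E⟩`, so `⁅A, E⁆ = ⊥`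
        apply hS.ne_bot _ hF
        apply commutator_eq_bot_of_commute
        intro a ha e he
        have he' : e ∈ ⁅A, E⁆ := h2 ▸ he
        exact (hcent e he' a (Subgroup.mem_sup_left ha)).symm
  have hcomm : ∀ a ∈ A, ∀ y ∈ C ⊔ D, a * y = y * a := by
    intro a ha
    apply sup_mul_induction
    · intro c hc
      exact root_commutes_of_bot (key C unipotent_mem_self) ha hc
    · intro d hd
      exact root_commutes_of_bot (key D (unipotent_mem_right hCD)) ha hd
    · simp
    · intro x y hx hy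
      rw [← mul_assoc, hx, mul_assoc, hy, mul_assoc]
  apply hAne
  rw [← hAB]
  refine (inf_eq_left.2 ?_).symm
  intro a ha
  apply mem_normalizer_of_centralizes
  intro b hb
  exact hcomm a ha b (hBY hb)

/-- S5024 -/
theorem root_rankOne_le {S : Set (Subgroup G)} (hS : IsRootSubgroupSet S)
    {A B C D : Subgroup G} (hA : A ∈ S) (hC : C ∈ S) (hB : B ∈ rankOnePartners S A)
    (hD : D ∈ rankOnePartners S C) (hle : A ⊔ B ≤ C ⊔ D) :
    A ⊔ B = C ⊔ D ∧ C ∈ unipotentSubgroups A B ∧ D ∈ unipotentSubgroups A B := by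
  obtain ⟨hBS, hAB⟩ := hB
  obtain ⟨hDS, hCD⟩ := hD
  have hAΛ : A ∈ unipotentSubgroups C D :=
    root_mem_unipotent hS hC hCD hA (le_sup_left.trans hle) (le_sup_right.trans hle)
      (rankOne_inf_normalizer hAB)
  have hBΛ : B ∈ unipotentSubgroups C D :=
    root_mem_unipotent hS hC hCD hBS (le_sup_right.trans hle) (le_sup_left.trans hle)
      (rankOne_inf_normalizer (RankOnePair_symm hAB))
  obtain ⟨x, hx, h1, h2⟩ := rankOne_two_transitive hCD C unipotent_mem_self D
    (unipotent_mem_right hCD) A hAΛ B hBΛ hCD.ne hAB.ne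
  have h1' : conjSub x C = A := h1
  have h2' : conjSub x D = B := h2
  have heq : A ⊔ B = C ⊔ D := by
    rw [← h1', ← h2']
    show Subgroup.map _ C ⊔ Subgroup.map _ D = C ⊔ D
    rw [← Subgroup.map_sup]
    exact conjSub_eq_of_mem hx
  have hx' : x⁻¹ ∈ A ⊔ B := heq ▸ Subgroup.inv_mem _ hx
  refine ⟨heq, ⟨x⁻¹, hx', ?_⟩, ?_⟩
  · show C = conjSub x⁻¹ A
    rw [← h1', conjSub_inv_conjSub]
  · have hD' : D = conjSub x⁻¹ B := by rw [← h2', conjSub_inv_conjSub]
    rw [hD']
    exact rankOne_orbit_conj (unipotent_mem_right hAB) hx'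

end Cfsg.Agent.Lib.Helper8
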