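import Mathlib
import Cfsg.Prelude.Def_RootSubgroups
import Cfsg.Agent.Lib.Helper8.GroupFusion
import Cfsg.Agent.Lib.Helper8.GroupFusion2

set_option autoImplicit false
set_option linter.unusedSimpArgs false

namespace Cfsg.Agent.Lib.Helper8

open Cfsg Matrix

variable {k : Type*} [Field k]

/-- lower unitriangular -/
def sl2L (s : k) : Matrix.SpecialLinearGroup (Fin 2) k :=
  ⟨!![1, 0; s, 1], by simp [Matrix.det_fin_two]⟩

/-- upper unitriangular -/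
def sl2U (t : k) : Matrix.SpecialLinearGroup (Fin 2) k :=
  ⟨!![1, t; 0, 1], by simp [Matrix.det_fin_two]⟩

theorem sl2_ext {g h : Matrix.SpecialLinearGroup (Fin 2) k}
    (h00 : (g : Matrix (Fin 2) (Fin 2) k) 0 0 = (h : Matrix (Fin 2) (Fin 2) k) 0 0)
    (h01 : (g : Matrix (Fin 2) (Fin 2) k) 0 1 = (h : Matrix (Fin 2) (Fin 2) k) 0 1)
    (h10 : (g : Matrix (Fin 2) (Fin 2) k) 1 0 = (h : Matrix (Fin 2) (Fin 2) k) 1 0)
    (h11 : (g : Matrix (Fin 2) (Fin 2) k) 1 1 = (h : Matrix (Fin 2) (Fin 2) k) 1 1) : g = h := by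
  apply Subtype.ext
  ext i j
  fin_cases i <;> fin_cases j
  · exact h00
  · exact h01
  · exact h10
  · exact h11

theorem sl2_det (g : Matrix.SpecialLinearGroup (Fin 2) k) :
    (g : Matrix (Fin 2) (Fin 2) k) 0 0 * (g : Matrix (Fin 2) (Fin 2) k) 1 1 -
      (g : Matrix (Fin 2) (Fin 2) k) 0 1 * (g : Matrix (Fin 2) (Fin 2) k) 1 0 = 1 := by
  have := g.det_coe
  rwa [Matrix.det_fin_two] at this

@[simp] theorem sl2L_00 (s : k) : (sl2L s : Matrix (Fin 2) (Fin 2) k) 0 0 = 1 := rfl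
@[simp] theorem sl2L_01 (s : k) : (sl2L s : Matrix (Fin 2) (Fin 2) k) 0 1 = 0 := rfl
@[simp] theorem sl2L_10 (s : k) : (sl2L s : Matrix (Fin 2) (Fin 2) k) 1 0 = s := rfl
@[simp] theorem sl2L_11 (s : k) : (sl2L s : Matrix (Fin 2) (Fin 2) k) 1 1 = 1 := rfl
@[simp] theorem sl2U_00 (s : k) : (sl2U s : Matrix (Fin 2) (Fin 2) k) 0 0 = 1 := rfl
@[simp] theorem sl2U_01 (s : k) : (sl2U s : Matrix (Fin 2) (Fin 2) k) 0 1 = s := rfl
@[simp] theorem sl2U_10 (s : k) : (sl2U s : Matrix (Fin 2) (Fin 2) k) 1 0 = 0 := rfl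
@[simp] theorem sl2U_11 (s : k) : (sl2U s : Matrix (Fin 2) (Fin 2) k) 1 1 = 1 := rfl

theorem sl2_mul_00 (g h : Matrix.SpecialLinearGroup (Fin 2) k) :
    ((g * h : Matrix.SpecialLinearGroup (Fin 2) k) : Matrix (Fin 2) (Fin 2) k) 0 0 =
      (g : Matrix (Fin 2) (Fin 2) k) 0 0 * (h : Matrix (Fin 2) (Fin 2) k) 0 0 +
      (g : Matrix (Fin 2) (Fin 2) k) 0 1 * (h : Matrix (Fin 2) (Fin 2) k) 1 0 := by
  simp [Matrix.mul_apply, Fin.sum_univ_two]

theorem sl2_mul_01 (g h : Matrix.SpecialLinearGroup (Fin 2) k) :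
    ((g * h : Matrix.SpecialLinearGroup (Fin 2) k) : Matrix (Fin 2) (Fin 2) k) 0 1 =
      (g : Matrix (Fin 2) (Fin 2) k) 0 0 * (h : Matrix (Fin 2) (Fin 2) k) 0 1 +
      (g : Matrix (Fin 2) (Fin 2) k) 0 1 * (h : Matrix (Fin 2) (Fin 2) k) 1 1 := by
  simp [Matrix.mul_apply, Fin.sum_univ_two]

theorem sl2_mul_10 (g h : Matrix.SpecialLinearGroup (Fin 2) k) :
    ((g * h : Matrix.SpecialLinearGroup (Fin 2) k) : Matrix (Fin 2) (Fin 2) k) 1 0 =
      (g : Matrix (Fin 2) (Fin 2) k) 1 0 * (h : Matrix (Fin 2) (Fin 2) k) 0 0 +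
      (g : Matrix (Fin 2) (Fin 2) k) 1 1 * (h : Matrix (Fin 2) (Fin 2) k) 1 0 := by
  simp [Matrix.mul_apply, Fin.sum_univ_two]

theorem sl2_mul_11 (g h : Matrix.SpecialLinearGroup (Fin 2) k) :
    ((g * h : Matrix.SpecialLinearGroup (Fin 2) k) : Matrix (Fin 2) (Fin 2) k) 1 1 =
      (g : Matrix (Fin 2) (Fin 2) k) 1 0 * (h : Matrix (Fin 2) (Fin 2) k) 0 1 +
      (g : Matrix (Fin 2) (Fin 2) k) 1 1 * (h : Matrix (Fin 2) (Fin 2) k) 1 1 := by
  simp [Matrix.mul_apply, Fin.sum_univ_two]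

theorem sl2_one_00 : ((1 : Matrix.SpecialLinearGroup (Fin 2) k) : Matrix (Fin 2) (Fin 2) k) 0 0 = 1 := by
  simp
theorem sl2_one_01 : ((1 : Matrix.SpecialLinearGroup (Fin 2) k) : Matrix (Fin 2) (Fin 2) k) 0 1 = 0 := by
  simp
theorem sl2_one_10 : ((1 : Matrix.SpecialLinearGroup (Fin 2) k) : Matrix (Fin 2) (Fin 2) k) 1 0 = 0 := by
  simp
theorem sl2_one_11 : ((1 : Matrix.SpecialLinearGroup (Fin 2) k) : Matrix (Fin 2) (Fin 2) k) 1 1 = 1 := by
  simp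

theorem sl2L_mul (s s' : k) : sl2L s * sl2L s' = sl2L (s + s') := by
  apply sl2_ext <;> simp [sl2_mul_00, sl2_mul_01, sl2_mul_10, sl2_mul_11]

theorem sl2U_mul (s s' : k) : sl2U s * sl2U s' = sl2U (s + s') := by
  apply sl2_ext <;> simp [sl2_mul_00, sl2_mul_01, sl2_mul_10, sl2_mul_11, add_comm]

theorem sl2L_zero : sl2L (0 : k) = 1 := by
  apply sl2_ext <;> simp [sl2_one_00, sl2_one_01, sl2_one_10, sl2_one_11]

theorem sl2U_zero : sl2U (0 : k) = 1 := by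
  apply sl2_ext <;> simp [sl2_one_00, sl2_one_01, sl2_one_10, sl2_one_11]

theorem sl2L_inv (s : k) : (sl2L s)⁻¹ = sl2L (-s) := by
  apply inv_eq_of_mul_eq_one_right
  rw [sl2L_mul, add_neg_cancel, sl2L_zero]

theorem sl2U_inv (s : k) : (sl2U s)⁻¹ = sl2U (-s) := by
  apply inv_eq_of_mul_eq_one_right
  rw [sl2U_mul, add_neg_cancel, sl2U_zero]

theorem sl2L_injective {s s' : k} (h : sl2L s = sl2L s') : s = s' := by
  have := congrArg (fun g : Matrix.SpecialLinearGroup (Fin 2) k => (g : Matrix (Fin 2) (Fin 2) k) 1 0) h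
  simpa using this

theorem sl2U_injective {s s' : k} (h : sl2U s = sl2U s') : s = s' := by
  have := congrArg (fun g : Matrix.SpecialLinearGroup (Fin 2) k => (g : Matrix (Fin 2) (Fin 2) k) 0 1) h
  simpa using this

theorem sl2L_eq_one_iff {s : k} : sl2L s = 1 ↔ s = 0 := by
  constructor
  · intro h
    rw [← sl2L_zero] at h
    exact sl2L_injective h
  · rintro rfl
    exact sl2L_zero

theorem sl2U_eq_one_iff {s : k} : sl2U s = 1 ↔ s = 0 := by
  constructor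
  · intro h
    rw [← sl2U_zero] at h
    exact sl2U_injective h
  · rintro rfl
    exact sl2U_zero

theorem mem_lower_iff {g : Matrix.SpecialLinearGroup (Fin 2) k} :
    g ∈ lowerUnipotentSL2 k ↔ ∃ s, g = sl2L s := by
  constructor
  · intro hg
    induction hg using Subgroup.closure_induction with
    | mem x hx =>
      obtain ⟨h1, h2, h3⟩ := hx
      refine ⟨(x : Matrix (Fin 2) (Fin 2) k) 1 0, ?_⟩
      apply sl2_ext <;> simp [h1, h2, h3]
    | one => exact ⟨0, sl2L_zero.symm⟩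
    | mul x y _ _ hx hy =>
      obtain ⟨s, rfl⟩ := hx
      obtain ⟨s', rfl⟩ := hy
      exact ⟨s + s', sl2L_mul s s'⟩
    | inv x _ hx =>
      obtain ⟨s, rfl⟩ := hx
      exact ⟨-s, sl2L_inv s⟩
  · rintro ⟨s, rfl⟩
    apply Subgroup.subset_closure
    exact ⟨rfl, rfl, rfl⟩

theorem mem_upper_iff {g : Matrix.SpecialLinearGroup (Fin 2) k} :
    g ∈ upperUnipotentSL2 k ↔ ∃ s, g = sl2U s := by
  constructor
  · intro hg
    induction hg using Subgroup.closure_induction with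
    | mem x hx =>
      obtain ⟨h1, h2, h3⟩ := hx
      refine ⟨(x : Matrix (Fin 2) (Fin 2) k) 0 1, ?_⟩
      apply sl2_ext <;> simp [h1, h2, h3]
    | one => exact ⟨0, sl2U_zero.symm⟩
    | mul x y _ _ hx hy =>
      obtain ⟨s, rfl⟩ := hx
      obtain ⟨s', rfl⟩ := hy
      exact ⟨s + s', sl2U_mul s s'⟩
    | inv x _ hx =>
      obtain ⟨s, rfl⟩ := hx
      exact ⟨-s, sl2U_inv s⟩
  · rintro ⟨s, rfl⟩
    apply Subgroup.subset_closure
    exact ⟨rfl, rfl, rfl⟩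

/-- the key conjugation identity -/
theorem sl2_conj_identity {s : k} (hs : s ≠ 0) (y : k) :
    sl2U (-s⁻¹) * sl2L (-(s ^ 2 * y)) * sl2U s⁻¹ = sl2L (-s) * sl2U y * sl2L s := by
  apply sl2_ext <;>
    simp only [sl2_mul_00, sl2_mul_01, sl2_mul_10, sl2_mul_11, sl2L_00, sl2L_01, sl2L_10, sl2L_11,
      sl2U_00, sl2U_01, sl2U_10, sl2U_11] <;> field_simp <;> ring

theorem sl2_gen : lowerUnipotentSL2 k ⊔ upperUnipotentSL2 k = ⊤ := by
  rw [eq_top_iff]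
  intro g _
  have hL : ∀ s : k, sl2L s ∈ lowerUnipotentSL2 k ⊔ upperUnipotentSL2 k :=
    fun s => Subgroup.mem_sup_left (mem_lower_iff.2 ⟨s, rfl⟩)
  have hU : ∀ s : k, sl2U s ∈ lowerUnipotentSL2 k ⊔ upperUnipotentSL2 k :=
    fun s => Subgroup.mem_sup_right (mem_upper_iff.2 ⟨s, rfl⟩)
  have key : ∀ g : Matrix.SpecialLinearGroup (Fin 2) k, (g : Matrix (Fin 2) (Fin 2) k) 0 1 ≠ 0 →
      g ∈ lowerUnipotentSL2 k ⊔ upperUnipotentSL2 k := by
    intro g hb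
    have hdet := sl2_det g
    have e : g = sl2L (((g : Matrix (Fin 2) (Fin 2) k) 1 1 - 1) / (g : Matrix (Fin 2) (Fin 2) k) 0 1) *
        sl2U ((g : Matrix (Fin 2) (Fin 2) k) 0 1) *
        sl2L (((g : Matrix (Fin 2) (Fin 2) k) 0 0 - 1) / (g : Matrix (Fin 2) (Fin 2) k) 0 1) := by
      apply sl2_ext
      · simp only [sl2_mul_00, sl2_mul_01, sl2_mul_10, sl2_mul_11, sl2L_00, sl2L_01, sl2L_10,
          sl2L_11, sl2U_00, sl2U_01, sl2U_10, sl2U_11]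
        field_simp
        ring
      · simp only [sl2_mul_00, sl2_mul_01, sl2_mul_10, sl2_mul_11, sl2L_00, sl2L_01, sl2L_10,
          sl2L_11, sl2U_00, sl2U_01, sl2U_10, sl2U_11]
        ring
      · simp only [sl2_mul_00, sl2_mul_01, sl2_mul_10, sl2_mul_11, sl2L_00, sl2L_01, sl2L_10,
          sl2L_11, sl2U_00, sl2U_01, sl2U_10, sl2U_11]
        field_simp
        linear_combination (-1 : k) * hdet
      · simp only [sl2_mul_00, sl2_mul_01, sl2_mul_10, sl2_mul_11, sl2L_00, sl2L_01, sl2L_10,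
          sl2L_11, sl2U_00, sl2U_01, sl2U_10, sl2U_11]
        field_simp
        ring
    rw [e]
    exact mul_mem (mul_mem (hL _) (hU _)) (hL _)
  by_cases hb : (g : Matrix (Fin 2) (Fin 2) k) 0 1 = 0
  · have e : g = (g * sl2U 1) * sl2U (-1) := by
      rw [mul_assoc, sl2U_mul, add_neg_cancel, sl2U_zero, mul_one]
    rw [e]
    refine mul_mem (key _ ?_) (hU _)
    rw [sl2_mul_01, hb]
    simp only [sl2U_01, sl2U_11, mul_one, zero_mul, add_zero]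
    intro h0
    have hdet := sl2_det g
    rw [h0, hb] at hdet
    simp at hdet
  · exact key g hb

theorem lower_comm : IsMulCommutative ↥(lowerUnipotentSL2 k) := ⟨⟨fun a b => by
  obtain ⟨s, hs⟩ := mem_lower_iff.1 a.2
  obtain ⟨s', hs'⟩ := mem_lower_iff.1 b.2
  apply Subtype.ext
  show (a : Matrix.SpecialLinearGroup (Fin 2) k) * b = b * a
  rw [hs, hs', sl2L_mul, sl2L_mul, add_comm]⟩⟩

theorem upper_comm : IsMulCommutative ↥(upperUnipotentSL2 k) := ⟨⟨fun a b => by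
  obtain ⟨s, hs⟩ := mem_upper_iff.1 a.2
  obtain ⟨s', hs'⟩ := mem_upper_iff.1 b.2
  apply Subtype.ext
  show (a : Matrix.SpecialLinearGroup (Fin 2) k) * b = b * a
  rw [hs, hs', sl2U_mul, sl2U_mul, add_comm]⟩⟩

open scoped IsMulCommutative in
theorem nilpotent_of_isMulCommutative {G : Type*} [Group G] (h : IsMulCommutative G) :
    Group.IsNilpotent G := inferInstance

theorem mem_conj_lower {t : k} {g : Matrix.SpecialLinearGroup (Fin 2) k} :
    g ∈ conjBy (lowerUnipotentSL2 k) (sl2U t)⁻¹ ↔ ∃ x, g = sl2U (-t) * sl2L x * sl2U t := by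
  have h1 : g ∈ conjBy (lowerUnipotentSL2 k) (sl2U t)⁻¹ ↔
      ((sl2U t)⁻¹)⁻¹ * g * (sl2U t)⁻¹ ∈ lowerUnipotentSL2 k := mem_conjSub
  rw [h1, inv_inv, mem_lower_iff]
  constructor
  · rintro ⟨x, hx⟩
    refine ⟨x, ?_⟩
    rw [← hx, ← sl2U_inv]
    group
  · rintro ⟨x, rfl⟩
    refine ⟨x, ?_⟩
    rw [← sl2U_inv]
    group

theorem mem_conj_upper {s : k} {g : Matrix.SpecialLinearGroup (Fin 2) k} :
    g ∈ conjBy (upperUnipotentSL2 k) (sl2L s)⁻¹ ↔ ∃ y, g = sl2L (-s) * sl2U y * sl2L s := by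
  have h1 : g ∈ conjBy (upperUnipotentSL2 k) (sl2L s)⁻¹ ↔
      ((sl2L s)⁻¹)⁻¹ * g * (sl2L s)⁻¹ ∈ upperUnipotentSL2 k := mem_conjSub
  rw [h1, inv_inv, mem_upper_iff]
  constructor
  · rintro ⟨x, hx⟩
    refine ⟨x, ?_⟩
    rw [← hx, ← sl2L_inv]
    group
  · rintro ⟨x, rfl⟩
    refine ⟨x, ?_⟩
    rw [← sl2L_inv]
    group

theorem sl2_conj_eq {s : k} (hs : s ≠ 0) :
    conjBy (lowerUnipotentSL2 k) (sl2U s⁻¹)⁻¹ = conjBy (upperUnipotentSL2 k) (sl2L s)⁻¹ := by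
  ext g
  rw [mem_conj_lower, mem_conj_upper]
  constructor
  · rintro ⟨x, rfl⟩
    refine ⟨-x / s ^ 2, ?_⟩
    rw [← sl2_conj_identity hs]
    have e : -(s ^ 2 * (-x / s ^ 2)) = x := by field_simp
    rw [e]
  · rintro ⟨y, rfl⟩
    exact ⟨-(s ^ 2 * y), (sl2_conj_identity hs y).symm⟩

theorem sl2_rankOnePair : IsRankOnePair (lowerUnipotentSL2 k) (upperUnipotentSL2 k) := by
  refine ⟨?_, nilpotent_of_isMulCommutative lower_comm, nilpotent_of_isMulCommutative upper_comm,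
    ?_, ?_⟩
  · intro h
    have h1 : sl2L (1 : k) ∈ upperUnipotentSL2 k := by
      rw [← h]
      exact mem_lower_iff.2 ⟨1, rfl⟩
    obtain ⟨t, ht⟩ := mem_upper_iff.1 h1
    have := congrArg (fun g : Matrix.SpecialLinearGroup (Fin 2) k => (g : Matrix (Fin 2) (Fin 2) k) 1 0) ht
    simp at this
  · intro a ha ha1
    obtain ⟨s, rfl⟩ := mem_lower_iff.1 ha
    have hs : s ≠ 0 := fun h => ha1 (sl2L_eq_one_iff.2 h)
    refine ⟨sl2U s⁻¹, mem_upper_iff.2 ⟨_, rfl⟩, ?_, sl2_conj_eq hs⟩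
    intro h
    exact inv_ne_zero hs (sl2U_eq_one_iff.1 h)
  · intro b hb hb1
    obtain ⟨t, rfl⟩ := mem_upper_iff.1 hb
    have ht : t ≠ 0 := fun h => hb1 (sl2U_eq_one_iff.2 h)
    refine ⟨sl2L t⁻¹, mem_lower_iff.2 ⟨_, rfl⟩, ?_, ?_⟩
    · intro h
      exact inv_ne_zero ht (sl2L_eq_one_iff.1 h)
    · have := sl2_conj_eq (inv_ne_zero ht)
      rw [inv_inv] at this
      exact this.symm

theorem sl2_special : IsSpecialRankOnePair (lowerUnipotentSL2 k) (upperUnipotentSL2 k) := by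
  refine ⟨sl2_rankOnePair, ?_⟩
  intro a ha ha1 b hb hb1 hconj
  obtain ⟨s, rfl⟩ := mem_lower_iff.1 ha
  obtain ⟨t, rfl⟩ := mem_upper_iff.1 hb
  have hs : s ≠ 0 := fun h => ha1 (sl2L_eq_one_iff.2 h)
  have ht : t ≠ 0 := fun h => hb1 (sl2U_eq_one_iff.2 h)
  have h1 : sl2U (-t) * sl2L 1 * sl2U t ∈ conjBy (lowerUnipotentSL2 k) (sl2U t)⁻¹ :=
    mem_conj_lower.2 ⟨1, rfl⟩
  rw [hconj, mem_conj_upper] at h1
  obtain ⟨y, hy⟩ := h1
  have e01 := congrArg (fun g : Matrix.SpecialLinearGroup (Fin 2) k => (g : Matrix (Fin 2) (Fin 2) k) 0 1) hy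
  have e00 := congrArg (fun g : Matrix.SpecialLinearGroup (Fin 2) k => (g : Matrix (Fin 2) (Fin 2) k) 0 0) hy
  simp only [sl2_mul_00, sl2_mul_01, sl2_mul_10, sl2_mul_11, sl2L_00, sl2L_01, sl2L_10,
    sl2L_11, sl2U_00, sl2U_01, sl2U_10, sl2U_11] at e01 e00
  have hst : s * t = 1 := by
    have h2 : t * (s * t - 1) = 0 := by
      linear_combination e00 - s * e01
    rcases mul_eq_zero.1 h2 with h3 | h3
    · exact absurd h3 ht
    · exact sub_eq_zero.1 h3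
  rw [sl2U_inv, sl2L_inv]
  apply sl2_ext
  · simp only [sl2_mul_00, sl2_mul_01, sl2_mul_10, sl2_mul_11, sl2L_00, sl2L_01, sl2L_10,
      sl2L_11, sl2U_00, sl2U_01, sl2U_10, sl2U_11]
    ring
  · simp only [sl2_mul_00, sl2_mul_01, sl2_mul_10, sl2_mul_11, sl2L_00, sl2L_01, sl2L_10,
      sl2L_11, sl2U_00, sl2U_01, sl2U_10, sl2U_11]
    linear_combination (-t) * hst
  · simp only [sl2_mul_00, sl2_mul_01, sl2_mul_10, sl2_mul_11, sl2L_00, sl2L_01, sl2L_10,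
      sl2L_11, sl2U_00, sl2U_01, sl2U_10, sl2U_11]
    linear_combination (-s) * hst
  · simp only [sl2_mul_00, sl2_mul_01, sl2_mul_10, sl2_mul_11, sl2L_00, sl2L_01, sl2L_10,
      sl2L_11, sl2U_00, sl2U_01, sl2U_10, sl2U_11]
    ring

/-- S5016 -/
theorem sl2_main :
    IsRankOneGroup (Matrix.SpecialLinearGroup (Fin 2) k) (lowerUnipotentSL2 k) (upperUnipotentSL2 k) ∧
    IsSpecialRankOnePair (lowerUnipotentSL2 k) (upperUnipotentSL2 k) ∧
    HasAbelianUnipotents (lowerUnipotentSL2 k) (upperUnipotentSL2 k) :=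
  ⟨⟨sl2_gen, sl2_rankOnePair⟩, sl2_special, lower_comm, upper_comm⟩

end Cfsg.Agent.Lib.Helper8
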