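import Mathlib
import Cfsg.Prelude.Def_SporadicB
import Cfsg.Prelude.Def_Solvable
import Cfsg.Agent.Lib.Helper8.FusionMisc

set_option autoImplicit false

namespace Cfsg.Agent.Lib.Helper8

variable {G : Type*} [Group G]

/-- a conjugation-closed set of 3-transpositions -/
structure TTSet8 (D : Set G) : Prop where
  ord : ∀ d ∈ D, orderOf d = 2
  three : ∀ d ∈ D, ∀ e ∈ D, (d * e) ^ 2 = 1 ∨ (d * e) ^ 3 = 1
  conj : ∀ g : G, ∀ d ∈ D, g * d * g⁻¹ ∈ D

theorem TTSet8.sq {D : Set G} (h : TTSet8 D) {d : G} (hd : d ∈ D) : d * d = 1 := by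
  rw [← pow_two, ← h.ord d hd]
  exact pow_orderOf_eq_one d

theorem TTSet8.inv {D : Set G} (h : TTSet8 D) {d : G} (hd : d ∈ D) : d⁻¹ = d :=
  inv_eq_of_mul_eq_one_left (h.sq hd)

theorem TTSet8.comm_of_sq {D : Set G} (h : TTSet8 D) {d e : G} (hd : d ∈ D) (he : e ∈ D)
    (h2 : (d * e) ^ 2 = 1) : Commute d e := by
  show d * e = e * d
  rw [pow_two] at h2
  have : d * e = (d * e)⁻¹ := eq_inv_of_mul_eq_one_left h2
  rw [this, mul_inv_rev, h.inv hd, h.inv he]

theorem TTSet8.cube {D : Set G} (h : TTSet8 D) {d e : G} (hd : d ∈ D) (he : e ∈ D)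
    (hnc : ¬ Commute d e) : (d * e) ^ 3 = 1 := by
  rcases h.three d hd e he with h2 | h3
  · exact absurd (h.comm_of_sq hd he h2) hnc
  · exact h3

theorem TTSet8.braid {D : Set G} (h : TTSet8 D) {d e : G} (hd : d ∈ D) (he : e ∈ D)
    (hnc : ¬ Commute d e) : d * e * d = e * d * e := by
  have h3 := h.cube hd he hnc
  have h3' : (d * e * d) * (e * d * e) = 1 := by
    rw [pow_succ, pow_two] at h3
    rw [← h3]
    group
  have : d * e * d = (e * d * e)⁻¹ := eq_inv_of_mul_eq_one_left h3'
  rw [this, mul_inv_rev, mul_inv_rev, h.inv hd, h.inv he]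
  group

/-- `u` and `v` are members of `D` commuting with the same members of `D` -/
def SameComm8 (D : Set G) (u v : G) : Prop :=
  u ∈ D ∧ v ∈ D ∧ ∀ e ∈ D, Commute u e ↔ Commute v e

theorem SameComm8.refl {D : Set G} {u : G} (hu : u ∈ D) : SameComm8 D u u :=
  ⟨hu, hu, fun _ _ => Iff.rfl⟩

theorem SameComm8.symm {D : Set G} {u v : G} (h : SameComm8 D u v) : SameComm8 D v u :=
  ⟨h.2.1, h.1, fun e he => (h.2.2 e he).symm⟩

theorem SameComm8.trans {D : Set G} {u v w : G} (h : SameComm8 D u v) (h' : SameComm8 D v w) :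
    SameComm8 D u w :=
  ⟨h.1, h'.2.1, fun e he => (h.2.2 e he).trans (h'.2.2 e he)⟩

theorem commute_conj_iff8 (g u e : G) :
    Commute (g * u * g⁻¹) e ↔ Commute u (g⁻¹ * e * g) := by
  constructor
  · intro h
    show u * (g⁻¹ * e * g) = (g⁻¹ * e * g) * u
    calc u * (g⁻¹ * e * g) = g⁻¹ * (g * u * g⁻¹ * e) * g := by group
      _ = g⁻¹ * (e * (g * u * g⁻¹)) * g := by rw [h.eq]
      _ = (g⁻¹ * e * g) * u := by group
  · intro h
    show (g * u * g⁻¹) * e = e * (g * u * g⁻¹)
    calc (g * u * g⁻¹) * e = g * (u * (g⁻¹ * e * g)) * g⁻¹ := by group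
      _ = g * ((g⁻¹ * e * g) * u) * g⁻¹ := by rw [h.eq]
      _ = e * (g * u * g⁻¹) := by group

theorem SameComm8.conj {D : Set G} (h : TTSet8 D) {u v : G} (huv : SameComm8 D u v) (g : G) :
    SameComm8 D (g * u * g⁻¹) (g * v * g⁻¹) := by
  refine ⟨h.conj g u huv.1, h.conj g v huv.2.1, fun e he => ?_⟩
  rw [commute_conj_iff8, commute_conj_iff8]
  apply huv.2.2
  have := h.conj g⁻¹ e he
  rwa [inv_inv] at this

/-- the key computation: conjugating by `u u'` (for `u, u'` with the same commuting set)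
preserves commuting sets -/
theorem sameComm_key8 {D : Set G} (h : TTSet8 D) {u u' e f : G} (huu : SameComm8 D u u')
    (he : e ∈ D) (hf : f ∈ D) (hef : Commute e f) :
    Commute ((u * u') * e * (u * u')⁻¹) f := by
  obtain ⟨hu, hu', hc⟩ := huu
  have hcuu : Commute u u' := (hc u' hu').mpr (Commute.refl u')
  have htinv : (u * u')⁻¹ = u' * u := by rw [mul_inv_rev, h.inv hu, h.inv hu']
  by_cases hue : Commute u e
  · have hu'e : Commute u' e := (hc e he).mp hue
    have h1 : Commute (u * u') e := hue.mul_left hu'e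
    have e1 : (u * u') * e * (u * u')⁻¹ = e := by
      rw [h1.eq]
      group
    rw [e1]
    exact hef
  · have hu'e : ¬ Commute u' e := fun h' => hue ((hc e he).mpr h')
    by_cases huf : Commute u f
    · have hu'f : Commute u' f := (hc f hf).mp huf
      have h1 : Commute (u * u') f := huf.mul_left hu'f
      exact (h1.mul_left hef).mul_left h1.inv_left
    · have hb1 := h.braid hu he hue
      have hb2 := h.braid he hu' (fun h' => hu'e h'.symm)
      obtain ⟨k, hk⟩ : ∃ k : G, k = u * e * u := ⟨_, rfl⟩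
      have hkk : k * k = 1 := by
        calc k * k = u * e * (u * u) * e * u := by rw [hk]; group
          _ = u * (e * e) * u := by rw [h.sq hu]; group
          _ = u * u := by rw [h.sq he]; group
          _ = 1 := h.sq hu
      have hkinv : k⁻¹ = k := inv_eq_of_mul_eq_one_left hkk
      have hwD : k * f * k ∈ D := by
        have := h.conj k f hf
        rwa [hkinv] at this
      have hkuk : k * u * k = e := by
        calc k * u * k = (u * e * u) * (u * u) * (e * u) := by rw [hk]; group
          _ = (u * e * u) * (e * u) := by rw [h.sq hu, mul_one]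
          _ = (e * u * e) * (e * u) := by rw [hb1]
          _ = e * u * (e * e) * u := by group
          _ = e * (u * u) := by rw [h.sq he]; group
          _ = e := by rw [h.sq hu, mul_one]
      have hwu : Commute u (k * f * k) := by
        show u * (k * f * k) = (k * f * k) * u
        have e1 : k * f * (k * u * k) * k = k * f * k * u * (k * k) := by group
        have e2 : k * (k * u * k) * f * k = (k * k) * u * (k * f * k) := by group
        calc u * (k * f * k) = k * (k * u * k) * f * k := by rw [e2, hkk, one_mul]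
          _ = k * (e * f) * k := by rw [hkuk]; group
          _ = k * (f * e) * k := by rw [hef.eq]
          _ = k * f * (k * u * k) * k := by rw [hkuk]; group
          _ = (k * f * k) * u := by rw [e1, hkk, mul_one]
      have hwu' : Commute u' (k * f * k) := (hc _ hwD).mp hwu
      have h5 : f * (k * u' * k) = (k * u' * k) * f := by
        calc f * (k * u' * k) = (k * k) * f * (k * u' * k) := by rw [hkk, one_mul]
          _ = k * ((k * f * k) * u') * k := by group
          _ = k * (u' * (k * f * k)) * k := by rw [hwu'.eq]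
          _ = (k * u' * k) * f * (k * k) := by group
          _ = (k * u' * k) * f := by rw [hkk, mul_one]
      have huu'u : u * u' * u = u' := by
        rw [hcuu.eq, mul_assoc, h.sq hu, mul_one]
      have h6 : k * u' * k = (u * u') * e * (u' * u) := by
        calc k * u' * k = u * e * (u * u' * u) * e * u := by rw [hk]; group
          _ = u * e * u' * e * u := by rw [huu'u]
          _ = u * (e * u' * e) * u := by group
          _ = u * (u' * e * u') * u := by rw [hb2]
          _ = (u * u') * e * (u' * u) := by group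
      rw [htinv, ← h6]
      exact h5.symm

theorem sameComm_conj_self8 {D : Set G} (h : TTSet8 D) {u u' e : G} (huu : SameComm8 D u u')
    (he : e ∈ D) : SameComm8 D e ((u * u') * e * (u * u')⁻¹) := by
  refine ⟨he, h.conj _ e he, fun f hf => ⟨fun hef => sameComm_key8 h huu he hf hef, ?_⟩⟩
  intro hcf
  have h1 := sameComm_key8 h huu (h.conj (u * u') e he) hf hcf
  have hcuu : Commute u u' := (huu.2.2 u' huu.2.1).mpr (Commute.refl u')
  have htt : (u * u') * (u * u') = 1 := by
    calc (u * u') * (u * u') = u * (u' * u) * u' := by group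
      _ = u * (u * u') * u' := by rw [hcuu.eq]
      _ = (u * u) * (u' * u') := by group
      _ = 1 := by rw [h.sq huu.1, h.sq huu.2.1, one_mul]
  have e1 : (u * u') * ((u * u') * e * (u * u')⁻¹) * (u * u')⁻¹ = e := by
    calc (u * u') * ((u * u') * e * (u * u')⁻¹) * (u * u')⁻¹
        = ((u * u') * (u * u')) * e * ((u * u') * (u * u'))⁻¹ := by group
      _ = e := by rw [htt]; group
  rw [e1] at h1
  exact h1

theorem sameComm_closure_fix8 {D : Set G} (h : TTSet8 D) :
    ∀ n ∈ Subgroup.closure {x : G | ∃ u u' : G, SameComm8 D u u' ∧ x = u * u'},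
      ∀ e ∈ D, SameComm8 D e (n * e * n⁻¹) := by
  intro n hn
  induction hn using Subgroup.closure_induction with
  | mem x hx =>
    obtain ⟨u, u', huu, rfl⟩ := hx
    intro e he
    exact sameComm_conj_self8 h huu he
  | one =>
    intro e he
    simpa using SameComm8.refl he
  | mul x y hx hy ihx ihy =>
    intro e he
    have h1 := ihy e he
    have h2 := ihx (y * e * y⁻¹) h1.2.1
    have e1 : x * y * e * (x * y)⁻¹ = x * (y * e * y⁻¹) * x⁻¹ := by group
    rw [e1]
    exact h1.trans h2
  | inv x hx ihx =>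
    intro e he
    have he' : x⁻¹ * e * x ∈ D := by
      have := h.conj x⁻¹ e he
      rwa [inv_inv] at this
    have h1 := ihx (x⁻¹ * e * x) he'
    have e1 : x * (x⁻¹ * e * x) * x⁻¹ = e := by group
    rw [e1] at h1
    rw [inv_inv]
    exact h1.symm

theorem sameComm_closure_le_pCore8 [Finite G] {D : Set G} (h : TTSet8 D) :
    Subgroup.closure {x : G | ∃ u u' : G, SameComm8 D u u' ∧ x = u * u'} ≤ Cfsg.pCore 2 G := by
  classical
  set N : Subgroup G := Subgroup.closure {x : G | ∃ u u' : G, SameComm8 D u u' ∧ x = u * u'}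
    with hN
  have hfix := sameComm_closure_fix8 h
  have hNnormal : N.Normal := by
    constructor
    intro n hn g
    induction hn using Subgroup.closure_induction with
    | mem x hx =>
      obtain ⟨u, u', huu, rfl⟩ := hx
      apply Subgroup.subset_closure
      exact ⟨g * u * g⁻¹, g * u' * g⁻¹, huu.conj h g, by group⟩
    | one => simp
    | mul x y hx hy ihx ihy =>
      have e1 : g * (x * y) * g⁻¹ = (g * x * g⁻¹) * (g * y * g⁻¹) := by group
      rw [e1]
      exact N.mul_mem ihx ihy
    | inv x hx ihx =>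
      have e1 : g * x⁻¹ * g⁻¹ = (g * x * g⁻¹)⁻¹ := by group
      rw [e1]
      exact N.inv_mem ihx
  let M : G → Subgroup G := fun u =>
    Subgroup.closure {x : G | ∃ v v' : G, SameComm8 D u v ∧ SameComm8 D u v' ∧ x = v * v'}
  have hM2 : ∀ u : G, IsPGroup 2 (M u) := by
    intro u
    have hVcomm : ∀ x ∈ {v : G | SameComm8 D u v}, ∀ y ∈ {v : G | SameComm8 D u v},
        x * y = y * x := by
      intro x hx y hy
      have hxy : SameComm8 D x y := (SameComm8.symm hx).trans hy
      exact ((hxy.2.2 y hxy.2.1).mpr (Commute.refl y)).eq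
    have hcomm : ∀ x ∈ Subgroup.closure {v : G | SameComm8 D u v},
        ∀ y ∈ Subgroup.closure {v : G | SameComm8 D u v}, x * y = y * x := by
      intro x hx y hy
      have hic := Subgroup.isMulCommutative_closure hVcomm
      have := hic.is_comm.comm (⟨x, hx⟩ : Subgroup.closure {v : G | SameComm8 D u v}) ⟨y, hy⟩
      exact congrArg Subtype.val this
    have hsq : ∀ x ∈ Subgroup.closure {v : G | SameComm8 D u v}, x * x = 1 := by
      intro x hx
      induction hx using Subgroup.closure_induction with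
      | mem x hx => exact h.sq hx.2.1
      | one => simp
      | mul x y hx hy ihx ihy =>
        calc x * y * (x * y) = x * (y * x) * y := by group
          _ = x * (x * y) * y := by rw [hcomm y hy x hx]
          _ = (x * x) * (y * y) := by group
          _ = 1 := by rw [ihx, ihy, one_mul]
      | inv x hx ihx =>
        calc x⁻¹ * x⁻¹ = (x * x)⁻¹ := by group
          _ = 1 := by rw [ihx, inv_one]
    have hle : M u ≤ Subgroup.closure {v : G | SameComm8 D u v} := by
      apply (Subgroup.closure_le _).mpr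
      rintro x ⟨v, v', hv, hv', rfl⟩
      exact Subgroup.mul_mem _ (Subgroup.subset_closure hv) (Subgroup.subset_closure hv')
    intro x
    refine ⟨1, ?_⟩
    apply Subtype.ext
    show (x : G) ^ 2 ^ 1 = 1
    rw [pow_one, pow_two]
    exact hsq _ (hle x.2)
  have hMconj : ∀ u : G, ∀ y ∈ M u, ∀ n ∈ N, n * y * n⁻¹ ∈ M u := by
    intro u y hy n hn
    induction hy using Subgroup.closure_induction with
    | mem x hx =>
      obtain ⟨v, v', hv, hv', rfl⟩ := hx
      apply Subgroup.subset_closure
      exact ⟨n * v * n⁻¹, n * v' * n⁻¹, hv.trans (hfix n hn v hv.2.1),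
        hv'.trans (hfix n hn v' hv'.2.1), by group⟩
    | one => simp
    | mul x y hx hy ihx ihy =>
      have e1 : n * (x * y) * n⁻¹ = (n * x * n⁻¹) * (n * y * n⁻¹) := by group
      rw [e1]
      exact (M u).mul_mem ihx ihy
    | inv x hx ihx =>
      have e1 : n * x⁻¹ * n⁻¹ = (n * x * n⁻¹)⁻¹ := by group
      rw [e1]
      exact (M u).inv_mem ihx
  have hMnormal : ∀ u : G, ((M u).subgroupOf N).Normal := by
    intro u
    constructor
    intro x hx n
    rw [Subgroup.mem_subgroupOf] at hx ⊢
    exact hMconj u _ hx _ n.2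
  have hMp : ∀ u : G, IsPGroup 2 ((M u).subgroupOf N) := fun u =>
    (hM2 u).comap_of_injective N.subtype (Subgroup.subtype_injective N)
  have hgen : N ≤ (Cfsg.pCore 2 N).map N.subtype := by
    rw [hN]
    apply (Subgroup.closure_le _).mpr
    rintro x ⟨u, u', huu, rfl⟩
    have hxN : u * u' ∈ N := Subgroup.subset_closure ⟨u, u', huu, rfl⟩
    have hxM : u * u' ∈ M u :=
      Subgroup.subset_closure ⟨u, u', SameComm8.refl huu.1, huu, rfl⟩
    refine ⟨⟨u * u', hxN⟩, ?_, rfl⟩
    exact le_pCore8 (hMnormal u) (hMp u) (Subgroup.mem_subgroupOf.mpr hxM)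
  have hN2 : IsPGroup 2 N := by
    intro n
    obtain ⟨y, hy, hyn⟩ := hgen n.2
    have hyn' : y = n := Subtype.ext hyn
    rw [hyn'] at hy
    obtain ⟨k, hk⟩ := pCore_isPGroup8 2 N ⟨n, hy⟩
    exact ⟨k, congrArg Subtype.val hk⟩
  exact le_pCore8 hNnormal hN2

theorem tt_exists_noncomm8 {D : Set G} (hD : Cfsg.IsThreeTranspositionClass D)
    (hD2 : ∃ a ∈ D, ∃ b ∈ D, a ≠ b) {d : G} (hd : d ∈ D) : ∃ a ∈ D, ¬ Commute d a := by
  by_contra hcon
  have hall : ∀ a ∈ D, Commute d a := by
    intro a ha
    by_contra hna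
    exact hcon ⟨a, ha, hna⟩
  have hcent : ∀ g : G, g * d = d * g := by
    intro g
    have hle : Subgroup.closure D ≤ Subgroup.centralizer ({d} : Set G) := by
      apply (Subgroup.closure_le _).mpr
      intro a ha
      rw [SetLike.mem_coe, Subgroup.mem_centralizer_iff]
      intro x hx
      rw [Set.mem_singleton_iff] at hx
      rw [hx]
      exact (hall a ha).eq
    rw [hD.2.2] at hle
    have hg := hle (Subgroup.mem_top g)
    rw [Subgroup.mem_centralizer_iff] at hg
    exact (hg d rfl).symm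
  obtain ⟨d₀, hd₀, hDeq⟩ := hD.2.1
  have hall' : ∀ a ∈ D, a = d := by
    intro a ha
    have h1 : IsConj d₀ a := by
      rw [hDeq] at ha
      exact ha
    have h2 : IsConj d₀ d := by
      rw [hDeq] at hd
      exact hd
    obtain ⟨c, hc⟩ := isConj_iff.mp (h2.symm.trans h1)
    rw [← hc, hcent c]
    group
  obtain ⟨a, ha, b, hb, hab⟩ := hD2
  exact hab ((hall' a ha).trans (hall' b hb).symm)

theorem tt_sameComm_main8 [Finite G] {D : Set G} (hD : Cfsg.IsThreeTranspositionClass D)
    (hD2 : ∃ a ∈ D, ∃ b ∈ D, a ≠ b) {d : G} (hd : d ∈ D) :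
    {v : G | v ∈ D ∧ ∀ e ∈ D, Commute v e ↔ Commute d e} =
        {v : G | v ∈ D ∧ d⁻¹ * v ∈ Cfsg.pCore 2 G} ∧
      {v : G | v ∈ D ∧ ∀ e ∈ D, Commute v e ↔ Commute d e} =
        {v : G | ∃ g ∈ Cfsg.pCore 2 G, v = g * d * g⁻¹} := by
  classical
  have h : TTSet8 D := by
    refine ⟨hD.1.1, hD.1.2, ?_⟩
    obtain ⟨d₀, hd₀, hDeq⟩ := hD.2.1
    intro g x hx
    rw [hDeq] at hx ⊢
    have hx' : IsConj d₀ x := hx
    exact hx'.trans (isConj_iff.mpr ⟨g, rfl⟩)
  have hQn := pCore_normal8 2 G
  have hQ2 := pCore_isPGroup8 2 G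
  have X : ∀ u u' e : G, u ∈ D → u' ∈ D → e ∈ D → u⁻¹ * u' ∈ Cfsg.pCore 2 G →
      Commute u e → Commute u' e := by
    intro u u' e hu hu' he hq hue
    by_contra hnc
    have h3 := h.cube hu' he hnc
    obtain ⟨q, hqd⟩ : ∃ q : G, q = u⁻¹ * u' := ⟨_, rfl⟩
    rw [← hqd] at hq
    have hu'q : u' = u * q := by rw [hqd]; group
    have e1 : (u' * e) * (u' * e) = (u * q * u⁻¹) * (e * q * e⁻¹) := by
      rw [hu'q, h.inv hu, h.inv he]
      calc u * q * e * (u * q * e) = u * q * (e * u) * q * e := by group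
        _ = u * q * (u * e) * q * e := by rw [← hue.eq]
        _ = u * q * u * (e * q * e) := by group
    have hsqQ : (u' * e) * (u' * e) ∈ Cfsg.pCore 2 G := by
      rw [e1]
      exact Subgroup.mul_mem _ (hQn.conj_mem q hq u) (hQn.conj_mem q hq e)
    have hxQ : u' * e ∈ Cfsg.pCore 2 G := by
      have e2 : u' * e = ((u' * e) * (u' * e))⁻¹ := by
        apply eq_inv_of_mul_eq_one_left
        rw [pow_succ, pow_two] at h3
        rw [← h3]
        group
      rw [e2]
      exact Subgroup.inv_mem _ hsqQ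
    obtain ⟨k, hk⟩ := hQ2 ⟨u' * e, hxQ⟩
    have hk' : (u' * e) ^ 2 ^ k = 1 := congrArg Subtype.val hk
    have hd1 : orderOf (u' * e) ∣ 3 := orderOf_dvd_of_pow_eq_one h3
    have hd2 : orderOf (u' * e) ∣ 2 ^ k := orderOf_dvd_of_pow_eq_one hk'
    have hcop : Nat.Coprime 3 (2 ^ k) := Nat.Coprime.pow_right k (by decide)
    have hd3 : orderOf (u' * e) ∣ 1 := by
      have := Nat.dvd_gcd hd1 hd2
      rwa [hcop.gcd_eq_one] at this
    have hx1 : u' * e = 1 := orderOf_eq_one_iff.mp (Nat.dvd_one.mp hd3)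
    apply hnc
    have : u' = e := by
      have := eq_inv_of_mul_eq_one_left hx1
      rw [this, h.inv he]
    rw [this]
  have hBA : ∀ v : G, v ∈ D → d⁻¹ * v ∈ Cfsg.pCore 2 G → ∀ e ∈ D, Commute v e ↔ Commute d e := by
    intro v hv hq e he
    constructor
    · intro hve
      apply X v d e hv hd he _ hve
      have : v⁻¹ * d = (d⁻¹ * v)⁻¹ := by group
      rw [this]
      exact Subgroup.inv_mem _ hq
    · intro hde
      exact X d v e hd hv he hq hde
  have hAB : ∀ v : G, v ∈ D → (∀ e ∈ D, Commute v e ↔ Commute d e) →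
      d⁻¹ * v ∈ Cfsg.pCore 2 G := by
    intro v hv hc
    apply sameComm_closure_le_pCore8 h
    apply Subgroup.subset_closure
    exact ⟨d, v, ⟨hd, hv, fun e he => (hc e he).symm⟩, by rw [h.inv hd]⟩
  have hCB : ∀ g ∈ Cfsg.pCore 2 G, g * d * g⁻¹ ∈ D ∧ d⁻¹ * (g * d * g⁻¹) ∈ Cfsg.pCore 2 G := by
    intro g hg
    refine ⟨h.conj g d hd, ?_⟩
    have e1 : d⁻¹ * (g * d * g⁻¹) = (d⁻¹ * g * d⁻¹⁻¹) * g⁻¹ := by group
    rw [e1]
    exact Subgroup.mul_mem _ (hQn.conj_mem g hg d⁻¹) (Subgroup.inv_mem _ hg)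
  have hBC : ∀ v : G, v ∈ D → d⁻¹ * v ∈ Cfsg.pCore 2 G →
      ∃ g ∈ Cfsg.pCore 2 G, v = g * d * g⁻¹ := by
    intro v hv hq
    by_cases hvd : v = d
    · exact ⟨1, Subgroup.one_mem _, by rw [hvd]; group⟩
    · obtain ⟨a, ha, hda⟩ := tt_exists_noncomm8 hD hD2 hd
      have hc := hBA v hv hq
      have hva : ¬ Commute v a := fun h' => hda ((hc a ha).mp h')
      have hdv : Commute d v := ((hc d hd).mpr (Commute.refl d)).symm
      have hbad : a * d * a = d * a * d := h.braid ha hd (fun h' => hda h'.symm)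
      have hbva : v * a * v = a * v * a := h.braid hv ha hva
      have hdvd : d * v * d = v := by
        rw [hdv.eq, mul_assoc, h.sq hd, mul_one]
      have hq' : d * v ∈ Cfsg.pCore 2 G := by
        rw [h.inv hd] at hq
        exact hq
      have hgQ : a * (d * v) * a ∈ Cfsg.pCore 2 G := by
        have := hQn.conj_mem (d * v) hq' a
        rwa [h.inv ha] at this
      have hginv : (a * (d * v) * a)⁻¹ = a * (v * d) * a := by
        apply inv_eq_of_mul_eq_one_right
        calc a * (d * v) * a * (a * (v * d) * a) = a * d * v * (a * a) * v * d * a := by group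
          _ = a * d * (v * v) * d * a := by rw [h.sq ha]; group
          _ = a * (d * d) * a := by rw [h.sq hv]; group
          _ = a * a := by rw [h.sq hd]; group
          _ = 1 := h.sq ha
      refine ⟨a * (d * v) * a, hgQ, ?_⟩
      rw [hginv]
      symm
      calc a * (d * v) * a * d * (a * (v * d) * a)
          = a * d * v * (a * d * a) * v * d * a := by group
        _ = a * d * v * (d * a * d) * v * d * a := by rw [hbad]
        _ = a * (d * v * d) * a * (d * v * d) * a := by group
        _ = a * v * a * v * a := by rw [hdvd]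
        _ = a * (v * a * v) * a := by group
        _ = a * (a * v * a) * a := by rw [hbva]
        _ = (a * a) * v * (a * a) := by group
        _ = v := by rw [h.sq ha, one_mul, mul_one]
  constructor
  · ext v
    constructor
    · rintro ⟨hv, hc⟩
      exact ⟨hv, hAB v hv hc⟩
    · rintro ⟨hv, hq⟩
      exact ⟨hv, hBA v hv hq⟩
  · ext v
    constructor
    · rintro ⟨hv, hc⟩
      exact hBC v hv (hAB v hv hc)
    · rintro ⟨g, hg, rfl⟩
      obtain ⟨h1, h2⟩ := hCB g hg
      exact ⟨h1, hBA _ h1 h2⟩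

end Cfsg.Agent.Lib.Helper8
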