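import Mathlib
import Cfsg.Prelude.Def_RootSubgroups

set_option autoImplicit false

namespace Cfsg.Agent.Lib.Helper8

open Cfsg

section UniPair

variable {k : Type*} [Field k] {M : Type*} [AddCommGroup M] [Module k M]

/-- all products of `n` elements of `S` vanish, for some `n` -/
def Nilp8 (S : Set (Module.End k M)) : Prop :=
  ∃ n : ℕ, ∀ l : List (Module.End k M), (∀ x ∈ l, x ∈ S) → l.length = n → l.prod = 0

/-- Engel-type property -/
def Eng8 (S : Set (Module.End k M)) : Prop :=
  ∀ U' U : Submodule k M, U' < U → (∀ x ∈ S, ∀ m ∈ U', x m ∈ U') → (∀ x ∈ S, ∀ m ∈ U, x m ∈ U) →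
    ∃ u ∈ U, u ∉ U' ∧ ∀ x ∈ S, x u ∈ U'

/-- nilpotent subalgebra -/
def NA8 (N : Submodule k (Module.End k M)) : Prop := N * N ≤ N ∧ ∃ n : ℕ, N ^ n = ⊥

theorem eng_of_nilp8 {S : Set (Module.End k M)} (h : Nilp8 S) : Eng8 S := by
  obtain ⟨n, hn⟩ := h
  intro U' U hlt hU' hU
  by_contra hcon
  have hneg : ∀ u ∈ U, u ∉ U' → ∃ x ∈ S, x u ∉ U' := by
    intro u hu hu'
    by_contra hc
    exact hcon ⟨u, hu, hu', fun x hx => by
      by_contra hx'
      exact hc ⟨x, hx, hx'⟩⟩
  have key : ∀ i : ℕ, ∃ l : List (Module.End k M), (∀ x ∈ l, x ∈ S) ∧ l.length = i ∧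
      ∃ u ∈ U, l.prod u ∈ U ∧ l.prod u ∉ U' := by
    intro i
    induction i with
    | zero =>
      obtain ⟨u, hu, hu'⟩ := SetLike.exists_of_lt hlt
      refine ⟨[], fun x hx => by simp at hx, rfl, u, hu, ?_, ?_⟩
      · rw [List.prod_nil, Module.End.one_apply]
        exact hu
      · rw [List.prod_nil, Module.End.one_apply]
        exact hu'
    | succ i ih =>
      obtain ⟨l, hl, hlen, u, hu, h1, h2⟩ := ih
      obtain ⟨x, hx, hx'⟩ := hneg _ h1 h2
      refine ⟨x :: l, ?_, by simp [hlen], u, hu, ?_, ?_⟩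
      · intro y hy
        rcases List.mem_cons.mp hy with rfl | hy
        · exact hx
        · exact hl y hy
      · rw [List.prod_cons, Module.End.mul_apply]
        exact hU x hx _ h1
      · rw [List.prod_cons, Module.End.mul_apply]
        exact hx'
  obtain ⟨l, hl, hlen, u, hu, h1, h2⟩ := key n
  rw [hn l hl hlen] at h2
  exact h2 (by simp)

theorem list_prod_mem_pow8 (N : Submodule k (Module.End k M)) :
    ∀ l : List (Module.End k M), (∀ x ∈ l, x ∈ N) → l.prod ∈ N ^ l.length := by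
  intro l
  induction l with
  | nil =>
    intro _
    rw [List.prod_nil, List.length_nil, pow_zero]
    exact Submodule.one_le.mp le_rfl
  | cons x l ih =>
    intro h
    rw [List.prod_cons, List.length_cons, pow_succ']
    exact Submodule.mul_mem_mul (h x (List.mem_cons.mpr (Or.inl rfl)))
      (ih (fun y hy => h y (List.mem_cons.mpr (Or.inr hy))))

theorem nilp_of_pow8 {N : Submodule k (Module.End k M)} {n : ℕ} (h : N ^ n = ⊥) :
    Nilp8 (N : Set (Module.End k M)) := by
  refine ⟨n, fun l hl hlen => ?_⟩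
  have h1 := list_prod_mem_pow8 N l hl
  rw [hlen, h] at h1
  exact (Submodule.mem_bot k).mp h1

theorem nilp_mono8 {S T : Set (Module.End k M)} (hST : S ⊆ T) (h : Nilp8 T) : Nilp8 S := by
  obtain ⟨n, hn⟩ := h
  exact ⟨n, fun l hl hlen => hn l (fun x hx => hST (hl x hx)) hlen⟩

/-- upper series of a set of endomorphisms -/
def mseq8 (S : Set (Module.End k M)) : ℕ → Submodule k M
  | 0 => ⊥
  | (j+1) => ⨅ x ∈ S, (mseq8 S j).comap x

theorem mem_mseq_succ8 (S : Set (Module.End k M)) (j : ℕ) (m : M) :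
    m ∈ mseq8 S (j+1) ↔ ∀ x ∈ S, x m ∈ mseq8 S j := by
  show m ∈ ⨅ x ∈ S, (mseq8 S j).comap x ↔ _
  simp only [Submodule.mem_iInf, Submodule.mem_comap]

theorem mseq_mono8 (S : Set (Module.End k M)) : ∀ j, mseq8 S j ≤ mseq8 S (j+1) := by
  intro j
  induction j with
  | zero =>
    show (⊥ : Submodule k M) ≤ _
    exact bot_le
  | succ j ih =>
    intro m hm
    rw [mem_mseq_succ8] at hm ⊢
    exact fun x hx => ih (hm x hx)

theorem mseq_inv8 (S : Set (Module.End k M)) (j : ℕ) :
    ∀ x ∈ S, ∀ m ∈ mseq8 S j, x m ∈ mseq8 S j := by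
  intro x hx m hm
  cases j with
  | zero =>
    have h0 : m = 0 := (Submodule.mem_bot k).mp hm
    rw [h0, map_zero]
    exact Submodule.zero_mem _
  | succ j =>
    exact mseq_mono8 S j ((mem_mseq_succ8 S j m).mp hm x hx)

theorem mseq_top8 [FiniteDimensional k M] {S : Set (Module.End k M)} (h : Eng8 S) :
    mseq8 S (Module.finrank k M) = ⊤ := by
  have key : ∀ j : ℕ, mseq8 S j = ⊤ ∨ j ≤ Module.finrank k (mseq8 S j) := by
    intro j
    induction j with
    | zero => exact Or.inr (Nat.zero_le _)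
    | succ j ih =>
      by_cases htop : mseq8 S j = ⊤
      · left
        have h1 := mseq_mono8 S j
        rw [htop] at h1
        exact top_le_iff.mp h1
      · right
        have hj : j ≤ Module.finrank k (mseq8 S j) := ih.resolve_left htop
        have hlt : mseq8 S j < mseq8 S (j+1) := by
          obtain ⟨u, -, hu', hu⟩ := h (mseq8 S j) ⊤ (lt_top_iff_ne_top.mpr htop) (mseq_inv8 S j)
            (fun _ _ _ _ => Submodule.mem_top)
          refine lt_of_le_of_ne (mseq_mono8 S j) (fun he => hu' ?_)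
          rw [he, mem_mseq_succ8]
          exact hu
        have h2 := Submodule.finrank_lt_finrank_of_lt hlt
        omega
  rcases key (Module.finrank k M) with h1 | h1
  · exact h1
  · exact Submodule.eq_top_of_finrank_eq (le_antisymm (Submodule.finrank_le _) h1)

/-- the strictly triangular algebra of the upper series -/
def flagAlg8 (S : Set (Module.End k M)) : Submodule k (Module.End k M) where
  carrier := {x | ∀ j, ∀ m ∈ mseq8 S (j+1), x m ∈ mseq8 S j}
  add_mem' := by
    intro a b ha hb j m hm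
    rw [LinearMap.add_apply]
    exact Submodule.add_mem _ (ha j m hm) (hb j m hm)
  zero_mem' := by
    intro j m _
    rw [LinearMap.zero_apply]
    exact Submodule.zero_mem _
  smul_mem' := by
    intro c x hx j m hm
    rw [LinearMap.smul_apply]
    exact Submodule.smul_mem _ c (hx j m hm)

theorem subset_flagAlg8 (S : Set (Module.End k M)) :
    S ⊆ (flagAlg8 S : Set (Module.End k M)) := by
  intro x hx j m hm
  exact (mem_mseq_succ8 S j m).mp hm x hx

theorem flagAlg_mul8 (S : Set (Module.End k M)) : flagAlg8 S * flagAlg8 S ≤ flagAlg8 S := by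
  rw [Submodule.mul_le]
  intro x hx y hy j m hm
  rw [Module.End.mul_apply]
  exact hx j _ (mseq_mono8 S j (hy j m hm))

theorem flagAlg_pow8 (S : Set (Module.End k M)) :
    ∀ (i : ℕ) (z : Module.End k M), z ∈ flagAlg8 S ^ i →
      ∀ j, ∀ m ∈ mseq8 S (i + j), z m ∈ mseq8 S j := by
  intro i
  induction i with
  | zero =>
    intro z hz j m hm
    rw [pow_zero, Submodule.mem_one] at hz
    obtain ⟨c, rfl⟩ := hz
    rw [zero_add] at hm
    rw [Module.algebraMap_end_apply]
    exact Submodule.smul_mem _ c hm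
  | succ i ih =>
    intro z hz
    rw [pow_succ] at hz
    refine Submodule.mul_induction_on hz ?_ ?_
    · intro a ha b hb j m hm
      rw [Module.End.mul_apply]
      apply ih a ha j
      have h1 : i + 1 + j = (i + j) + 1 := by ring
      rw [h1] at hm
      exact hb (i + j) m hm
    · intro a b ha hb j m hm
      rw [LinearMap.add_apply]
      exact Submodule.add_mem _ (ha j m hm) (hb j m hm)

theorem flagAlg_NA8 [FiniteDimensional k M] {S : Set (Module.End k M)} (h : Eng8 S) :
    NA8 (flagAlg8 S) := by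
  refine ⟨flagAlg_mul8 S, Module.finrank k M, ?_⟩
  rw [eq_bot_iff]
  intro z hz
  rw [Submodule.mem_bot]
  ext m
  have h1 := flagAlg_pow8 S _ z hz 0 m (by rw [add_zero, mseq_top8 h]; exact Submodule.mem_top)
  have h2 : z m = 0 := (Submodule.mem_bot k).mp h1
  rw [h2, LinearMap.zero_apply]

/-- the endomorphisms `g - 1`, `g ∈ A` -/
def gens8 (A : Subgroup (LinearMap.GeneralLinearGroup k M)) : Set (Module.End k M) :=
  {x | ∃ g ∈ A, x = ((g : LinearMap.GeneralLinearGroup k M) : Module.End k M) - 1}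

theorem lift_list8 (H : Subgroup (LinearMap.GeneralLinearGroup k M)) :
    ∀ l : List (Module.End k M), (∀ x ∈ l, x ∈ gens8 H) →
      ∃ lg : List (LinearMap.GeneralLinearGroup k M), (∀ g ∈ lg, g ∈ H) ∧
        lg.map (fun g => ((g : LinearMap.GeneralLinearGroup k M) : M →ₗ[k] M) - 1) = l := by
  intro l
  induction l with
  | nil =>
    intro _
    exact ⟨[], fun g hg => by simp at hg, rfl⟩
  | cons x l ih =>
    intro h
    obtain ⟨g, hg, hx⟩ := h x (List.mem_cons.mpr (Or.inl rfl))
    obtain ⟨lg, hlg, hl⟩ := ih (fun y hy => h y (List.mem_cons.mpr (Or.inr hy)))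
    refine ⟨g :: lg, ?_, ?_⟩
    · intro g' hg'
      rcases List.mem_cons.mp hg' with rfl | h'
      · exact hg
      · exact hlg g' h'
    · rw [List.map_cons, hl, hx]

theorem flatMap_map8 {α β γ : Type*} (f : α → β) (h : β → γ) (l : List α) :
    List.map h (List.flatMap (fun a => [f a]) l) = List.map (fun a => h (f a)) l := by
  induction l with
  | nil => rfl
  | cons a l ih =>
    rw [List.flatMap_cons, List.map_append, ih]
    rfl

theorem unip_map_eq8 (l : List (LinearMap.GeneralLinearGroup k M)) :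
    (List.map (fun (g : M →ₗ[k] M) => g - 1) (do let a ← l; pure (a : M →ₗ[k] M))) =
      l.map (fun g => ((g : LinearMap.GeneralLinearGroup k M) : M →ₗ[k] M) - 1) :=
  flatMap_map8 (fun a : LinearMap.GeneralLinearGroup k M => (a : M →ₗ[k] M)) (fun g => g - 1) l

theorem isUnipotentOn_iff8 (H : Subgroup (LinearMap.GeneralLinearGroup k M)) :
    IsUnipotentOn H ↔ ∃ n : ℕ, ∀ l : List (LinearMap.GeneralLinearGroup k M),
      (∀ g ∈ l, g ∈ H) → l.length = n →
        (l.map (fun g => ((g : LinearMap.GeneralLinearGroup k M) : M →ₗ[k] M) - 1)).prod = 0 := by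
  unfold IsUnipotentOn
  constructor
  · rintro ⟨n, hn⟩
    refine ⟨n, fun l hl hlen => ?_⟩
    have h1 := hn l hl hlen
    rw [unip_map_eq8] at h1
    exact h1
  · rintro ⟨n, hn⟩
    refine ⟨n, fun l hl hlen => ?_⟩
    rw [unip_map_eq8]
    exact hn l hl hlen

theorem nilp_of_unip8 {H : Subgroup (LinearMap.GeneralLinearGroup k M)} (h : IsUnipotentOn H) :
    Nilp8 (gens8 H) := by
  obtain ⟨n, hn⟩ := (isUnipotentOn_iff8 H).mp h
  refine ⟨n, fun l hl hlen => ?_⟩
  obtain ⟨lg, hlg, hmap⟩ := lift_list8 H l hl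
  rw [← hmap] at hlen ⊢
  rw [List.length_map] at hlen
  exact hn lg hlg hlen

theorem unip_of_NA8 {N : Submodule k (Module.End k M)} (hN : NA8 N)
    {H : Subgroup (LinearMap.GeneralLinearGroup k M)}
    (hH : ∀ g ∈ H, ((g : LinearMap.GeneralLinearGroup k M) : Module.End k M) - 1 ∈ N) :
    IsUnipotentOn H := by
  obtain ⟨-, n, hn⟩ := hN
  refine (isUnipotentOn_iff8 H).mpr ⟨n, fun l hl hlen => ?_⟩
  have h1 := list_prod_mem_pow8 N
    (l.map fun g => ((g : LinearMap.GeneralLinearGroup k M) : M →ₗ[k] M) - 1) (by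
      intro x hx
      obtain ⟨g, hg, rfl⟩ := List.mem_map.mp hx
      exact hH g (hl g hg))
  rw [List.length_map, hlen, hn] at h1
  exact (Submodule.mem_bot k).mp h1

/-- the units `g` with `g - 1` and `g⁻¹ - 1` in a multiplicatively closed submodule -/
def unitsOf8 (N : Submodule k (Module.End k M)) (hN : N * N ≤ N) :
    Subgroup (LinearMap.GeneralLinearGroup k M) where
  carrier := {g | ((g : LinearMap.GeneralLinearGroup k M) : Module.End k M) - 1 ∈ N ∧
    ((g⁻¹ : LinearMap.GeneralLinearGroup k M) : Module.End k M) - 1 ∈ N}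
  mul_mem' := by
    rintro a b ⟨ha, ha'⟩ ⟨hb, hb'⟩
    have hmul : ∀ x y : Module.End k M, x - 1 ∈ N → y - 1 ∈ N → x * y - 1 ∈ N := by
      intro x y hx hy
      have h1 : x * y - 1 = (x - 1) * (y - 1) + (x - 1) + (y - 1) := by noncomm_ring
      rw [h1]
      exact Submodule.add_mem _ (Submodule.add_mem _ (hN (Submodule.mul_mem_mul hx hy)) hx) hy
    refine ⟨?_, ?_⟩
    · rw [Units.val_mul]
      exact hmul _ _ ha hb
    · rw [mul_inv_rev, Units.val_mul]
      exact hmul _ _ hb' ha'
  one_mem' := by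
    refine ⟨?_, ?_⟩
    · rw [Units.val_one, sub_self]
      exact Submodule.zero_mem _
    · rw [inv_one, Units.val_one, sub_self]
      exact Submodule.zero_mem _
  inv_mem' := by
    rintro a ⟨ha, ha'⟩
    refine ⟨ha', ?_⟩
    rw [inv_inv]
    exact ha

/-- generators coming from members of `W` inside `N` -/
def genW8 (W : Set (Subgroup (LinearMap.GeneralLinearGroup k M)))
    (N : Submodule k (Module.End k M)) : Set (Module.End k M) :=
  {x | ∃ A ∈ W, (∀ g ∈ A, ((g : LinearMap.GeneralLinearGroup k M) : Module.End k M) - 1 ∈ N) ∧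
    ∃ g ∈ A, x = ((g : LinearMap.GeneralLinearGroup k M) : Module.End k M) - 1}

theorem genW_subset8 (W : Set (Subgroup (LinearMap.GeneralLinearGroup k M)))
    (N : Submodule k (Module.End k M)) : genW8 W N ⊆ (N : Set (Module.End k M)) := by
  rintro x ⟨A, -, hA, g, hg, rfl⟩
  exact hA g hg

/-- `Wof N ⊆ Wof N'` -/
def Sub8 (W : Set (Subgroup (LinearMap.GeneralLinearGroup k M)))
    (N N' : Submodule k (Module.End k M)) : Prop :=
  ∀ A ∈ W, (∀ g ∈ A, ((g : LinearMap.GeneralLinearGroup k M) : Module.End k M) - 1 ∈ N) →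
    ∀ g ∈ A, ((g : LinearMap.GeneralLinearGroup k M) : Module.End k M) - 1 ∈ N'

theorem not_sub8 {W : Set (Subgroup (LinearMap.GeneralLinearGroup k M))}
    {N N' : Submodule k (Module.End k M)} (h : ¬ Sub8 W N N') :
    ∃ A ∈ W, (∀ g ∈ A, ((g : LinearMap.GeneralLinearGroup k M) : Module.End k M) - 1 ∈ N) ∧
      ¬ ∀ g ∈ A, ((g : LinearMap.GeneralLinearGroup k M) : Module.End k M) - 1 ∈ N' := by
  by_contra hc
  apply h
  intro A hA hAN
  by_contra hAN'
  exact hc ⟨A, hA, hAN, hAN'⟩

theorem spW_lt8 [FiniteDimensional k M] (W : Set (Subgroup (LinearMap.GeneralLinearGroup k M)))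
    {N N' : Submodule k (Module.End k M)} (hsub : Sub8 W N N')
    {A : Subgroup (LinearMap.GeneralLinearGroup k M)} (hA : A ∈ W)
    (hA' : ∀ g ∈ A, ((g : LinearMap.GeneralLinearGroup k M) : Module.End k M) - 1 ∈ N')
    (hAn : ¬ ∀ g ∈ A, ((g : LinearMap.GeneralLinearGroup k M) : Module.End k M) - 1 ∈ N) :
    Module.finrank k (Submodule.span k (genW8 W N)) <
      Module.finrank k (Submodule.span k (genW8 W N')) := by
  apply Submodule.finrank_lt_finrank_of_lt
  have hle : Submodule.span k (genW8 W N) ≤ Submodule.span k (genW8 W N') := by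
    apply Submodule.span_mono
    rintro x ⟨B, hB, hBN, g, hg, rfl⟩
    exact ⟨B, hB, hsub B hB hBN, g, hg, rfl⟩
  refine lt_of_le_of_ne hle (fun he => hAn (fun g hg => ?_))
  have h1 : ((g : LinearMap.GeneralLinearGroup k M) : Module.End k M) - 1 ∈
      Submodule.span k (genW8 W N') := Submodule.subset_span ⟨A, hA, hA', g, hg, rfl⟩
  rw [← he] at h1
  exact (Submodule.span_le.mpr (genW_subset8 W N)) h1

theorem exists_max_bdd8 {α : Type*} (p : α → Prop) (f : α → ℕ) (b : ℕ)
    (hb : ∀ a, p a → f a ≤ b) (hne : ∃ a, p a) : ∃ a, p a ∧ ∀ a', p a' → f a' ≤ f a := by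
  by_contra hcon
  have key : ∀ j : ℕ, ∃ a, p a ∧ j ≤ f a := by
    intro j
    induction j with
    | zero =>
      obtain ⟨a, ha⟩ := hne
      exact ⟨a, ha, Nat.zero_le _⟩
    | succ j ih =>
      obtain ⟨a, ha, hj⟩ := ih
      by_contra hc
      apply hcon
      refine ⟨a, ha, fun a' ha' => ?_⟩
      by_contra hlt
      exact hc ⟨a', ha', by omega⟩
  obtain ⟨a, ha, hj⟩ := key (b + 1)
  have h1 := hb a ha
  omega

/-- maximal nilpotent algebras with respect to the members of `W` they contain -/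
def Syl8 (W : Set (Subgroup (LinearMap.GeneralLinearGroup k M)))
    (N : Submodule k (Module.End k M)) : Prop :=
  NA8 N ∧ ∀ N', NA8 N' → Sub8 W N N' → Sub8 W N' N

theorem exists_syl8 [FiniteDimensional k M] (W : Set (Subgroup (LinearMap.GeneralLinearGroup k M)))
    (N : Submodule k (Module.End k M)) (hN : NA8 N) : ∃ N', Syl8 W N' ∧ Sub8 W N N' := by
  obtain ⟨N', ⟨hN', hsub⟩, hmax⟩ := exists_max_bdd8 (fun N' => NA8 N' ∧ Sub8 W N N')
    (fun N' => Module.finrank k (Submodule.span k (genW8 W N')))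
    (Module.finrank k (Module.End k M))
    (fun N' _ => Submodule.finrank_le _) ⟨N, hN, fun A _ h => h⟩
  refine ⟨N', ⟨hN', fun N'' hN'' hs => ?_⟩, hsub⟩
  intro A hA hAN''
  by_contra hAn
  have h1 := spW_lt8 W hs hA hAN'' hAn
  have h2 := hmax N'' ⟨hN'', fun B hB hBN => hs B hB (hsub B hB hBN)⟩
  omega

end UniPair

end Cfsg.Agent.Lib.Helper8
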