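import Mathlib
import Cfsg.Prelude.Def_RootSubgroups
import Cfsg.Agent.Lib.Helper8.UniPair1

set_option autoImplicit false

namespace Cfsg.Agent.Lib.Helper8

open Cfsg

section UniPair

variable {k : Type*} [Field k] {M : Type*} [AddCommGroup M] [Module k M]

theorem pow_succ_le8 {P : Submodule k (Module.End k M)} (hP : P * P ≤ P) (j : ℕ) :
    P ^ (j + 1 + 1) ≤ P ^ (j + 1) := by
  rw [pow_succ P (j+1), pow_succ P j, mul_assoc]
  exact mul_le_mul' le_rfl hP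

theorem pow_le_self8 {P : Submodule k (Module.End k M)} (hP : P * P ≤ P) :
    ∀ i : ℕ, P ^ (i + 1) ≤ P := by
  intro i
  induction i with
  | zero => rw [zero_add, pow_one]
  | succ i ih => exact (pow_succ_le8 hP i).trans ih

theorem norm_step8 {P D : Submodule k (Module.End k M)} (hP : P * P ≤ P) (hD : D * D ≤ D)
    (hDP : D ≤ P) (i : ℕ) {x x' y : Module.End k M} (hx : x ∈ D ⊔ P ^ (i + 1))
    (hx' : x' ∈ D ⊔ P ^ (i + 1)) (hy : y ∈ D) :
    (1 + x) * y * (1 + x') ∈ D ⊔ P ^ (i + 1 + 1) := by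
  have q1 : (D ⊔ P ^ (i + 1)) * D ≤ D ⊔ P ^ (i + 1 + 1) := by
    rw [Submodule.sup_mul]
    refine sup_le (hD.trans le_sup_left) ?_
    refine (mul_le_mul' (le_refl (P ^ (i + 1))) hDP).trans ?_
    rw [← pow_succ]
    exact le_sup_right
  have q2 : D * (D ⊔ P ^ (i + 1)) ≤ D ⊔ P ^ (i + 1 + 1) := by
    rw [Submodule.mul_sup]
    refine sup_le (hD.trans le_sup_left) ?_
    refine (mul_le_mul' hDP (le_refl (P ^ (i + 1)))).trans ?_
    rw [← pow_succ']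
    exact le_sup_right
  have q3 : (D ⊔ P ^ (i + 1 + 1)) * (D ⊔ P ^ (i + 1)) ≤ D ⊔ P ^ (i + 1 + 1) := by
    rw [Submodule.sup_mul]
    refine sup_le q2 ?_
    have h1 : P ^ (i + 1 + 1) * (D ⊔ P ^ (i + 1)) ≤ P ^ (i + 1 + 1) * P :=
      mul_le_mul' (le_refl _) (sup_le hDP (pow_le_self8 hP i))
    refine h1.trans ?_
    rw [← pow_succ]
    exact (pow_succ_le8 hP (i + 1)).trans le_sup_right
  have e : (1 + x) * y * (1 + x') = y + x * y + y * x' + x * y * x' := by noncomm_ring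
  rw [e]
  have hxy : x * y ∈ D ⊔ P ^ (i + 1 + 1) := q1 (Submodule.mul_mem_mul hx hy)
  refine Submodule.add_mem _ (Submodule.add_mem _ (Submodule.add_mem _
    (Submodule.mem_sup_left hy) hxy) (q2 (Submodule.mul_mem_mul hy hx'))) ?_
  exact q3 (Submodule.mul_mem_mul hxy hx')

theorem conj_val8 (g h : LinearMap.GeneralLinearGroup k M) :
    ((g * h * g⁻¹ : LinearMap.GeneralLinearGroup k M) : Module.End k M) - 1 =
      (1 + ((g : Module.End k M) - 1)) * ((h : Module.End k M) - 1) *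
        (1 + (((g⁻¹ : LinearMap.GeneralLinearGroup k M) : Module.End k M) - 1)) := by
  rw [add_sub_cancel, add_sub_cancel, mul_sub, sub_mul, mul_one, Units.mul_inv, Units.val_mul,
    Units.val_mul]

theorem normalizer_step8 (W : Set (Subgroup (LinearMap.GeneralLinearGroup k M)))
    {G : Subgroup (LinearMap.GeneralLinearGroup k M)} (hWG : ∀ A ∈ W, A ≤ G)
    (hWconj : ∀ A ∈ W, ∀ g ∈ G, conjBy A g ∈ W)
    {P D : Submodule k (Module.End k M)} (hP : NA8 P) (hD : D * D ≤ D) (hDP : D ≤ P)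
    (A₀ : Subgroup (LinearMap.GeneralLinearGroup k M)) (hA₀ : A₀ ∈ W)
    (hA₀P : ∀ g ∈ A₀, ((g : LinearMap.GeneralLinearGroup k M) : Module.End k M) - 1 ∈ P)
    (hA₀D : ¬ ∀ g ∈ A₀, ((g : LinearMap.GeneralLinearGroup k M) : Module.End k M) - 1 ∈ D) :
    ∃ A ∈ W, (∀ g ∈ A, ((g : LinearMap.GeneralLinearGroup k M) : Module.End k M) - 1 ∈ P) ∧
      (¬ ∀ g ∈ A, ((g : LinearMap.GeneralLinearGroup k M) : Module.End k M) - 1 ∈ D) ∧
      ∀ g ∈ A, ∀ B ∈ W,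
        (∀ h ∈ B, ((h : LinearMap.GeneralLinearGroup k M) : Module.End k M) - 1 ∈ D) →
        ∀ h ∈ B, ((g * h * g⁻¹ : LinearMap.GeneralLinearGroup k M) : Module.End k M) - 1 ∈ D := by
  obtain ⟨hPP, c, hc⟩ := hP
  have hT0 : ∃ A ∈ W,
      (∀ g ∈ A, ((g : LinearMap.GeneralLinearGroup k M) : Module.End k M) - 1 ∈ D ⊔ P ^ (0 + 1)) ∧
      ¬ ∀ g ∈ A, ((g : LinearMap.GeneralLinearGroup k M) : Module.End k M) - 1 ∈ D := by
    refine ⟨A₀, hA₀, fun g hg => Submodule.mem_sup_right ?_, hA₀D⟩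
    rw [zero_add, pow_one]
    exact hA₀P g hg
  have hTc : ¬ ∃ A ∈ W,
      (∀ g ∈ A, ((g : LinearMap.GeneralLinearGroup k M) : Module.End k M) - 1 ∈ D ⊔ P ^ (c + 1)) ∧
      ¬ ∀ g ∈ A, ((g : LinearMap.GeneralLinearGroup k M) : Module.End k M) - 1 ∈ D := by
    rintro ⟨A, -, hA1, hA2⟩
    apply hA2
    intro g hg
    have h1 := hA1 g hg
    rw [pow_succ, hc, Submodule.bot_mul, sup_bot_eq] at h1
    exact h1
  have hex : ∃ i : ℕ, (∃ A ∈ W,
      (∀ g ∈ A, ((g : LinearMap.GeneralLinearGroup k M) : Module.End k M) - 1 ∈ D ⊔ P ^ (i + 1)) ∧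
      ¬ ∀ g ∈ A, ((g : LinearMap.GeneralLinearGroup k M) : Module.End k M) - 1 ∈ D) ∧
      ¬ ∃ A ∈ W,
      (∀ g ∈ A, ((g : LinearMap.GeneralLinearGroup k M) : Module.End k M) - 1 ∈
        D ⊔ P ^ (i + 1 + 1)) ∧
      ¬ ∀ g ∈ A, ((g : LinearMap.GeneralLinearGroup k M) : Module.End k M) - 1 ∈ D := by
    by_contra hcon
    have hall : ∀ i : ℕ, ∃ A ∈ W,
        (∀ g ∈ A, ((g : LinearMap.GeneralLinearGroup k M) : Module.End k M) - 1 ∈
          D ⊔ P ^ (i + 1)) ∧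
        ¬ ∀ g ∈ A, ((g : LinearMap.GeneralLinearGroup k M) : Module.End k M) - 1 ∈ D := by
      intro i
      induction i with
      | zero => exact hT0
      | succ i ih =>
        by_contra hn
        exact hcon ⟨i, ih, hn⟩
    exact hTc (hall c)
  obtain ⟨i, ⟨A, hA, hAQ, hAD⟩, hTn⟩ := hex
  refine ⟨A, hA, fun g hg => (sup_le hDP (pow_le_self8 hPP i)) (hAQ g hg), hAD, ?_⟩
  intro g hg B hB hBD h hh
  by_contra hcon
  apply hTn
  refine ⟨conjBy B g, hWconj B hB g (hWG A hA hg), ?_, ?_⟩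
  · rintro _ ⟨h', hh', rfl⟩
    show ((g * h' * g⁻¹ : LinearMap.GeneralLinearGroup k M) : Module.End k M) - 1 ∈ _
    rw [conj_val8]
    exact norm_step8 hPP hD hDP i (hAQ g hg) (hAQ g⁻¹ (A.inv_mem hg)) (hBD h' hh')
  · intro hall
    exact hcon (hall (g * h * g⁻¹) ⟨h, hh, rfl⟩)

theorem extend_step8 (W : Set (Subgroup (LinearMap.GeneralLinearGroup k M)))
    {G : Subgroup (LinearMap.GeneralLinearGroup k M)} (hWG : ∀ A ∈ W, A ≤ G)
    (hWconj : ∀ A ∈ W, ∀ g ∈ G, conjBy A g ∈ W)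
    {D : Submodule k (Module.End k M)} (hD : NA8 D)
    {A B : Subgroup (LinearMap.GeneralLinearGroup k M)} (hA : A ∈ W) (hB : B ∈ W)
    (hAn : ∀ g ∈ A, ∀ C ∈ W,
        (∀ h ∈ C, ((h : LinearMap.GeneralLinearGroup k M) : Module.End k M) - 1 ∈ D) →
        ∀ h ∈ C, ((g * h * g⁻¹ : LinearMap.GeneralLinearGroup k M) : Module.End k M) - 1 ∈ D)
    (hBn : ∀ g ∈ B, ∀ C ∈ W,
        (∀ h ∈ C, ((h : LinearMap.GeneralLinearGroup k M) : Module.End k M) - 1 ∈ D) →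
        ∀ h ∈ C, ((g * h * g⁻¹ : LinearMap.GeneralLinearGroup k M) : Module.End k M) - 1 ∈ D)
    (hAB : Nilp8 (gens8 A ∪ gens8 B)) :
    Eng8 (genW8 W D ∪ (gens8 A ∪ gens8 B)) := by
  obtain ⟨hDD, n, hn⟩ := hD
  have hEngD : Eng8 (genW8 W D) := eng_of_nilp8 (nilp_mono8 (genW_subset8 W D) (nilp_of_pow8 hn))
  have hEngAB : Eng8 (gens8 A ∪ gens8 B) := eng_of_nilp8 hAB
  -- normalisation of the generator set
  have hnormAux : ∀ (A' : Subgroup (LinearMap.GeneralLinearGroup k M)), A' ∈ W →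
      (∀ g ∈ A', ∀ C ∈ W,
        (∀ h ∈ C, ((h : LinearMap.GeneralLinearGroup k M) : Module.End k M) - 1 ∈ D) →
        ∀ h ∈ C, ((g * h * g⁻¹ : LinearMap.GeneralLinearGroup k M) : Module.End k M) - 1 ∈ D) →
      ∀ g ∈ A', ∀ y ∈ genW8 W D,
        ((g⁻¹ : LinearMap.GeneralLinearGroup k M) : Module.End k M) * y *
          ((g : LinearMap.GeneralLinearGroup k M) : Module.End k M) ∈ genW8 W D := by
    intro A' hA' hn' g hg y hy
    obtain ⟨C, hC, hCD, h, hh, rfl⟩ := hy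
    have hg' : g⁻¹ ∈ A' := A'.inv_mem hg
    refine ⟨conjBy C g⁻¹, hWconj C hC g⁻¹ (hWG A' hA' hg'), ?_, g⁻¹ * h * g⁻¹⁻¹, ⟨h, hh, rfl⟩, ?_⟩
    · rintro _ ⟨h', hh', rfl⟩
      exact hn' g⁻¹ hg' C hC hCD h' hh'
    · rw [inv_inv, Units.val_mul, Units.val_mul, mul_sub, sub_mul, mul_one, Units.inv_mul]
  intro U' U hlt hU' hU
  -- the vectors of U killed modulo U' by the generators inside D
  obtain ⟨U₁, hU₁⟩ : ∃ U₁ : Submodule k M, ∀ u : M, u ∈ U₁ ↔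
      u ∈ U ∧ ∀ y ∈ genW8 W D, y u ∈ U' :=
    ⟨U ⊓ ⨅ y ∈ genW8 W D, U'.comap y, fun u => by
      simp only [Submodule.mem_inf, Submodule.mem_iInf, Submodule.mem_comap]⟩
  have hU'U₁ : U' ≤ U₁ := fun m hm =>
    (hU₁ m).mpr ⟨hlt.le hm, fun y hy => hU' y (Or.inl hy) m hm⟩
  have hlt₁ : U' < U₁ := by
    obtain ⟨u, hu, hu', hukill⟩ := hEngD U' U hlt (fun x hx => hU' x (Or.inl hx))
      (fun x hx => hU x (Or.inl hx))
    have hu₁ : u ∈ U₁ := (hU₁ u).mpr ⟨hu, hukill⟩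
    refine lt_of_le_of_ne hU'U₁ (fun he => hu' ?_)
    rw [he]
    exact hu₁
  have hinv : ∀ (A' : Subgroup (LinearMap.GeneralLinearGroup k M)), A' ∈ W →
      (∀ g ∈ A', ∀ C ∈ W,
        (∀ h ∈ C, ((h : LinearMap.GeneralLinearGroup k M) : Module.End k M) - 1 ∈ D) →
        ∀ h ∈ C, ((g * h * g⁻¹ : LinearMap.GeneralLinearGroup k M) : Module.End k M) - 1 ∈ D) →
      gens8 A' ⊆ gens8 A ∪ gens8 B →
      ∀ x ∈ gens8 A', ∀ m ∈ U₁, x m ∈ U₁ := by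
    intro A' hA' hn' hsub x hx m hm
    have hxS : x ∈ genW8 W D ∪ (gens8 A ∪ gens8 B) := Or.inr (hsub hx)
    obtain ⟨g, hg, rfl⟩ := hx
    have hm' := (hU₁ m).mp hm
    refine (hU₁ _).mpr ⟨hU _ hxS m hm'.1, fun y hy => ?_⟩
    have hy' := hnormAux A' hA' hn' g hg y hy
    have e : y * (((g : LinearMap.GeneralLinearGroup k M) : Module.End k M) - 1) =
        ((g : LinearMap.GeneralLinearGroup k M) : Module.End k M) *
          (((g⁻¹ : LinearMap.GeneralLinearGroup k M) : Module.End k M) * y *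
            ((g : LinearMap.GeneralLinearGroup k M) : Module.End k M)) - y := by
      rw [mul_sub, mul_one, ← mul_assoc, ← mul_assoc, Units.mul_inv, one_mul]
    have e2 : y ((((g : LinearMap.GeneralLinearGroup k M) : Module.End k M) - 1) m) =
        ((g : LinearMap.GeneralLinearGroup k M) : Module.End k M)
          ((((g⁻¹ : LinearMap.GeneralLinearGroup k M) : Module.End k M) * y *
            ((g : LinearMap.GeneralLinearGroup k M) : Module.End k M)) m) - y m := by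
      rw [← Module.End.mul_apply, e, LinearMap.sub_apply, Module.End.mul_apply]
    rw [e2]
    have h1 : (((g⁻¹ : LinearMap.GeneralLinearGroup k M) : Module.End k M) * y *
        ((g : LinearMap.GeneralLinearGroup k M) : Module.End k M)) m ∈ U' := hm'.2 _ hy'
    have h2 : ∀ v ∈ U', ((g : LinearMap.GeneralLinearGroup k M) : Module.End k M) v ∈ U' := by
      intro v hv
      have h3 := hU' _ hxS v hv
      rw [LinearMap.sub_apply, Module.End.one_apply] at h3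
      have h4 := Submodule.add_mem _ h3 hv
      rw [sub_add_cancel] at h4
      exact h4
    exact Submodule.sub_mem _ (h2 _ h1) (hm'.2 y hy)
  have hinvAB : ∀ x ∈ gens8 A ∪ gens8 B, ∀ m ∈ U₁, x m ∈ U₁ := by
    intro x hx
    rcases hx with hx | hx
    · exact hinv A hA hAn Set.subset_union_left x hx
    · exact hinv B hB hBn Set.subset_union_right x hx
  obtain ⟨u, hu, hu', hukill⟩ := hEngAB U' U₁ hlt₁ (fun x hx => hU' x (Or.inr hx)) hinvAB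
  have hu₁ := (hU₁ u).mp hu
  refine ⟨u, hu₁.1, hu', fun x hx => ?_⟩
  rcases hx with hx | hx
  · exact hu₁.2 x hx
  · exact hukill x hx

theorem unipotent_pairs8 [FiniteDimensional k M]
    {G : Subgroup (LinearMap.GeneralLinearGroup k M)}
    {W : Set (Subgroup (LinearMap.GeneralLinearGroup k M))} (hWG : ∀ A ∈ W, A ≤ G)
    (hWW : ∀ A ∈ W, ∀ B ∈ W, IsUnipotentOn (A ⊔ B)) (hWconj : ∀ A ∈ W, ∀ g ∈ G, conjBy A g ∈ W) :
    IsUnipotentOn (⨆ A ∈ W, A) := by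
  have hpair : ∀ A ∈ W, ∀ B ∈ W, Nilp8 (gens8 A ∪ gens8 B) := by
    intro A hA B hB
    refine nilp_mono8 ?_ (nilp_of_unip8 (hWW A hA B hB))
    rintro x (⟨g, hg, rfl⟩ | ⟨g, hg, rfl⟩)
    · exact ⟨g, (le_sup_left : A ≤ A ⊔ B) hg, rfl⟩
    · exact ⟨g, (le_sup_right : B ≤ A ⊔ B) hg, rfl⟩
  suffices hmain : ∃ N : Submodule k (Module.End k M), NA8 N ∧ ∀ A ∈ W, ∀ g ∈ A,
      ((g : LinearMap.GeneralLinearGroup k M) : Module.End k M) - 1 ∈ N by
    obtain ⟨N, hN, hall⟩ := hmain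
    have hle : (⨆ A ∈ W, A) ≤ unitsOf8 N hN.1 :=
      iSup₂_le (fun A hA g hg => ⟨hall A hA g hg, hall A hA g⁻¹ (A.inv_mem hg)⟩)
    exact unip_of_NA8 hN (fun g hg => (hle hg).1)
  by_contra hcon
  have hbot : NA8 (⊥ : Submodule k (Module.End k M)) := ⟨by simp, 1, by simp⟩
  obtain ⟨P₀, hP₀, -⟩ := exists_syl8 W ⊥ hbot
  have h1 : ∃ B₀ ∈ W, ¬ ∀ g ∈ B₀,
      ((g : LinearMap.GeneralLinearGroup k M) : Module.End k M) - 1 ∈ P₀ := by
    by_contra hc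
    apply hcon
    refine ⟨P₀, hP₀.1, fun A hA => ?_⟩
    by_contra hA'
    exact hc ⟨A, hA, hA'⟩
  obtain ⟨B₀, hB₀, hB₀P⟩ := h1
  have hEB : Eng8 (gens8 B₀ ∪ gens8 B₀) := eng_of_nilp8 (hpair B₀ hB₀ B₀ hB₀)
  have hNB := flagAlg_NA8 hEB
  obtain ⟨Q₀, hQ₀, hQ₀sub⟩ := exists_syl8 W _ hNB
  have hB₀Q : ∀ g ∈ B₀, ((g : LinearMap.GeneralLinearGroup k M) : Module.End k M) - 1 ∈ Q₀ :=
    hQ₀sub B₀ hB₀ (fun g hg => subset_flagAlg8 _ (Or.inl ⟨g, hg, rfl⟩))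
  obtain ⟨⟨P, Q⟩, ⟨hP, hQ, hQP⟩, hmax⟩ := exists_max_bdd8
    (fun pq : Submodule k (Module.End k M) × Submodule k (Module.End k M) =>
      Syl8 W pq.1 ∧ Syl8 W pq.2 ∧ ¬ Sub8 W pq.2 pq.1)
    (fun pq => Module.finrank k (Submodule.span k (genW8 W (pq.1 ⊓ pq.2))))
    (Module.finrank k (Module.End k M))
    (fun _ _ => Submodule.finrank_le _)
    ⟨(P₀, Q₀), hP₀, hQ₀, fun hs => hB₀P (hs B₀ hB₀ hB₀Q)⟩
  have hPQ : ¬ Sub8 W P Q := fun hs => hQP (hP.2 Q hQ.1 hs)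
  obtain ⟨A₁, hA₁, hA₁P, hA₁Q⟩ := not_sub8 hPQ
  obtain ⟨B₁, hB₁, hB₁Q, hB₁P⟩ := not_sub8 hQP
  -- the intersection
  have hD : NA8 (P ⊓ Q) := by
    obtain ⟨hPP, n, hn⟩ := hP.1
    refine ⟨le_inf ((mul_le_mul' inf_le_left inf_le_left).trans hPP)
      ((mul_le_mul' inf_le_right inf_le_right).trans hQ.1.1), n, ?_⟩
    rw [eq_bot_iff, ← hn]
    exact pow_le_pow_left' inf_le_left n
  obtain ⟨A, hA, hAP, hAD, hAn⟩ := normalizer_step8 W hWG hWconj hP.1 hD.1 inf_le_left A₁ hA₁ hA₁P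
    (fun h => hA₁Q (fun g hg => (h g hg).2))
  obtain ⟨B, hB, hBQ, hBD, hBn⟩ := normalizer_step8 W hWG hWconj hQ.1 hD.1 inf_le_right B₁ hB₁ hB₁Q
    (fun h => hB₁P (fun g hg => (h g hg).1))
  have hBP : ¬ ∀ g ∈ B, ((g : LinearMap.GeneralLinearGroup k M) : Module.End k M) - 1 ∈ P :=
    fun h => hBD (fun g hg => ⟨h g hg, hBQ g hg⟩)
  have hEng := extend_step8 W hWG hWconj hD hA hB hAn hBn (hpair A hA B hB)
  have hR := flagAlg_NA8 hEng
  obtain ⟨R', hR', hRsub⟩ := exists_syl8 W _ hR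
  have r1 : ∀ C ∈ W,
      (∀ h ∈ C, ((h : LinearMap.GeneralLinearGroup k M) : Module.End k M) - 1 ∈ P ⊓ Q) →
      ∀ h ∈ C, ((h : LinearMap.GeneralLinearGroup k M) : Module.End k M) - 1 ∈ R' :=
    fun C hC hCD => hRsub C hC
      (fun h hh => subset_flagAlg8 _ (Or.inl ⟨C, hC, hCD, h, hh, rfl⟩))
  have r2 : ∀ g ∈ A, ((g : LinearMap.GeneralLinearGroup k M) : Module.End k M) - 1 ∈ R' :=
    hRsub A hA (fun g hg => subset_flagAlg8 _ (Or.inr (Or.inl ⟨g, hg, rfl⟩)))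
  have r3 : ∀ g ∈ B, ((g : LinearMap.GeneralLinearGroup k M) : Module.End k M) - 1 ∈ R' :=
    hRsub B hB (fun g hg => subset_flagAlg8 _ (Or.inr (Or.inr ⟨g, hg, rfl⟩)))
  have hRP : Sub8 W R' P := by
    by_contra hnot
    have h2 := hmax (P, R') ⟨hP, hR', hnot⟩
    have h3 := spW_lt8 W (N := P ⊓ Q) (N' := P ⊓ R')
      (fun C hC hCD h hh => ⟨(hCD h hh).1, r1 C hC hCD h hh⟩) hA
      (fun g hg => ⟨hAP g hg, r2 g hg⟩) hAD
    have h4 : Module.finrank k (Submodule.span k (genW8 W (P ⊓ R'))) ≤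
        Module.finrank k (Submodule.span k (genW8 W (P ⊓ Q))) := h2
    omega
  exact hBP (hRP B hB r3)

theorem unipotent_pairs_normal8
    {G : Subgroup (LinearMap.GeneralLinearGroup k M)}
    {W : Set (Subgroup (LinearMap.GeneralLinearGroup k M))}
    (hWconj : ∀ A ∈ W, ∀ g ∈ G, conjBy A g ∈ W) :
    ∀ g ∈ G, conjBy (⨆ A ∈ W, A) g = ⨆ A ∈ W, A := by
  intro g hg
  apply le_antisymm
  · rw [Subgroup.map_le_iff_le_comap]
    refine iSup₂_le (fun A hA => ?_)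
    rw [← Subgroup.map_le_iff_le_comap]
    exact le_iSup₂ (f := fun (A : Subgroup (LinearMap.GeneralLinearGroup k M)) (_ : A ∈ W) => A)
      (conjBy A g) (hWconj A hA g hg)
  · refine iSup₂_le (fun A hA a ha => ?_)
    have h1 : conjBy A g⁻¹ ≤ ⨆ A ∈ W, A :=
      le_iSup₂ (f := fun (A : Subgroup (LinearMap.GeneralLinearGroup k M)) (_ : A ∈ W) => A)
        (conjBy A g⁻¹) (hWconj A hA g⁻¹ (G.inv_mem hg))
    refine ⟨g⁻¹ * a * g, h1 ⟨a, ha, ?_⟩, ?_⟩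
    · show g⁻¹ * a * g⁻¹⁻¹ = g⁻¹ * a * g
      rw [inv_inv]
    · show g * (g⁻¹ * a * g) * g⁻¹ = a
      group

end UniPair

end Cfsg.Agent.Lib.Helper8
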